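import Cfsg.Agent.Lib.H8Group.AbelianPairs

/-!
# Blocks of centralizers below a maximal pair on an abelian defect group
-/

set_option autoImplicit false
set_option linter.unusedSectionVars false
set_option linter.style.haveILetI false

namespace Cfsg.Agent.Lib.H8Group

open Cfsg Cfsg.Agent.Lib.Char Cfsg.Agent.Lib.Blocks

universe u

section AF

variable {G : Type u} [Group G] [Fintype G] {M : Ideal AlgInt} {p : ℕ} [hp : Fact p.Prime] {W R Q P : Subgroup G}

theorem inducedCentralChar_trans {R' : Subgroup W} (hcd : CenData R' R)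
    (ξ : Subgroup.centralizer (R : Set G) → ℂ) (w : W) :
    inducedCentralChar (Subgroup.centralizer (R' : Set W)) (ξ ∘ cenTrans hcd) w =
      inducedCentralCharIn W (Subgroup.centralizer (R : Set G)) ξ (w : G) := by
  classical
  rw [inducedCentralChar, inducedCentralCharIn, finsum_mem_def, finsum_mem_def,
    ← finsum_comp_equiv (cenTrans hcd).toEquiv]
  refine finsum_congr fun c => ?_
  have h1 : (cenTrans hcd) 1 = 1 := map_one _
  have hiff : c ∈ {h : Subgroup.centralizer (R' : Set W) | IsConj w ((h : W))} ↔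
      (cenTrans hcd).toEquiv c ∈ {k : Subgroup.centralizer (R : Set G) | ∃ x : W, (x : G) * (k : G) * (x : G)⁻¹ = w} := by
    simp only [Set.mem_ofPred_eq, isConj_iff]
    constructor
    · rintro ⟨x, hx⟩
      refine ⟨x⁻¹, ?_⟩
      have h2 : ((c : W) : G) = (x : G) * (w : G) * (x : G)⁻¹ := by
        rw [← hx]; rfl
      change ((x⁻¹ : W) : G) * ((c : W) : G) * ((x⁻¹ : W) : G)⁻¹ = (w : G)
      rw [h2]
      simp only [InvMemClass.coe_inv]
      group
    · rintro ⟨x, hx⟩
      refine ⟨x⁻¹, Subtype.ext ?_⟩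
      change ((x : G) * ((c : W) : G) * (x : G)⁻¹ = (w : G)) at hx
      change ((x⁻¹ : W) : G) * (w : G) * ((x⁻¹ : W) : G)⁻¹ = ((c : W) : G)
      rw [← hx]
      simp only [InvMemClass.coe_inv]
      group
  by_cases hc : c ∈ {h : Subgroup.centralizer (R' : Set W) | IsConj w ((h : W))}
  · rw [Set.indicator_of_mem hc, Set.indicator_of_mem (hiff.mp hc)]
    simp only [Function.comp_apply, h1]
    rfl
  · rw [Set.indicator_of_notMem hc, Set.indicator_of_notMem (fun h => hc (hiff.mpr h))]

theorem isInducedBlock_of_in_cen {R' : Subgroup W} [Fintype W] [Fintype (Subgroup.centralizer (R : Set G))]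
    [Fintype (Subgroup.centralizer (R' : Set W))] (hcd : CenData R' R)
    {c : Set (IrrCharacter (Subgroup.centralizer (R : Set G)))} {f : Set (IrrCharacter W)}
    (h : IsInducedBlockIn M W (Subgroup.centralizer (R : Set G)) c f) :
    IsInducedBlock M (Subgroup.centralizer (R' : Set W)) (transBlock (cenTrans hcd) c) f := by
  refine ⟨isPBlock_transBlock _ h.1, h.2.1, fun ξ' hξ' χ hχ w => ?_⟩
  have h1 := h.2.2 _ hξ' χ hχ w
  rw [← inducedCentralChar_trans hcd] at h1
  have h2 : ((Cfsg.Agent.Lib.Blocks.irrComp (cenTrans hcd).symm ξ' : IrrCharacter _) : _ → ℂ) ∘ cenTrans hcd =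
      (ξ' : _ → ℂ) := by
    funext c
    simp only [Cfsg.Agent.Lib.Blocks.irrComp_coe, Function.comp_apply, MulEquiv.symm_apply_apply]
  rwa [h2] at h1

theorem in_of_isInducedBlock {R' : Subgroup W} [Fintype W] [Fintype (Subgroup.centralizer (R : Set G))]
    [Fintype (Subgroup.centralizer (R' : Set W))] (hcd : CenData R' R)
    {c : Set (IrrCharacter (Subgroup.centralizer (R : Set G)))} {f : Set (IrrCharacter W)}
    (hc : IsPBlock M c)
    (h : IsInducedBlock M (Subgroup.centralizer (R' : Set W)) (transBlock (cenTrans hcd) c) f) :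
    IsInducedBlockIn M W (Subgroup.centralizer (R : Set G)) c f := by
  refine ⟨hc, h.2.1, fun ξ hξ χ hχ w => ?_⟩
  have h1 := h.2.2 _ (irrComp_mem_transBlock (cenTrans hcd) hξ) χ hχ w
  rw [← inducedCentralChar_trans hcd]
  exact h1

theorem stabilizes_down {R' : Subgroup W} [Fintype W] [Fintype (Subgroup.centralizer (R : Set G))]
    [Fintype (Subgroup.centralizer (R' : Set W))] (hcd : CenData R' R) {x : W}
    {c : Set (IrrCharacter (Subgroup.centralizer (R : Set G)))}
    (hs : StabilizesBlock (Subgroup.centralizer (R : Set G)) c (x : G)) :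
    StabilizesBlock (Subgroup.centralizer (R' : Set W)) (transBlock (cenTrans hcd) c) x := by
  classical
  refine ⟨?_, fun χ hχ => ?_⟩
  · rw [Subgroup.mem_normalizer_iff]
    intro z
    have hz : ∀ y : W, y ∈ Subgroup.centralizer (R' : Set W) ↔ (y : G) ∈ Subgroup.centralizer (R : Set G) := by
      intro y
      refine ⟨hcd.cen y, fun hy => ?_⟩
      rw [Subgroup.mem_centralizer_iff]
      intro r hr
      apply Subtype.ext
      exact Subgroup.mem_centralizer_iff.mp hy _ (hcd.le ⟨r, hr, rfl⟩)
    rw [hz, hz]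
    have := Subgroup.mem_normalizer_iff.mp hs.1 (z : G)
    simpa using this
  · obtain ⟨ξ', hξ', h1⟩ := hs.2 _ hχ
    refine ⟨Cfsg.Agent.Lib.Blocks.irrComp (cenTrans hcd) ξ', irrComp_mem_transBlock _ hξ', fun k k' hk => ?_⟩
    have h2 := h1 (cenTrans hcd k) (cenTrans hcd k') (by
      change ((k' : W) : G) = (x : G) * ((k : W) : G) * (x : G)⁻¹
      have := congrArg (Subtype.val) hk
      simpa using this)
    simp only [Cfsg.Agent.Lib.Blocks.irrComp_coe, Function.comp_apply] at h2 ⊢
    rw [h2]
    simp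

theorem cenData_of_abelian (hQP : Q ≤ P) (hab : ∀ x ∈ P, ∀ y ∈ P, x * y = y * x) :
    P ≤ Subgroup.centralizer (Q : Set G) := by
  intro x hx
  rw [Subgroup.mem_centralizer_iff]
  intro q hq
  exact hab q (hQP hq) x hx

/-- The pair `(P, c)` is maximal for `f = c^{C(Q)}`. -/
theorem isMaximalBrauerPair_in_centralizer [Fintype (Subgroup.centralizer (Q : Set G))]
    [Fintype (Subgroup.centralizer (P : Set G))]
    [Fintype (Subgroup.centralizer ((P.subgroupOf (Subgroup.centralizer (Q : Set G)) : Subgroup _) : Set (Subgroup.centralizer (Q : Set G))))]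
    (hM : IsPModular p M) {B : Set (IrrCharacter G)}
    {c : Set (IrrCharacter (Subgroup.centralizer (P : Set G)))} (hmax : IsMaximalBrauerPair p M B P c)
    (hab : ∀ x ∈ P, ∀ y ∈ P, x * y = y * x) (hQP : Q ≤ P)
    {f : Set (IrrCharacter (Subgroup.centralizer (Q : Set G)))}
    (hf : IsInducedBlockIn M (Subgroup.centralizer (Q : Set G)) (Subgroup.centralizer (P : Set G)) c f) :
    ∃ hcd : CenData (P.subgroupOf (Subgroup.centralizer (Q : Set G))) P,
      SubpairLE p M Q f P c ∧
      IsMaximalBrauerPair p M f (P.subgroupOf (Subgroup.centralizer (Q : Set G))) (transBlock (cenTrans hcd) c) := by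
  classical
  have := isPrime_of_modular hM
  have hPW := cenData_of_abelian hQP hab
  have hcd : CenData (P.subgroupOf (Subgroup.centralizer (Q : Set G))) P := cenData_of_le le_rfl hPW hQP
  refine ⟨hcd, ?_⟩
  have hPe := hmax.1.1
  have hPp := hPe.1
  have hQp : IsPGroup p Q := hPp.to_le hQP
  have hP'p : IsPGroup p (P.subgroupOf (Subgroup.centralizer (Q : Set G))) := isPGroup_subgroupOf hPp _
  have hc' : IsPBlock M (transBlock (cenTrans hcd) c) := isPBlock_transBlock _ hPe.2
  have hpair' : IsBrauerPairOf p M f (P.subgroupOf (Subgroup.centralizer (Q : Set G))) (transBlock (cenTrans hcd) c) :=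
    (isBrauerPairOf_iff hM hP'p hc').mpr (isInducedBlock_of_in_cen hcd hf)
  have hcoefW : ∀ w : Subgroup.centralizer (Q : Set G), blockCoeff f w =
      subgroupBlockCoeff (Subgroup.centralizer (Q : Set G)) f (w : G) := fun w => by
    simp only [subgroupBlockCoeff, dif_pos w.2]
  have hPN : P ≤ Subgroup.normalizer (Q : Set G) := hPW.trans (Subgroup.centralizer_le_normalizer _)
  have hPst : ∀ x ∈ P, StabilizesBlock (Subgroup.centralizer (Q : Set G)) f x := fun x hx =>
    stabilizesBlock_of_mem_sup (Subgroup.mem_sup_right (hPW hx)) f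
  have hns := isNormalSubpair_of_isBrauerPairOf hcd hcoefW ⟨hQp, hf.2.1⟩ hPp hQP hPN hPst hpair'
  rw [transBlock_symm_transBlock] at hns
  have hle : SubpairLE p M Q f P c :=
    Relation.ReflTransGen.single (show NormalSubpairRel p M ⟨Q, f⟩ ⟨P, c⟩ from hns)
  refine ⟨hle, ?_⟩
  obtain ⟨D, hD, hDle⟩ := exists_defect_ge_cen hM hPe hQP hf.2.1 hle
  obtain ⟨x, hx, hxD⟩ := exists_conj_isDefectGroup_cen hM hmax hf.2.1 hle
  have h1 := card_defect_conjB hM x rfl hf.2.1 hD hxD
  have hQ' := le_of_subpairLE hx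
  have hPC : P ≤ Subgroup.centralizer ((conjS x Q : Subgroup G) : Set G) := cenData_of_abelian hQ' hab
  rw [card_subgroupOf_of_le inf_le_right, inf_eq_left.mpr hPC] at h1
  have heq : (P ⊓ Subgroup.centralizer (Q : Set G)).subgroupOf (Subgroup.centralizer (Q : Set G)) = D :=
    Subgroup.eq_of_le_of_card_ge hDle (by
      rw [card_subgroupOf_of_le inf_le_right, inf_eq_left.mpr hPW, ← h1])
  rw [inf_eq_left.mpr hPW] at heq
  rw [← heq] at hD
  exact isMaximalBrauerPair_of_defect hM hpair' hD

end AF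

end Cfsg.Agent.Lib.H8Group
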