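import Cfsg.Agent.Lib.Blocks.KleinCount
import Cfsg.Agent.Lib.Char.FSCount

/-!
# Brauer's order formula for groups with Klein four Sylow 2-subgroups
-/

set_option autoImplicit false
set_option linter.unusedSectionVars false

namespace Cfsg.Agent.Lib.Blocks

open Cfsg Cfsg.Agent.Lib.Char
open scoped ComplexConjugate

universe u

section Singular

variable {G : Type u} [Group G] [Fintype G] {M : Ideal AlgInt} [hp2 : Fact (Nat.Prime 2)]

/-- Characters of the principal `2`-block are constant on the `2`-singular elements. -/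
theorem klein_principal_singular (hM : IsPModular 2 M) (P : Sylow 2 G) (hP : IsKleinFour (P : Subgroup G))
    (hone : ∀ s t : G, orderOf s = 2 → orderOf t = 2 → IsConj s t) {χ : IrrCharacter G}
    (hχ : χ ∈ principalBlock M G) {g z : G} (hg : 2 ∣ orderOf g) (hz : orderOf z = 2) :
    (χ : G → ℂ) g = (χ : G → ℂ) z := by
  classical
  obtain ⟨α, hα⟩ := exists_isPExp G 2
  obtain ⟨y, huy, hc, ⟨k, hk⟩, hy⟩ := hα.isPPart g
  set u := g ^ α with hu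
  have hu1 : u ≠ 1 := by
    intro h
    rw [h, one_mul] at huy
    rw [huy] at hy
    exact hy hg
  have huord : orderOf u = 2 := orderOf_eq_prime (pow_two_eq_one_of_two_element P hP hk) hu1
  obtain ⟨⟨m, hm⟩, -⟩ := exists_index_core_centralizer P hP huord
  letI : Fintype (Subgroup.centralizer ({u} : Set G)) := Fintype.ofFinite _
  have hyC : y ∈ Subgroup.centralizer ({u} : Set G) := mem_centralizer_singleton_of_commute hc.symm
  have hyreg : ¬ 2 ∣ orderOf (⟨y, hyC⟩ : Subgroup.centralizer ({u} : Set G)) := by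
    rwa [Subgroup.orderOf_mk]
  have hv : y ∈ centralizerPPrimeCore 2 u :=
    ⟨⟨y, hyC⟩, mem_of_regular_of_index hm hyreg, rfl⟩
  have h1 := principal_apply_mul_core hM ⟨k, hk⟩ hv hχ
  rw [huy] at h1
  rw [h1]
  obtain ⟨c, hc⟩ := isConj_iff.mp (hone z u hz huord)
  rw [← hc, irr_isClassFunction χ _ c]

end Singular

section Formula

variable {G : Type u} [Group G] [Fintype G] {M : Ideal AlgInt}

/-- The arithmetic of the formula. -/
theorem brauer_formula_algebra {x₁ x₂ x₃ e₁ e₂ e₃ A n cJ cP g : ℚ} (hx₁ : x₁ ≠ 0) (hx₂ : x₂ ≠ 0) (hx₃ : x₃ ≠ 0)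
    (h₁ : e₁ ^ 2 = 1) (h₂ : e₂ ^ 2 = 1) (h₃ : e₃ ^ 2 = 1) (hC : 1 + e₁ * x₁ + e₂ * x₂ + e₃ * x₃ = 0)
    (hD : A * (1 + e₁ / x₁ + e₂ / x₂ + e₃ / x₃) = 4 * n) (hT : n * cP ^ 2 = 2 * cJ ^ 2) (hE : A * cJ = g)
    (hJ : cJ ≠ 0) (hP : cP ≠ 0) :
    g = 8 * ((x₁ * x₂ * x₃) / ((x₁ + e₁) * (x₂ + e₂) * (x₃ + e₃))) * cJ ^ 3 / cP ^ 2 := by
  have hprod : (x₁ + e₁) * (x₂ + e₂) * (x₃ + e₃) = x₁ * x₂ * x₃ * (1 + e₁ / x₁ + e₂ / x₂ + e₃ / x₃) := by
    field_simp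
    have h4 : e₁ * e₂ * x₃ + e₁ * e₃ * x₂ + e₂ * e₃ * x₁ + e₁ * e₂ * e₃ =
        e₁ * e₂ * e₃ * (1 + e₁ * x₁ + e₂ * x₂ + e₃ * x₃) := by
      have h5 : e₁ * e₂ * e₃ * (e₁ * x₁) = e₂ * e₃ * x₁ * e₁ ^ 2 := by ring
      have h6 : e₁ * e₂ * e₃ * (e₂ * x₂) = e₁ * e₃ * x₂ * e₂ ^ 2 := by ring
      have h7 : e₁ * e₂ * e₃ * (e₃ * x₃) = e₁ * e₂ * x₃ * e₃ ^ 2 := by ring
      rw [mul_add, mul_add, mul_add, h5, h6, h7, h₁, h₂, h₃]
      ring
    rw [hC, mul_zero] at h4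
    linear_combination h4
  have hn : n ≠ 0 := by
    intro h
    rw [h, zero_mul] at hT
    have : cJ ^ 2 ≠ 0 := pow_ne_zero 2 hJ
    apply this
    linarith
  have hE1 : (1 + e₁ / x₁ + e₂ / x₂ + e₃ / x₃) ≠ 0 := by
    intro h
    rw [h, mul_zero] at hD
    apply hn
    linarith
  have hX : x₁ * x₂ * x₃ ≠ 0 := mul_ne_zero (mul_ne_zero hx₁ hx₂) hx₃
  rw [hprod, div_mul_cancel_left₀ hX, ← hE]
  have hcP2 : cP ^ 2 ≠ 0 := pow_ne_zero 2 hP
  have hn' : n = 2 * cJ ^ 2 / cP ^ 2 := by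
    rw [eq_div_iff hcP2]
    exact hT
  have hA : A = 4 * n / (1 + e₁ / x₁ + e₂ / x₂ + e₃ / x₃) := by
    rw [eq_div_iff hE1]
    exact hD
  rw [hA, hn']
  field_simp
  ring

variable [hp2 : Fact (Nat.Prime 2)]

theorem brauer_relations (hM : IsPModular 2 M) (g₀ : ℕ) (hg₀ : Odd g₀) (hG : Nat.card G = 4 * g₀)
    (hnc : ¬ ∃ N : Subgroup G, N.Normal ∧ Nat.card N = g₀) (P : Sylow 2 G) (J : G)
    (hJ : J ∈ (P : Subgroup G)) (hJ2 : orderOf J = 2) (χ₁ χ₂ χ₃ : IrrCharacter G) (ε₁ ε₂ ε₃ : ℤ)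
    (hB : principalBlock M G = {χ : IrrCharacter G | (χ : G → ℂ) = (fun _ => 1) ∨ χ = χ₁ ∨ χ = χ₂ ∨ χ = χ₃})
    (hdist : (χ₁ : G → ℂ) ≠ (fun _ => 1) ∧ (χ₂ : G → ℂ) ≠ (fun _ => 1) ∧ (χ₃ : G → ℂ) ≠ (fun _ => 1) ∧
      χ₁ ≠ χ₂ ∧ χ₁ ≠ χ₃ ∧ χ₂ ≠ χ₃)
    (hε : (ε₁ = 1 ∨ ε₁ = -1) ∧ (ε₂ = 1 ∨ ε₂ = -1) ∧ (ε₃ = 1 ∨ ε₃ = -1))
    (hval : (χ₁ : G → ℂ) J = ε₁ ∧ (χ₂ : G → ℂ) J = ε₂ ∧ (χ₃ : G → ℂ) J = ε₃) :
    ∃ A n : ℕ, (charDegree (χ₁ : G → ℂ) : ℚ) ≠ 0 ∧ (charDegree (χ₂ : G → ℂ) : ℚ) ≠ 0 ∧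
      (charDegree (χ₃ : G → ℂ) : ℚ) ≠ 0 ∧
      1 + (ε₁ : ℚ) * charDegree (χ₁ : G → ℂ) + (ε₂ : ℚ) * charDegree (χ₂ : G → ℂ) +
        (ε₃ : ℚ) * charDegree (χ₃ : G → ℂ) = 0 ∧
      (A : ℚ) * (1 + (ε₁ : ℚ) / charDegree (χ₁ : G → ℂ) + (ε₂ : ℚ) / charDegree (χ₂ : G → ℂ) +
        (ε₃ : ℚ) / charDegree (χ₃ : G → ℂ)) = 4 * (n : ℚ) ∧
      n * Nat.card (Subgroup.centralizer ((P : Subgroup G) : Set G)) ^ 2 =
        2 * Nat.card (Subgroup.centralizer ({J} : Set G)) ^ 2 ∧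
      A * Nat.card (Subgroup.centralizer ({J} : Set G)) = Nat.card G := by
  classical
  have := isPrime_of_modular hM
  obtain ⟨hP, hone⟩ := klein_of_no_complement g₀ hg₀ hG hnc P hJ hJ2
  obtain ⟨h1d, h2d, h3d, h12, h13, h23⟩ := hdist
  obtain ⟨hv1, hv2, hv3⟩ := hval
  set one : IrrCharacter G := oneIrr G with hone'
  have honeval : ∀ g, (one : G → ℂ) g = 1 := fun _ => rfl
  have hPB : IsPBlock M (principalBlock M G) := ⟨oneIrr G, rfl⟩
  have hmemB : ∀ χ, χ ∈ principalBlock M G ↔ χ = one ∨ χ = χ₁ ∨ χ = χ₂ ∨ χ = χ₃ := by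
    intro χ
    rw [hB]
    show (χ : G → ℂ) = (fun _ => 1) ∨ χ = χ₁ ∨ χ = χ₂ ∨ χ = χ₃ ↔ _
    have h : (χ : G → ℂ) = (fun _ => 1) ↔ χ = one := by
      constructor
      · intro h
        exact Subtype.ext h
      · rintro rfl
        rfl
    rw [h]
  have hne1 : one ≠ χ₁ := fun h => h1d (by rw [← h]; rfl)
  have hne2 : one ≠ χ₂ := fun h => h2d (by rw [← h]; rfl)
  have hne3 : one ≠ χ₃ := fun h => h3d (by rw [← h]; rfl)
  have hsumB : ∀ F : IrrCharacter G → ℂ, ∑ χ, indic (principalBlock M G) χ * F χ =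
      F one + F χ₁ + F χ₂ + F χ₃ := by
    intro F
    let S : Finset (IrrCharacter G) := {one, χ₁, χ₂, χ₃}
    have hS : ∀ χ, χ ∈ S ↔ χ ∈ principalBlock M G := by
      intro χ
      rw [hmemB]
      simp [S]
    have h1 : ∑ χ, indic (principalBlock M G) χ * F χ = ∑ χ ∈ S, F χ := by
      symm
      rw [← Finset.sum_subset (Finset.subset_univ S)]
      · refine Finset.sum_congr rfl fun χ hχ => ?_
        rw [indic_apply_of_mem ((hS χ).mp hχ), one_mul]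
      · intro χ _ hχ
        rw [indic_apply_of_notMem (fun h => hχ ((hS χ).mpr h)), zero_mul]
    rw [h1]
    simp only [S]
    rw [Finset.sum_insert (by simp [hne1, hne2, hne3]), Finset.sum_insert (by simp [h12, h13]),
      Finset.sum_insert (by simp [h23]), Finset.sum_singleton]
    ring
  -- the function `f`
  let f : G → ℂ := fun y => 1 + (ε₁ : ℂ) * (χ₁ : G → ℂ) y + (ε₂ : ℂ) * (χ₂ : G → ℂ) y + (ε₃ : ℂ) * (χ₃ : G → ℂ) y
  obtain ⟨α, hα⟩ := exists_isPExp G 2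
  have hJ1 : J ≠ 1 := by
    rintro rfl
    simp at hJ2
  have hf0 : ∀ y : G, ¬ 2 ∣ orderOf y → f y = 0 := by
    intro y hy
    have h1 := sum_block_mul_eq_zero hM hα hPB (g := J) (h := y⁻¹) (by
      have h2 : (y⁻¹) ^ α = 1 := by rw [inv_pow, hα.pow_of_regular hy, inv_one]
      have h3 : J ^ α = J := hα.pow_of_pPow (k := 1) (by simpa using hJ2)
      rw [h2, h3, isConj_one_right]
      exact hJ1)
    simp only [inv_inv] at h1
    rw [hsumB, honeval, honeval, hv1, hv2, hv3] at h1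
    show 1 + (ε₁ : ℂ) * (χ₁ : G → ℂ) y + (ε₂ : ℂ) * (χ₂ : G → ℂ) y + (ε₃ : ℂ) * (χ₃ : G → ℂ) y = 0
    linear_combination h1
  have he1 : ((ε₁ : ℂ)) ^ 2 = 1 := by rcases hε.1 with h | h <;> simp [h]
  have he2 : ((ε₂ : ℂ)) ^ 2 = 1 := by rcases hε.2.1 with h | h <;> simp [h]
  have he3 : ((ε₃ : ℂ)) ^ 2 = 1 := by rcases hε.2.2 with h | h <;> simp [h]
  have hf4 : ∀ y : G, 2 ∣ orderOf y → f y = 4 := by
    intro y hy
    have h1 := klein_principal_singular hM P hP hone ((hmemB χ₁).mpr (Or.inr (Or.inl rfl))) hy hJ2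
    have h2 := klein_principal_singular hM P hP hone ((hmemB χ₂).mpr (Or.inr (Or.inr (Or.inl rfl)))) hy hJ2
    have h3 := klein_principal_singular hM P hP hone ((hmemB χ₃).mpr (Or.inr (Or.inr (Or.inr rfl)))) hy hJ2
    show 1 + (ε₁ : ℂ) * (χ₁ : G → ℂ) y + (ε₂ : ℂ) * (χ₂ : G → ℂ) y + (ε₃ : ℂ) * (χ₃ : G → ℂ) y = 4
    rw [h1, h2, h3, hv1, hv2, hv3]
    linear_combination he1 + he2 + he3
  have hdeg : ∀ χ : IrrCharacter G, (χ : G → ℂ) 1 = (charDegree (χ : G → ℂ) : ℂ) :=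
    fun χ => apply_one_eq_charDegree (irr_isCharacter χ)
  have hxne : ∀ χ : IrrCharacter G, (charDegree (χ : G → ℂ) : ℂ) ≠ 0 := by
    intro χ
    rw [← hdeg]
    exact irr_apply_one_ne_zero χ
  -- step C
  have hC : (1 + (ε₁ : ℂ) * charDegree (χ₁ : G → ℂ) + (ε₂ : ℂ) * charDegree (χ₂ : G → ℂ) +
      (ε₃ : ℂ) * charDegree (χ₃ : G → ℂ)) = 0 := by
    have h1 := hf0 1 (by simp)
    simp only [f, hdeg] at h1
    exact h1
  -- step D
  set A : ℕ := (Subgroup.centralizer ({J} : Set G)).index with hA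
  have hspec : ∀ χ : IrrCharacter G, ∑ x, cls J x * (χ : G → ℂ) (x * J) =
      (A : ℂ) * (χ : G → ℂ) J / (χ : G → ℂ) 1 * (χ : G → ℂ) J := by
    intro χ
    rw [spec_mul_apply _ (cls_isClassFunction J), spec_cls]
    rfl
  have hD : (A : ℂ) * (1 + (ε₁ : ℂ) / charDegree (χ₁ : G → ℂ) + (ε₂ : ℂ) / charDegree (χ₂ : G → ℂ) +
      (ε₃ : ℂ) / charDegree (χ₃ : G → ℂ)) = 4 * ((kleinT J).card : ℂ) := by
    have h1 : ∑ x, cls J x * f (x * J) = 4 * ((kleinT J).card : ℂ) := by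
      have h2 : ∀ x, cls J x * f (x * J) = if x ∈ kleinT J then 4 else 0 := by
        intro x
        by_cases hconj : IsConj J x
        · have hx2 : orderOf x = 2 := by
            rw [← hJ2]
            obtain ⟨c, hc⟩ := isConj_iff.mp hconj
            rw [← hc]
            exact orderOf_injective (MulAut.conj c).toMonoidHom (MulAut.conj c).injective J
          have hcls : cls J x = 1 := if_pos hconj
          rw [hcls, one_mul]
          by_cases hx : x ∈ kleinT J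
          · rw [if_pos hx]
            exact hf4 _ (mem_kleinT.mp hx).2.2
          · rw [if_neg hx]
            apply hf0
            intro hd
            apply hx
            refine mem_kleinT.mpr ⟨?_, ?_, hd⟩
            · rw [← hx2]
              exact pow_orderOf_eq_one x
            · rintro rfl
              simp at hx2
        · have hcls : cls J x = 0 := if_neg hconj
          have hx : x ∉ kleinT J := by
            intro hx
            obtain ⟨h3, h4, -⟩ := mem_kleinT.mp hx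
            exact hconj (hone J x hJ2 (orderOf_eq_prime h3 h4))
          rw [hcls, zero_mul, if_neg hx]
      rw [Finset.sum_congr rfl fun x _ => h2 x, Finset.sum_ite, Finset.sum_const_zero, add_zero,
        Finset.sum_const, Finset.filter_mem_eq_inter, Finset.univ_inter, nsmul_eq_mul]
      ring
    rw [← h1]
    have h3 : ∀ x, cls J x * f (x * J) = cls J x + (ε₁ : ℂ) * (cls J x * (χ₁ : G → ℂ) (x * J)) +
        (ε₂ : ℂ) * (cls J x * (χ₂ : G → ℂ) (x * J)) + (ε₃ : ℂ) * (cls J x * (χ₃ : G → ℂ) (x * J)) := by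
      intro x
      simp only [f]
      ring
    rw [Finset.sum_congr rfl fun x _ => h3 x, Finset.sum_add_distrib, Finset.sum_add_distrib,
      Finset.sum_add_distrib, ← Finset.mul_sum, ← Finset.mul_sum, ← Finset.mul_sum, hspec, hspec, hspec]
    have h4 : ∑ x, cls J x = (A : ℂ) := by
      have h5 := hspec one
      simp only [honeval, mul_one, div_one] at h5
      exact h5
    rw [h4, hv1, hv2, hv3, hdeg, hdeg, hdeg]
    have hx1 := hxne χ₁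
    have hx2 := hxne χ₂
    have hx3 := hxne χ₃
    have e1 : (ε₁ : ℂ) * ((A : ℂ) * (ε₁ : ℂ) / charDegree (χ₁ : G → ℂ) * (ε₁ : ℂ)) =
        (A : ℂ) * ((ε₁ : ℂ) / charDegree (χ₁ : G → ℂ)) * (ε₁ : ℂ) ^ 2 := by ring
    have e2 : (ε₂ : ℂ) * ((A : ℂ) * (ε₂ : ℂ) / charDegree (χ₂ : G → ℂ) * (ε₂ : ℂ)) =
        (A : ℂ) * ((ε₂ : ℂ) / charDegree (χ₂ : G → ℂ)) * (ε₂ : ℂ) ^ 2 := by ring
    have e3 : (ε₃ : ℂ) * ((A : ℂ) * (ε₃ : ℂ) / charDegree (χ₃ : G → ℂ) * (ε₃ : ℂ)) =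
        (A : ℂ) * ((ε₃ : ℂ) / charDegree (χ₃ : G → ℂ)) * (ε₃ : ℂ) ^ 2 := by ring
    rw [e1, e2, e3, he1, he2, he3]
    ring
  have hxQ : ∀ χ : IrrCharacter G, (charDegree (χ : G → ℂ) : ℚ) ≠ 0 := by
    intro χ h
    apply hxne χ
    have h2 : charDegree (χ : G → ℂ) = 0 := by exact_mod_cast h
    rw [h2]
    simp
  have hCQ : 1 + (ε₁ : ℚ) * charDegree (χ₁ : G → ℂ) + (ε₂ : ℚ) * charDegree (χ₂ : G → ℂ) +
      (ε₃ : ℚ) * charDegree (χ₃ : G → ℂ) = 0 := by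
    have h1 : ((1 + (ε₁ : ℚ) * charDegree (χ₁ : G → ℂ) + (ε₂ : ℚ) * charDegree (χ₂ : G → ℂ) +
      (ε₃ : ℚ) * charDegree (χ₃ : G → ℂ) : ℚ) : ℂ) = 0 := by
      push_cast
      exact hC
    exact_mod_cast h1
  have hDQ : (A : ℚ) * (1 + (ε₁ : ℚ) / charDegree (χ₁ : G → ℂ) + (ε₂ : ℚ) / charDegree (χ₂ : G → ℂ) +
      (ε₃ : ℚ) / charDegree (χ₃ : G → ℂ)) = 4 * ((kleinT J).card : ℚ) := by
    have h1 : (((A : ℚ) * (1 + (ε₁ : ℚ) / charDegree (χ₁ : G → ℂ) + (ε₂ : ℚ) / charDegree (χ₂ : G → ℂ) +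
      (ε₃ : ℚ) / charDegree (χ₃ : G → ℂ)) : ℚ) : ℂ) = ((4 * ((kleinT J).card : ℚ) : ℚ) : ℂ) := by
      push_cast
      exact hD
    exact_mod_cast h1
  exact ⟨A, (kleinT J).card, hxQ χ₁, hxQ χ₂, hxQ χ₃, hCQ, hDQ, card_kleinT_mul hP hone hJ hJ2,
    Subgroup.index_mul_card (Subgroup.centralizer ({J} : Set G))⟩

theorem brauer_order_main (hM : IsPModular 2 M) (g₀ : ℕ) (hg₀ : Odd g₀) (hG : Nat.card G = 4 * g₀)
    (hnc : ¬ ∃ N : Subgroup G, N.Normal ∧ Nat.card N = g₀) (P : Sylow 2 G) (J : G)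
    (hJ : J ∈ (P : Subgroup G)) (hJ2 : orderOf J = 2) (χ₁ χ₂ χ₃ : IrrCharacter G) (ε₁ ε₂ ε₃ : ℤ)
    (hB : principalBlock M G = {χ : IrrCharacter G | (χ : G → ℂ) = (fun _ => 1) ∨ χ = χ₁ ∨ χ = χ₂ ∨ χ = χ₃})
    (hdist : (χ₁ : G → ℂ) ≠ (fun _ => 1) ∧ (χ₂ : G → ℂ) ≠ (fun _ => 1) ∧ (χ₃ : G → ℂ) ≠ (fun _ => 1) ∧
      χ₁ ≠ χ₂ ∧ χ₁ ≠ χ₃ ∧ χ₂ ≠ χ₃)
    (hε : (ε₁ = 1 ∨ ε₁ = -1) ∧ (ε₂ = 1 ∨ ε₂ = -1) ∧ (ε₃ = 1 ∨ ε₃ = -1))
    (hval : (χ₁ : G → ℂ) J = ε₁ ∧ (χ₂ : G → ℂ) J = ε₂ ∧ (χ₃ : G → ℂ) J = ε₃) :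
    (Nat.card G : ℚ) = 8 * (((charDegree (χ₁ : G → ℂ) : ℚ) * charDegree (χ₂ : G → ℂ) * charDegree (χ₃ : G → ℂ)) /
      ((charDegree (χ₁ : G → ℂ) + ε₁) * (charDegree (χ₂ : G → ℂ) + ε₂) * (charDegree (χ₃ : G → ℂ) + ε₃))) *
      (Nat.card (Subgroup.centralizer ({J} : Set G)) : ℚ) ^ 3 /
      (Nat.card (Subgroup.centralizer ((P : Subgroup G) : Set G)) : ℚ) ^ 2 := by
  obtain ⟨A, n, h1, h2, h3, hC, hD, hT, hE⟩ := brauer_relations hM g₀ hg₀ hG hnc P J hJ hJ2 χ₁ χ₂ χ₃ ε₁ ε₂ ε₃ hB hdist hε hval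
  have hcJ0 : (Nat.card (Subgroup.centralizer ({J} : Set G)) : ℚ) ≠ 0 := by
    exact_mod_cast Nat.card_pos.ne'
  have hcP0 : (Nat.card (Subgroup.centralizer ((P : Subgroup G) : Set G)) : ℚ) ≠ 0 := by
    exact_mod_cast Nat.card_pos.ne'
  have heQ : ∀ e : ℤ, (e = 1 ∨ e = -1) → (e : ℚ) ^ 2 = 1 := by
    rintro e (rfl | rfl) <;> simp
  have hT' : (n : ℚ) * (Nat.card (Subgroup.centralizer ((P : Subgroup G) : Set G)) : ℚ) ^ 2 =
      2 * (Nat.card (Subgroup.centralizer ({J} : Set G)) : ℚ) ^ 2 := by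
    exact_mod_cast hT
  have hE' : (A : ℚ) * (Nat.card (Subgroup.centralizer ({J} : Set G)) : ℚ) = (Nat.card G : ℚ) := by
    exact_mod_cast hE
  exact brauer_formula_algebra h1 h2 h3 (heQ _ hε.1) (heQ _ hε.2.1) (heQ _ hε.2.2) hC hD hT' hE' hcJ0 hcP0

theorem conj_mem_principalBlock (χ : IrrCharacter G) (hχ : χ ∈ principalBlock M G)
    (χ' : IrrCharacter G) (hχ' : ∀ g, (χ' : G → ℂ) g = conj ((χ : G → ℂ) g)) : χ' ∈ principalBlock M G := by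
  intro g
  have h1 := hχ g⁻¹
  have h2 : Subgroup.centralizer ({g⁻¹} : Set G) = Subgroup.centralizer ({g} : Set G) := by
    ext x
    rw [Subgroup.mem_centralizer_singleton_iff, Subgroup.mem_centralizer_singleton_iff]
    constructor
    · intro h
      have h3 : Commute x g⁻¹ := h
      have h4 := h3.inv_right
      rwa [inv_inv] at h4
    · intro h
      have h3 : Commute x g := h
      exact h3.inv_right.eq
  have h3 : centralChar (χ' : G → ℂ) g = centralChar (χ : G → ℂ) g⁻¹ := by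
    rw [centralChar, centralChar, h2, hχ', hχ', irr_apply_inv]
    have h4 : conj ((χ : G → ℂ) 1) = (χ : G → ℂ) 1 := by
      rw [← irr_apply_inv, inv_one]
    rw [h4]
  have h4 : centralChar (fun _ : G => (1 : ℂ)) g = centralChar (fun _ : G => (1 : ℂ)) g⁻¹ := by
    rw [centralChar, centralChar, h2]
  rw [h3, h4]
  exact h1

/-- **Brauer**: the two characters of the same sign have the same degree. -/
theorem degree_eq_of_signs (hM : IsPModular 2 M) (P : Sylow 2 G) (hP : IsKleinFour (P : Subgroup G)) (J : G)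
    (hJ2 : orderOf J = 2) (χ₁ χ₂ χ₃ : IrrCharacter G)
    (hB : principalBlock M G = {χ : IrrCharacter G | (χ : G → ℂ) = (fun _ => 1) ∨ χ = χ₁ ∨ χ = χ₂ ∨ χ = χ₃})
    (hdist : (χ₁ : G → ℂ) ≠ (fun _ => 1) ∧ (χ₂ : G → ℂ) ≠ (fun _ => 1) ∧ (χ₃ : G → ℂ) ≠ (fun _ => 1) ∧
      χ₁ ≠ χ₂ ∧ χ₁ ≠ χ₃ ∧ χ₂ ≠ χ₃)
    (hval : (χ₁ : G → ℂ) J = 1 ∧ (χ₂ : G → ℂ) J = 1 ∧ (χ₃ : G → ℂ) J = -1) :
    charDegree (χ₁ : G → ℂ) = charDegree (χ₂ : G → ℂ) := by
  classical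
  have := isPrime_of_modular hM
  obtain ⟨h1d, h2d, h3d, h12, h13, h23⟩ := hdist
  obtain ⟨hv1, hv2, hv3⟩ := hval
  set one : IrrCharacter G := oneIrr G with hone'
  have honeval : ∀ g, (one : G → ℂ) g = 1 := fun _ => rfl
  have hPB : IsPBlock M (principalBlock M G) := ⟨oneIrr G, rfl⟩
  have hmemB : ∀ χ, χ ∈ principalBlock M G ↔ χ = one ∨ χ = χ₁ ∨ χ = χ₂ ∨ χ = χ₃ := by
    intro χ
    rw [hB]
    show (χ : G → ℂ) = (fun _ => 1) ∨ χ = χ₁ ∨ χ = χ₂ ∨ χ = χ₃ ↔ _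
    have h : (χ : G → ℂ) = (fun _ => 1) ↔ χ = one := by
      constructor
      · intro h
        exact Subtype.ext h
      · rintro rfl
        rfl
    rw [h]
  have hne1 : one ≠ χ₁ := fun h => h1d (by rw [← h]; rfl)
  have hne2 : one ≠ χ₂ := fun h => h2d (by rw [← h]; rfl)
  have hne3 : one ≠ χ₃ := fun h => h3d (by rw [← h]; rfl)
  have hsumB : ∀ F : IrrCharacter G → ℂ, ∑ χ, indic (principalBlock M G) χ * F χ =
      F one + F χ₁ + F χ₂ + F χ₃ := by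
    intro F
    let S : Finset (IrrCharacter G) := {one, χ₁, χ₂, χ₃}
    have hS : ∀ χ, χ ∈ S ↔ χ ∈ principalBlock M G := by
      intro χ
      rw [hmemB]
      simp [S]
    have h1 : ∑ χ, indic (principalBlock M G) χ * F χ = ∑ χ ∈ S, F χ := by
      symm
      rw [← Finset.sum_subset (Finset.subset_univ S)]
      · refine Finset.sum_congr rfl fun χ hχ => ?_
        rw [indic_apply_of_mem ((hS χ).mp hχ), one_mul]
      · intro χ _ hχ
        rw [indic_apply_of_notMem (fun h => hχ ((hS χ).mpr h)), zero_mul]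
    rw [h1]
    simp only [S]
    rw [Finset.sum_insert (by simp [hne1, hne2, hne3]), Finset.sum_insert (by simp [h12, h13]),
      Finset.sum_insert (by simp [h23]), Finset.sum_singleton]
    ring
  obtain ⟨α, hα⟩ := exists_isPExp G 2
  have hJ1 : J ≠ 1 := by
    rintro rfl
    simp at hJ2
  have hJα : J ^ α = J := hα.pow_of_pPow (k := 1) (by simpa using hJ2)
  -- the square root function vanishes on the section of `J`
  have hsec : ∀ y, IsConj (y ^ α) (J ^ α) → sqrtCount y = 0 := by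
    intro y hy
    rw [sqrtCount]
    have hempty : IsEmpty {u : G // u * u = y} := by
      constructor
      rintro ⟨u, rfl⟩
      have h1 : (u ^ α) ^ 2 = 1 := by
        obtain ⟨z, hz, hc, ⟨k, hk⟩, hz'⟩ := hα.isPPart u
        exact pow_two_eq_one_of_two_element P hP hk
      have h2 : (u * u) ^ α = 1 := by
        rw [← pow_two, ← pow_mul, mul_comm, pow_mul, h1]
      rw [h2, hJα, isConj_one_right] at hy
      exact hJ1 hy
    rw [Nat.card_of_isEmpty, Nat.cast_zero]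
  have hproj := projOp_eq_zero_of_section hM hα (indic_mem_zS hPB) (indic_mul_self _)
    isClassFunction_sqrtCount hsec
  rw [projOp_eq_sum _ isClassFunction_sqrtCount] at hproj
  have hcl : ∀ χ : IrrCharacter G, classInner (sqrtCount : G → ℂ) (χ : G → ℂ) = fsInd (χ : G → ℂ) :=
    fun χ => classInner_sqrtCount χ.2
  simp only [hcl] at hproj
  rw [hsumB, honeval, hv1, hv2, hv3] at hproj
  -- indicators
  have hJsq : J ^ 2 = 1 := by rw [← hJ2]; exact pow_orderOf_eq_one J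
  have hdeg : ∀ χ : IrrCharacter G, (χ : G → ℂ) 1 = (charDegree (χ : G → ℂ) : ℂ) :=
    fun χ => apply_one_eq_charDegree (irr_isCharacter χ)
  have hodd : ∀ χ : IrrCharacter G, ((χ : G → ℂ) J = 1 ∨ (χ : G → ℂ) J = -1) → Odd (charDegree (χ : G → ℂ)) := by
    intro χ hχ
    have hA : ∀ x ∈ Subgroup.zpowers J, x ≠ 1 → IsConj x J := by
      intro x hx hx1
      obtain ⟨k, rfl⟩ := Subgroup.mem_zpowers_iff.mp hx
      rcases Int.even_or_odd' k with ⟨m, rfl | rfl⟩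
      · exfalso
        apply hx1
        rw [zpow_mul, zpow_ofNat, hJsq, one_zpow]
      · rw [zpow_add, zpow_mul, zpow_ofNat, hJsq, one_zpow, one_mul, zpow_one]
    obtain ⟨n, hn⟩ := exists_nat_of_subgroup_conj χ _ hA
    rw [Nat.card_zpowers, hJ2, hdeg] at hn
    by_contra hnot
    rw [Nat.not_odd_iff_even] at hnot
    obtain ⟨r, hr⟩ := hnot
    rw [hr] at hn
    rcases hχ with h | h
    · rw [h] at hn
      have h2 : ((r + r + 1 : ℕ) : ℂ) = ((2 * n : ℕ) : ℂ) := by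
        push_cast at hn ⊢
        linear_combination hn
      have h3 : r + r + 1 = 2 * n := by exact_mod_cast h2
      omega
    · rw [h] at hn
      have h2 : (((r + r : ℕ) : ℤ) - 1 : ℤ) = ((2 * n : ℕ) : ℤ) := by
        have h3 : (((((r + r : ℕ) : ℤ) - 1 : ℤ)) : ℂ) = (((2 * n : ℕ) : ℤ) : ℂ) := by
          push_cast at hn ⊢
          linear_combination hn
        exact_mod_cast h3
      omega
  have hν : ∀ χ : IrrCharacter G, ((χ : G → ℂ) J = 1 ∨ (χ : G → ℂ) J = -1) →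
      fsInd (χ : G → ℂ) = 0 ∨ fsInd (χ : G → ℂ) = 1 := by
    intro χ hχ
    by_cases h0 : fsInd (χ : G → ℂ) = 0
    · exact Or.inl h0
    · right
      exact indicator_eq_one_of_odd_degree χ.2 (im_eq_zero_of_fsInd_ne_zero χ.2 h0)
        (charDegree (χ : G → ℂ)) (hdeg χ) (hodd χ hχ)
  have hνone : fsInd (one : G → ℂ) = 1 := by
    rw [fsInd]
    simp only [honeval, Finset.sum_const, Finset.card_univ, nsmul_eq_mul, mul_one,
      Nat.card_eq_fintype_card]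
    exact inv_mul_cancel₀ (by exact_mod_cast Fintype.card_ne_zero)
  have hν1 := hν χ₁ (Or.inl hv1)
  have hν2 := hν χ₂ (Or.inl hv2)
  have hν3 := hν χ₃ (Or.inr hv3)
  rw [hνone] at hproj
  have hfin : fsInd (χ₁ : G → ℂ) = 0 ∧ fsInd (χ₃ : G → ℂ) = 1 := by
    rcases hν1 with h1 | h1 <;> rcases hν2 with h2 | h2 <;> rcases hν3 with h3 | h3 <;>
      rw [h1, h2, h3] at hproj <;> first
        | exact ⟨h1, h3⟩
        | (exfalso; norm_num at hproj)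
  obtain ⟨hν10, hν31⟩ := hfin
  obtain ⟨s, hs⟩ := (fsInd_eq_zero_iff χ₁.2).mp hν10
  let χ₁' : IrrCharacter G := ⟨fun g => conj ((χ₁ : G → ℂ) g), IsIrrCharacter.conj χ₁.2⟩
  have hval' : ∀ g, (χ₁' : G → ℂ) g = conj ((χ₁ : G → ℂ) g) := fun _ => rfl
  have hmem' : χ₁' ∈ principalBlock M G :=
    conj_mem_principalBlock χ₁ ((hmemB χ₁).mpr (Or.inr (Or.inl rfl))) χ₁' hval'
  have hone1 : conj ((χ₁ : G → ℂ) 1) = (χ₁ : G → ℂ) 1 := by
    rw [hdeg]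
    simp
  rcases (hmemB χ₁').mp hmem' with h | h | h | h
  · exfalso
    apply hne1
    apply Subtype.ext
    funext g
    have h1 : conj ((χ₁ : G → ℂ) g) = 1 := by
      rw [← hval', h]
      exact honeval g
    have h2 := congrArg conj h1
    rw [Complex.conj_conj, map_one] at h2
    exact h2.symm
  · exfalso
    apply hs
    have h1 : conj ((χ₁ : G → ℂ) s) = (χ₁ : G → ℂ) s := by
      rw [← hval', h]
    have h2 := congrArg Complex.im h1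
    rw [Complex.conj_im] at h2
    linarith
  · have h1 : (charDegree (χ₂ : G → ℂ) : ℂ) = (charDegree (χ₁ : G → ℂ) : ℂ) := by
      rw [← hdeg, ← hdeg, ← h, hval', hone1]
    exact_mod_cast h1.symm
  · exfalso
    apply h13
    apply Subtype.ext
    funext g
    have h1 : conj ((χ₁ : G → ℂ) g) = (χ₃ : G → ℂ) g := by
      rw [← hval', h]
    have h3 := im_eq_zero_of_fsInd_ne_zero χ₃.2 (by rw [hν31]; exact one_ne_zero) g
    have h4 : conj ((χ₃ : G → ℂ) g) = (χ₃ : G → ℂ) g := Complex.conj_eq_iff_im.mpr h3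
    have h5 := congrArg conj h1
    rw [Complex.conj_conj, h4] at h5
    exact h5

/-- Brauer's second formula. -/
theorem brauer_signs_main (hM : IsPModular 2 M) (g₀ : ℕ) (hg₀ : Odd g₀) (hG : Nat.card G = 4 * g₀)
    (hnc : ¬ ∃ N : Subgroup G, N.Normal ∧ Nat.card N = g₀) (P : Sylow 2 G) (J : G)
    (hJ : J ∈ (P : Subgroup G)) (hJ2 : orderOf J = 2) (χ₁ χ₂ χ₃ : IrrCharacter G) (ε₁ ε₂ ε₃ : ℤ)
    (hB : principalBlock M G = {χ : IrrCharacter G | (χ : G → ℂ) = (fun _ => 1) ∨ χ = χ₁ ∨ χ = χ₂ ∨ χ = χ₃})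
    (hdist : (χ₁ : G → ℂ) ≠ (fun _ => 1) ∧ (χ₂ : G → ℂ) ≠ (fun _ => 1) ∧ (χ₃ : G → ℂ) ≠ (fun _ => 1) ∧
      χ₁ ≠ χ₂ ∧ χ₁ ≠ χ₃ ∧ χ₂ ≠ χ₃)
    (hε : (ε₁ = 1 ∨ ε₁ = -1) ∧ (ε₂ = 1 ∨ ε₂ = -1) ∧ (ε₃ = 1 ∨ ε₃ = -1))
    (hval : (χ₁ : G → ℂ) J = ε₁ ∧ (χ₂ : G → ℂ) J = ε₂ ∧ (χ₃ : G → ℂ) J = ε₃)
    (hprod : ε₁ * ε₂ * ε₃ = -1) (hε₃ : ε₃ = -1) :
    ∃ m : ℕ, 4 * Nat.card (Subgroup.centralizer ({J} : Set G)) =
        m * Nat.card (Subgroup.centralizer ((P : Subgroup G) : Set G)) * (charDegree (χ₃ : G → ℂ) + 1) ∧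
      8 * Nat.card G = m ^ 3 * Nat.card (Subgroup.centralizer ((P : Subgroup G) : Set G)) *
        (charDegree (χ₃ : G → ℂ) ^ 3 - charDegree (χ₃ : G → ℂ)) := by
  classical
  obtain ⟨hP, hone⟩ := klein_of_no_complement g₀ hg₀ hG hnc P hJ hJ2
  obtain ⟨A, n, h1, h2, h3, hC, hD, hT, hE⟩ :=
    brauer_relations hM g₀ hg₀ hG hnc P J hJ hJ2 χ₁ χ₂ χ₃ ε₁ ε₂ ε₃ hB hdist hε hval
  subst hε₃
  have hε12 : (ε₁ = 1 ∧ ε₂ = 1) ∨ (ε₁ = -1 ∧ ε₂ = -1) := by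
    rcases hε.1 with h | h <;> rcases hε.2.1 with h' | h' <;> rw [h, h'] at hprod ⊢ <;> simp at hprod ⊢
  set x₁ := charDegree (χ₁ : G → ℂ) with hx₁
  set x₂ := charDegree (χ₂ : G → ℂ) with hx₂
  set q := charDegree (χ₃ : G → ℂ) with hq
  have hx₁0 : 0 < x₁ := Nat.pos_of_ne_zero fun h => h1 (by rw [h]; simp)
  have hx₂0 : 0 < x₂ := Nat.pos_of_ne_zero fun h => h2 (by rw [h]; simp)
  have hq0 : 0 < q := Nat.pos_of_ne_zero fun h => h3 (by rw [h]; simp)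
  obtain ⟨rfl, rfl⟩ : ε₁ = 1 ∧ ε₂ = 1 := by
    rcases hε12 with h | ⟨rfl, rfl⟩
    · exact h
    · exfalso
      have h4 : (x₁ : ℚ) > 0 := by exact_mod_cast hx₁0
      have h5 : (x₂ : ℚ) > 0 := by exact_mod_cast hx₂0
      have h6 : (q : ℚ) > 0 := by exact_mod_cast hq0
      push_cast at hC
      have h7 : (1 : ℚ) ≤ x₁ := by exact_mod_cast hx₁0
      have h8 : (1 : ℚ) ≤ x₂ := by exact_mod_cast hx₂0
      linarith
  have hxx : x₁ = x₂ := by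
    refine degree_eq_of_signs hM P hP J hJ2 χ₁ χ₂ χ₃ hB hdist ⟨?_, ?_, ?_⟩
    · simpa using hval.1
    · simpa using hval.2.1
    · simpa using hval.2.2
  rw [← hxx] at hC hD h2
  have hqeq : q = 2 * x₁ + 1 := by
    push_cast at hC
    have h4 : (q : ℚ) = 2 * x₁ + 1 := by linarith
    exact_mod_cast h4
  -- `c(J) = d c(P)`
  have hle : Subgroup.centralizer ((P : Subgroup G) : Set G) ≤ Subgroup.centralizer ({J} : Set G) := by
    intro x hx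
    exact Subgroup.mem_centralizer_singleton_iff.mpr (Subgroup.mem_centralizer_iff.mp hx J hJ).symm
  obtain ⟨d, hd⟩ := Subgroup.card_dvd_of_le hle
  set cJ := Nat.card (Subgroup.centralizer ({J} : Set G)) with hcJ
  set cP := Nat.card (Subgroup.centralizer ((P : Subgroup G) : Set G)) with hcP
  have hcP0 : 0 < cP := Nat.card_pos
  have hn : n = 2 * d ^ 2 := by
    have h4 : n * cP ^ 2 = 2 * d ^ 2 * cP ^ 2 := by
      rw [hT, hd]
      ring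
    exact Nat.eq_of_mul_eq_mul_right (pow_pos hcP0 2) h4
  -- the main equation
  have hmain : A * (x₁ + 1) ^ 2 = 4 * d ^ 2 * (x₁ * q) := by
    have hx1Q : (x₁ : ℚ) ≠ 0 := h1
    have hqQ : (q : ℚ) ≠ 0 := h3
    have h4 : (A : ℚ) * (x₁ + 1) ^ 2 = 4 * d ^ 2 * (x₁ * q) := by
      have h5 : (q : ℚ) = 2 * x₁ + 1 := by exact_mod_cast hqeq
      have h6 : (1 + ((1 : ℤ) : ℚ) / x₁ + ((1 : ℤ) : ℚ) / x₁ + ((-1 : ℤ) : ℚ) / q) =
          2 * (x₁ + 1) ^ 2 / (x₁ * q) := by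
        push_cast
        field_simp
        rw [h5]
        ring
      rw [h6] at hD
      have h7 : (n : ℚ) = 2 * d ^ 2 := by exact_mod_cast hn
      rw [h7] at hD
      field_simp at hD
      linarith
    exact_mod_cast h4
  have hcop : Nat.Coprime ((x₁ + 1) ^ 2) (x₁ * q) := by
    apply Nat.Coprime.pow_left
    apply Nat.Coprime.mul_right
    · simp
    · rw [hqeq]
      have h4 : 2 * x₁ + 1 = 2 * (x₁ + 1) - 1 := by omega
      have h5 : Nat.Coprime (x₁ + 1) (2 * x₁ + 1) := by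
        have h6 : (2 * x₁ + 1) = (x₁ + 1) + x₁ := by ring
        rw [h6]
        simp
      exact h5
  have hdvd : (x₁ + 1) ^ 2 ∣ (2 * d) ^ 2 := by
    have h4 : (x₁ + 1) ^ 2 ∣ (2 * d) ^ 2 * (x₁ * q) := ⟨A, by
      rw [mul_comm _ A, hmain]; ring⟩
    exact hcop.dvd_of_dvd_mul_right h4
  obtain ⟨m, hm⟩ := (Nat.pow_dvd_pow_iff (two_ne_zero)).mp hdvd
  have hA : A = m ^ 2 * (x₁ * q) := by
    have h4 : A * (x₁ + 1) ^ 2 = (m ^ 2 * (x₁ * q)) * (x₁ + 1) ^ 2 := by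
      rw [hmain]
      have h5 : 4 * d ^ 2 = (2 * d) ^ 2 := by ring
      rw [h5, hm]
      ring
    exact Nat.eq_of_mul_eq_mul_right (pow_pos (Nat.succ_pos x₁) 2) h4
  refine ⟨m, ?_, ?_⟩
  · rw [hd, hqeq]
    calc 4 * (cP * d) = 2 * (2 * d) * cP := by ring
      _ = m * cP * (2 * x₁ + 1 + 1) := by rw [hm]; ring
  · have hsub : q ^ 3 - q = q * (2 * x₁) * (2 * x₁ + 2) := by
      apply Nat.sub_eq_of_eq_add
      rw [hqeq]
      ring
    rw [hsub, ← hE, hA, hd]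
    calc 8 * (m ^ 2 * (x₁ * q) * (cP * d)) = 4 * m ^ 2 * (x₁ * q) * cP * (2 * d) := by ring
      _ = m ^ 3 * cP * (q * (2 * x₁) * (2 * x₁ + 2)) := by rw [hm]; ring

end Formula

end Cfsg.Agent.Lib.Blocks
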