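import Cfsg.Agent.Lib.Blocks.Third

/-!
# Sets of characters closed under orthogonality on regular elements

Such a set has a block idempotent which is integral at every maximal ideal over `p`.  In
particular blocks do not depend on the maximal ideal.
-/

set_option autoImplicit false
set_option linter.unusedSectionVars false

namespace Cfsg.Agent.Lib.Blocks

open Cfsg Cfsg.Agent.Lib.Char
open scoped ComplexConjugate

universe u

variable {G : Type u} [Group G] [Fintype G] {p : ℕ} [hp : Fact p.Prime] {M : Ideal AlgInt}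

/-- The pairing on regular elements. -/
noncomputable def regPair (p : ℕ) (χ ψ : G → ℂ) : ℂ := ∑ x, regFun p G x * (χ x * conj (ψ x))

theorem regPair_symm (χ ψ : G → ℂ) : regPair p χ ψ = conj (regPair p ψ χ) := by
  classical
  simp only [regPair, map_sum, map_mul, Complex.conj_conj]
  refine Finset.sum_congr rfl fun x _ => ?_
  have : conj (regFun p G x) = regFun p G x := by
    by_cases h : ¬ p ∣ orderOf x <;> simp [regFun, h]
  rw [this]
  ring

theorem regPair_eq_finsum (χ ψ : G → ℂ) :
    regPair p χ ψ = ∑ᶠ x ∈ {x : G | ¬ p ∣ orderOf x}, χ x * conj (ψ x) := by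
  classical
  rw [finsum_mem_def, finsum_eq_sum_of_fintype]
  refine Finset.sum_congr rfl fun x _ => ?_
  by_cases h : ¬ p ∣ orderOf x
  · rw [Set.indicator_of_mem (by exact h)]
    simp [regFun, h]
  · rw [Set.indicator_of_notMem (by exact h)]
    simp [regFun, h]

/-- The weighted sum of the characters of a set. -/
noncomputable def wSum (A : Set (IrrCharacter G)) (y g : G) : ℂ :=
  ∑ χ : IrrCharacter G, indic A χ * (conj ((χ : G → ℂ) y) * (χ : G → ℂ) g)

theorem wSum_isClassFunction (A : Set (IrrCharacter G)) (y : G) : IsClassFunction G (wSum A y) := by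
  intro g k
  simp only [wSum]
  refine Finset.sum_congr rfl fun χ _ => ?_
  rw [irr_isClassFunction χ g k]

/-- Orthogonality on the regular elements makes the weighted sum vanish on singular elements. -/
theorem wSum_eq_zero_of_singular {A : Set (IrrCharacter G)}
    (hA : ∀ χ ∈ A, ∀ ψ, ψ ∉ A → regPair p (χ : G → ℂ) (ψ : G → ℂ) = 0) {y g : G}
    (hy : ¬ p ∣ orderOf y) (hg : p ∣ orderOf g) : wSum A y g = 0 := by
  classical
  have hcG : (Nat.card G : ℂ) ≠ 0 := by exact_mod_cast Nat.card_pos.ne'
  have hinner : ∀ χ ψ : IrrCharacter G, ∑ x, (χ : G → ℂ) x * conj ((ψ : G → ℂ) x) =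
      (Nat.card G : ℂ) * (if χ = ψ then 1 else 0) := by
    intro χ ψ
    have h := classInner_irr χ.2 ψ.2
    rw [classInner, inv_mul_eq_iff_eq_mul₀ hcG] at h
    rw [h]
    by_cases hχ : χ = ψ
    · simp [hχ]
    · have : (χ : G → ℂ) ≠ ψ := fun h => hχ (Subtype.ext h)
      simp [hχ, this]
  let f : G → ℂ := fun x => (1 - regFun p G x) * wSum A y x
  have hf : IsClassFunction G f := by
    intro x k
    simp only [f]
    rw [wSum_isClassFunction A y x k, regFun_isClassFunction x k]
  have hzero : f = 0 := by
    apply classFunction_eq_zero_of_orthogonal f hf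
    intro ψ₀ hψ₀
    set ψ : IrrCharacter G := ⟨ψ₀, hψ₀⟩ with hψ
    have h1 : ∑ x, wSum A y x * conj (ψ₀ x) = (Nat.card G : ℂ) * (indic A ψ * conj (ψ₀ y)) := by
      simp only [wSum, Finset.sum_mul]
      rw [Finset.sum_comm]
      have : ∀ χ : IrrCharacter G, ∑ x, indic A χ * (conj ((χ : G → ℂ) y) * (χ : G → ℂ) x) * conj (ψ₀ x) =
          indic A χ * (conj ((χ : G → ℂ) y) * ((Nat.card G : ℂ) * (if χ = ψ then 1 else 0))) := by
        intro χ
        rw [← hinner χ ψ, Finset.mul_sum, Finset.mul_sum]
        refine Finset.sum_congr rfl fun x _ => ?_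
        rw [hψ]
        ring
      rw [Finset.sum_congr rfl (fun χ _ => this χ), Finset.sum_eq_single ψ]
      · rw [if_pos rfl, mul_one]
        ring
      · intro χ _ hne
        rw [if_neg hne]
        simp
      · simp
    have h2 : ∑ x, regFun p G x * wSum A y x * conj (ψ₀ x) =
        ∑ χ : IrrCharacter G, indic A χ * conj ((χ : G → ℂ) y) * regPair p (χ : G → ℂ) ψ₀ := by
      simp only [wSum, regPair, Finset.mul_sum, Finset.sum_mul]
      rw [Finset.sum_comm]
      refine Finset.sum_congr rfl fun χ _ => Finset.sum_congr rfl fun x _ => ?_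
      ring
    have h3 : ∑ x, regFun p G x * wSum A y x * conj (ψ₀ x) = (Nat.card G : ℂ) * (indic A ψ * conj (ψ₀ y)) := by
      rw [h2]
      by_cases hψA : ψ ∈ A
      · -- all characters contribute
        have h4 : ∑ χ : IrrCharacter G, indic A χ * conj ((χ : G → ℂ) y) * regPair p (χ : G → ℂ) ψ₀ =
            ∑ χ : IrrCharacter G, conj ((χ : G → ℂ) y) * regPair p (χ : G → ℂ) ψ₀ := by
          refine Finset.sum_congr rfl fun χ _ => ?_
          by_cases hχA : χ ∈ A
          · rw [indic_apply_of_mem hχA, one_mul]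
          · rw [indic_apply_of_notMem hχA, regPair_symm, hA ψ hψA χ hχA]
            simp
        rw [h4, indic_apply_of_mem hψA, one_mul]
        have h5 : ∑ χ : IrrCharacter G, conj ((χ : G → ℂ) y) * regPair p (χ : G → ℂ) ψ₀ =
            ∑ x, regFun p G x * (∑ χ : IrrCharacter G, (χ : G → ℂ) x * conj ((χ : G → ℂ) y)) * conj (ψ₀ x) := by
          simp only [regPair, Finset.mul_sum, Finset.sum_mul]
          rw [Finset.sum_comm]
          refine Finset.sum_congr rfl fun χ _ => Finset.sum_congr rfl fun x _ => ?_
          ring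
        rw [h5]
        have h6 : ∀ x, regFun p G x * (∑ χ : IrrCharacter G, (χ : G → ℂ) x * conj ((χ : G → ℂ) y)) =
            ∑ χ : IrrCharacter G, (χ : G → ℂ) x * conj ((χ : G → ℂ) y) := by
          intro x
          by_cases hc : IsConj x y
          · have hord : orderOf x = orderOf y := by
              obtain ⟨c, hc⟩ := isConj_iff.mp hc.symm
              rw [← hc, orderOf_conj_eq]
            have : regFun p G x = 1 := by
              simp [regFun, hord, hy]
            rw [this, one_mul]
          · rw [sum_irr_mul_conj_of_not_isConj hc, mul_zero]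
        simp only [h6]
        have h7 : ∑ x, (∑ χ : IrrCharacter G, (χ : G → ℂ) x * conj ((χ : G → ℂ) y)) * conj (ψ₀ x) =
            ∑ χ : IrrCharacter G, conj ((χ : G → ℂ) y) * ∑ x, (χ : G → ℂ) x * conj (ψ₀ x) := by
          simp only [Finset.mul_sum, Finset.sum_mul]
          rw [Finset.sum_comm]
          refine Finset.sum_congr rfl fun χ _ => Finset.sum_congr rfl fun x _ => ?_
          ring
        rw [h7, Finset.sum_eq_single ψ]
        · rw [hinner ψ ψ, if_pos rfl]
          ring
        · intro χ _ hne
          rw [hinner χ ψ, if_neg hne]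
          simp
        · simp
      · rw [indic_apply_of_notMem hψA]
        simp only [zero_mul, mul_zero]
        refine Finset.sum_eq_zero fun χ _ => ?_
        by_cases hχA : χ ∈ A
        · rw [hA χ hχA ψ hψA, mul_zero]
        · rw [indic_apply_of_notMem hχA]
          simp
    rw [classInner]
    simp only [f]
    have h8 : ∑ x, (1 - regFun p G x) * wSum A y x * conj (ψ₀ x) =
        ∑ x, wSum A y x * conj (ψ₀ x) - ∑ x, regFun p G x * wSum A y x * conj (ψ₀ x) := by
      rw [← Finset.sum_sub_distrib]
      refine Finset.sum_congr rfl fun x _ => ?_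
      ring
    rw [h8, h1, h3, sub_self, mul_zero]
  have h9 := congrFun hzero g
  simp only [f, Pi.zero_apply] at h9
  have h10 : regFun p G g = 0 := by simp [regFun, hg]
  rw [h10, sub_zero, one_mul] at h9
  exact h9

/-- The idempotent coefficients of an orthogonally closed set are local at every ideal over `p`. -/
theorem coef_indic_memLocalRing_of_closed (hM : IsPModular p M) {A : Set (IrrCharacter G)}
    (hA : ∀ χ ∈ A, ∀ ψ, ψ ∉ A → regPair p (χ : G → ℂ) (ψ : G → ℂ) = 0) (y : G) :
    MemLocalRing M (coef (indic A) y) := by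
  classical
  have := isPrime_of_modular hM
  have hpp : p.Prime := hp.out
  have hcG : (Nat.card G : ℂ) ≠ 0 := by exact_mod_cast Nat.card_pos.ne'
  have hindic : ∀ χ, MemLocalRing M (indic A χ) := by
    intro χ
    by_cases h : χ ∈ A
    · rw [indic_apply_of_mem h]; exact memLocalRing_one
    · rw [indic_apply_of_notMem h]; exact memLocalRing_zero
  by_cases hy : p ∣ orderOf y
  · -- singular
    have h1 := wSum_eq_zero_of_singular hA (y := 1) (g := y) (by
      rw [orderOf_one]
      exact fun h => hpp.one_lt.ne' (Nat.dvd_one.mp h)) hy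
    have h2 : ∑ χ : IrrCharacter G, indic A χ * ((χ : G → ℂ) 1 * conj ((χ : G → ℂ) y)) = 0 := by
      have h3 := congrArg conj h1
      simp only [wSum, map_sum, map_mul, Complex.conj_conj, map_zero] at h3
      rw [← h3]
      refine Finset.sum_congr rfl fun χ _ => ?_
      have : conj (indic A χ) = indic A χ := by
        by_cases h : χ ∈ A
        · rw [indic_apply_of_mem h]; simp
        · rw [indic_apply_of_notMem h]; simp
      rw [this]
    rw [coef, h2, mul_zero]
    exact memLocalRing_zero
  · -- regular
    obtain ⟨Q⟩ : Nonempty (Sylow p G) := inferInstance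
    letI : Fintype (Q : Subgroup G) := Fintype.ofFinite _
    have hsum : ∀ χ : IrrCharacter G, ∃ n : ℕ, ∑ q : (Q : Subgroup G), (χ : G → ℂ) q =
        (Nat.card (Q : Subgroup G) : ℂ) * n := by
      intro χ
      have hchar : IsCharacter (Q : Subgroup G) (fun q : (Q : Subgroup G) => (χ : G → ℂ) q) :=
        isCharacter_resFun _ (IsIrrCharacter.isCharacter χ.2)
      obtain ⟨n, hn⟩ := IsCharacter.classInner_nat hchar
        (IsIrrCharacter.isCharacter (isIrrCharacter_one (G := (Q : Subgroup G))))
      refine ⟨n, ?_⟩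
      rw [← hn, classInner, ← mul_assoc]
      have hQ0 : (Nat.card (Q : Subgroup G) : ℂ) ≠ 0 := by exact_mod_cast Nat.card_pos.ne'
      rw [mul_inv_cancel₀ hQ0, one_mul]
      simp
    choose n hn using hsum
    have hw : ∑ q : (Q : Subgroup G), wSum A y q = wSum A y 1 := by
      rw [Finset.sum_eq_single 1]
      · rfl
      · intro q _ hq
        apply wSum_eq_zero_of_singular hA hy
        obtain ⟨k, hk⟩ := IsPGroup.iff_orderOf.mp Q.isPGroup' q
        have h1 : orderOf (q : G) = orderOf q := Subgroup.orderOf_coe q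
        rw [h1, hk]
        rcases k with _ | k
        · exfalso
          simp only [pow_zero, orderOf_eq_one_iff] at hk
          exact hq hk
        · exact dvd_pow_self p (Nat.succ_ne_zero k)
      · simp
    set β : ℂ := ∑ χ : IrrCharacter G, indic A χ * (conj ((χ : G → ℂ) y) * (n χ : ℂ)) with hβ
    have hβloc : MemLocalRing M β := by
      refine MemLocalRing.sum _ fun χ _ => MemLocalRing.mul (hindic χ) (MemLocalRing.mul ?_ (MemLocalRing.natCast _))
      apply memLocalRing_of_isIntegral
      exact IsIntegral.map (starRingEnd ℂ).toIntAlgHom (irr_isIntegral χ y)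
    have hw' : wSum A y 1 = (Nat.card (Q : Subgroup G) : ℂ) * β := by
      rw [← hw, hβ]
      simp only [wSum, Finset.mul_sum]
      rw [Finset.sum_comm]
      refine Finset.sum_congr rfl fun χ _ => ?_
      rw [← Finset.mul_sum, ← Finset.mul_sum, hn χ]
      ring
    have hcoef : coef (indic A) y = (Nat.card G : ℂ)⁻¹ * wSum A y 1 := by
      rw [coef, wSum]
      congr 1
      refine Finset.sum_congr rfl fun χ _ => ?_
      ring
    rw [hcoef, hw']
    have hidx : Nat.card G = Nat.card (Q : Subgroup G) * (Q : Subgroup G).index :=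
      (Subgroup.card_mul_index _).symm
    have hQ0 : (Nat.card (Q : Subgroup G) : ℂ) ≠ 0 := by exact_mod_cast Nat.card_pos.ne'
    have hm0 : ((Q : Subgroup G).index : ℂ) ≠ 0 := by
      rw [hidx] at hcG
      push_cast at hcG
      exact right_ne_zero_of_mul hcG
    have : (Nat.card G : ℂ)⁻¹ * ((Nat.card (Q : Subgroup G) : ℂ) * β) =
        ((Q : Subgroup G).index : ℂ)⁻¹ * β := by
      rw [hidx]
      push_cast
      field_simp
    rw [this]
    exact MemLocalRing.mul (inv_natCast_memLocalRing hM Q.not_dvd_index) hβloc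

/-- The indicator of an orthogonally closed set lies in the local centre at every ideal over `p`. -/
theorem indic_mem_zS_of_regClosed (hM : IsPModular p M) [M.IsPrime] {A : Set (IrrCharacter G)}
    (hA : ∀ χ ∈ A, ∀ ψ, ψ ∉ A → regPair p (χ : G → ℂ) (ψ : G → ℂ) = 0) : indic A ∈ zS M G :=
  fun g => coef_indic_memLocalRing_of_closed hM hA g

/-- **Blocks do not depend on the ideal.** -/
theorem sameBlock_of_sameBlock (hM : IsPModular p M) {M' : Ideal AlgInt} (hM' : IsPModular p M')
    {χ ψ : IrrCharacter G} (h : SameBlock M (χ : G → ℂ) (ψ : G → ℂ)) :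
    SameBlock M' (χ : G → ℂ) (ψ : G → ℂ) := by
  classical
  have := isPrime_of_modular hM
  have := isPrime_of_modular hM'
  set A := blockOf M' (χ : G → ℂ) with hAdef
  have hAc : ∀ χ₁ ∈ A, ∀ ψ₁, ψ₁ ∉ A → regPair p (χ₁ : G → ℂ) (ψ₁ : G → ℂ) = 0 := by
    intro χ₁ hχ₁ ψ₁ hψ₁
    rw [regPair_eq_finsum]
    apply sum_regular_mul_eq_zero hM'
    intro hs
    apply hψ₁
    have hB : IsPBlock M' A := isPBlock_blockOf χ
    rw [blockOf_eq_of_mem hB hχ₁]
    exact hs
  have h1 := indic_mem_zS_of_regClosed hM hAc
  have h2 := blockOf_subset_of_indic_mem h1 (χ := χ) (self_mem_blockOf χ)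
  exact h2 h

end Cfsg.Agent.Lib.Blocks
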