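import Mathlib

/-!
# Groups acting on a cyclic `p`-group with a `p'`-quotient
-/

set_option autoImplicit false
set_option linter.unusedSectionVars false
set_option linter.style.haveILetI false

namespace Cfsg.Agent.Lib.Blocks

open Subgroup

variable {G : Type*} [Group G] {p : ℕ} [hp : Fact p.Prime]

/-- An element normalizing `⟨x₀⟩` and centralizing its subgroup of order `p`, with all its `p`-power
parts centralizing `x₀`, centralizes `x₀`. -/
theorem centralizes_of_fixes_omega [Finite G] {x₀ t : G} {m : ℕ} (hm : 1 ≤ m) (ho : orderOf x₀ = p ^ m)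
    {k : ℕ} (hk : t * x₀ * t⁻¹ = x₀ ^ k) (hfix : t * x₀ ^ (p ^ (m - 1)) * t⁻¹ = x₀ ^ (p ^ (m - 1)))
    (hreg : ∀ n : ℕ, (∃ s, orderOf (t ^ n) = p ^ s) → t ^ n * x₀ * (t ^ n)⁻¹ = x₀) :
    t * x₀ * t⁻¹ = x₀ := by
  have hpp : p.Prime := hp.out
  set y₀ := x₀ ^ (p ^ (m - 1)) with hy₀
  have hpm : p ^ m = p ^ (m - 1) * p := by rw [← pow_succ]; congr 1; omega
  have hoy : orderOf y₀ = p := by
    rw [hy₀, orderOf_pow_of_dvd (pow_ne_zero _ hpp.ne_zero) (by rw [ho]; exact ⟨p, hpm⟩), ho, hpm]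
    exact Nat.mul_div_cancel_left _ (pow_pos hpp.pos _)
  -- action on powers
  have hconjpow : ∀ (a : ℕ), t * x₀ ^ a * t⁻¹ = x₀ ^ (k * a) := by
    intro a
    rw [pow_mul, ← hk, conj_pow]
  have hk1 : ((p : ℕ) : ℤ) ∣ (k : ℤ) - 1 := by
    have h1 := hconjpow (p ^ (m - 1))
    rw [hfix, mul_comm, pow_mul] at h1
    have h2 : y₀ ^ ((k : ℤ) - 1) = 1 := by
      rw [zpow_sub, zpow_one, zpow_natCast, ← h1, mul_inv_cancel]
    rw [← hoy]
    exact orderOf_dvd_iff_zpow_eq_one.mpr h2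
  -- iterate
  have hiter : ∀ i : ℕ, t ^ i * x₀ * (t ^ i)⁻¹ = x₀ ^ (k ^ i) := by
    intro i
    induction i with
    | zero => simp
    | succ i ih =>
      have h2 : t ^ (i + 1) * x₀ * (t ^ (i + 1))⁻¹ = t * (t ^ i * x₀ * (t ^ i)⁻¹) * t⁻¹ := by
        rw [pow_succ']; group
      rw [h2, ih, hconjpow, pow_succ']
  -- a `p`-power of `t` centralizes
  have hpowm : (((p ^ m : ℕ)) : ℤ) ∣ (k : ℤ) ^ (p ^ (m - 1)) - 1 := by
    have h3 := dvd_sub_pow_of_dvd_sub (R := ℤ) (p := p) (a := (k : ℤ)) (b := 1) hk1 (m - 1)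
    have h4 : m - 1 + 1 = m := by omega
    rw [h4] at h3
    simpa using h3
  have h5 : t ^ (p ^ (m - 1)) * x₀ * (t ^ (p ^ (m - 1)))⁻¹ = x₀ := by
    rw [hiter]
    have h6 : 1 ≡ k ^ (p ^ (m - 1)) [MOD orderOf x₀] := by
      rw [ho, Nat.modEq_iff_dvd]
      push_cast
      exact_mod_cast hpowm
    have h7 := (pow_eq_pow_iff_modEq (x := x₀)).mpr h6
    rw [pow_one] at h7
    exact h7.symm
  -- the `p'`-part
  have hord : orderOf t ≠ 0 := (orderOf_pos t).ne'
  obtain ⟨s, o', hno, ho'⟩ := Nat.exists_eq_pow_mul_and_not_dvd hord p hpp.ne_one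
  have ho'0 : o' ≠ 0 := by
    rintro rfl
    rw [mul_zero] at ho'
    exact hord ho'
  have h8 : t ^ o' * x₀ * (t ^ o')⁻¹ = x₀ := by
    apply hreg
    refine ⟨s, ?_⟩
    rw [orderOf_pow_of_dvd ho'0 ⟨_, by rw [ho', mul_comm]⟩, ho']
    exact Nat.mul_div_cancel _ (Nat.pos_of_ne_zero ho'0)
  have hcop : Nat.Coprime o' (p ^ (m - 1)) :=
    Nat.Coprime.pow_right _ ((Nat.Prime.coprime_iff_not_dvd hpp).mpr hno).symm
  have hbez := Nat.gcd_eq_gcd_ab o' (p ^ (m - 1))
  rw [hcop.gcd_eq_one] at hbez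
  set C := centralizer ({x₀} : Set G) with hC
  have hmemC : ∀ u : G, u * x₀ * u⁻¹ = x₀ → u ∈ C := by
    intro u hu
    rw [hC, Subgroup.mem_centralizer_singleton_iff]
    rw [mul_inv_eq_iff_eq_mul] at hu
    exact hu
  have h9 : t ∈ C := by
    have h10 : t = (t ^ o') ^ (Nat.gcdA o' (p ^ (m - 1))) * (t ^ (p ^ (m - 1))) ^ (Nat.gcdB o' (p ^ (m - 1))) := by
      rw [← zpow_natCast t o', ← zpow_natCast t (p ^ (m - 1)), ← zpow_mul, ← zpow_mul, ← zpow_add, ← hbez]
      simp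
    rw [h10]
    exact C.mul_mem (C.zpow_mem (hmemC _ h8) _) (C.zpow_mem (hmemC _ h5) _)
  rw [hC, Subgroup.mem_centralizer_singleton_iff] at h9
  rw [h9, mul_inv_cancel_right]

/-- The main structural statement. -/
theorem cyclic_inertial [Finite G] {P T : Subgroup G} (hPp : IsPGroup p P) (hP1 : P ≠ ⊥) (hcyc : IsCyclic P)
    (hTN : T ≤ normalizer (P : Set G))
    (hreg : ∀ t ∈ T, (∃ k : ℕ, orderOf t = p ^ k) → t ∈ centralizer (P : Set G))
    [hn : ((centralizer (P : Set G)).subgroupOf T).Normal] :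
    IsCyclic (T ⧸ (centralizer (P : Set G)).subgroupOf T) ∧ (centralizer (P : Set G)).relIndex T ∣ p - 1 ∧
      ∀ g ∈ T, ∀ x ∈ P, x ≠ 1 → g * x * g⁻¹ = x → g ∈ centralizer (P : Set G) := by
  classical
  have hpp : p.Prime := hp.out
  obtain ⟨g₀, hg₀⟩ := hcyc.exists_generator
  set x₀ : G := (g₀ : G) with hx₀
  have hPeq : P = zpowers x₀ := by
    apply le_antisymm
    · intro x hx
      obtain ⟨n, hn⟩ := Subgroup.mem_zpowers_iff.mp (hg₀ ⟨x, hx⟩)
      exact ⟨n, by simpa [hx₀] using congrArg Subtype.val hn⟩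
    · exact zpowers_le.mpr g₀.2
  obtain ⟨m, hm⟩ := IsPGroup.iff_card.mp hPp
  have ho : orderOf x₀ = p ^ m := by rw [← Nat.card_zpowers, ← hPeq, hm]
  have hm1 : 1 ≤ m := by
    by_contra h
    have h0 : m = 0 := by omega
    rw [h0, pow_zero] at hm
    exact hP1 (Subgroup.eq_bot_of_card_eq P hm)
  have hpm : p ^ m = p ^ (m - 1) * p := by rw [← pow_succ]; congr 1; omega
  set y₀ := x₀ ^ (p ^ (m - 1)) with hy₀
  have hoy : orderOf y₀ = p := by
    rw [hy₀, orderOf_pow_of_dvd (pow_ne_zero _ hpp.ne_zero) (by rw [ho]; exact ⟨p, hpm⟩), ho, hpm]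
    exact Nat.mul_div_cancel_left _ (pow_pos hpp.pos _)
  have hx₀P : x₀ ∈ P := g₀.2
  have hy₀P : y₀ ∈ P := P.pow_mem hx₀P _
  -- action
  have hact : ∀ t ∈ T, ∃ k : ℕ, t * x₀ * t⁻¹ = x₀ ^ k := by
    intro t ht
    have h1 : t * x₀ * t⁻¹ ∈ P := (Subgroup.mem_normalizer_iff.mp (hTN ht) x₀).mp hx₀P
    rw [hPeq] at h1
    obtain ⟨k, hk⟩ := (mem_powers_iff_mem_zpowers).mpr h1
    exact ⟨k, hk.symm⟩
  -- centralizing `x₀` means centralizing `P`
  have hcenP : ∀ t : G, t * x₀ * t⁻¹ = x₀ → t ∈ centralizer (P : Set G) := by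
    intro t ht
    rw [Subgroup.mem_centralizer_iff]
    intro x hx
    rw [hPeq] at hx
    obtain ⟨n, rfl⟩ := Subgroup.mem_zpowers_iff.mp hx
    have h1 : Commute t x₀ := by
      rw [mul_inv_eq_iff_eq_mul] at ht
      exact ht
    exact (h1.zpow_right n).symm.eq
  have hcenP' : ∀ t ∈ centralizer (P : Set G), t * x₀ * t⁻¹ = x₀ := by
    intro t ht
    have := (Subgroup.mem_centralizer_iff.mp ht) x₀ hx₀P
    rw [← this, mul_inv_cancel_right]
  have key : ∀ t ∈ T, t * y₀ * t⁻¹ = y₀ → t ∈ centralizer (P : Set G) := by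
    intro t ht hfix
    obtain ⟨k, hk⟩ := hact t ht
    apply hcenP
    refine centralizes_of_fixes_omega hm1 ho hk hfix (fun n hn => ?_)
    exact hcenP' _ (hreg _ (T.pow_mem ht n) hn)
  -- the action on `Z`
  set Z := zpowers y₀ with hZ
  have hZcard : Nat.card Z = p := by rw [hZ, Nat.card_zpowers, hoy]
  have hZP : Z ≤ P := zpowers_le.mpr hy₀P
  have hTZ : T ≤ normalizer (Z : Set G) := by
    intro t ht
    apply Subgroup.mem_normalizer_fintype
    intro n hn
    obtain ⟨k, hk⟩ := hact t ht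
    obtain ⟨a, rfl⟩ := Subgroup.mem_zpowers_iff.mp hn
    have h1 : t * y₀ * t⁻¹ = y₀ ^ k := by
      rw [hy₀, ← conj_pow, hk, ← pow_mul, ← pow_mul, mul_comm]
    rw [← conj_zpow, h1]
    exact Subgroup.zpow_mem _ (Subgroup.pow_mem _ (mem_zpowers y₀) _) _
  haveI : IsCyclic Z := Subgroup.isCyclic_zpowers y₀ 
  let ψ : T →* (ZMod (Nat.card Z))ˣ :=
    (IsCyclic.mulAutMulEquiv Z).toMonoidHom.comp ((normalizerMonoidHom Z).comp (Subgroup.inclusion hTZ))
  have hψ1 : ∀ t : T, ψ t = 1 → (t : G) * y₀ * (t : G)⁻¹ = y₀ := by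
    intro t ht
    have h1 : (normalizerMonoidHom Z) (Subgroup.inclusion hTZ t) = 1 := by
      apply (IsCyclic.mulAutMulEquiv Z).injective
      rw [map_one]
      exact ht
    have h2 : (Subgroup.inclusion hTZ t) ∈ (normalizerMonoidHom Z).ker := h1
    rw [normalizerMonoidHom_ker] at h2
    have h3 : (t : G) ∈ centralizer (Z : Set G) := h2
    have := (Subgroup.mem_centralizer_iff.mp h3) y₀ (mem_zpowers y₀)
    rw [← this, mul_inv_cancel_right]
  have hψ2 : ∀ t : T, (t : G) ∈ centralizer (P : Set G) → ψ t = 1 := by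
    intro t ht
    have h1 : (Subgroup.inclusion hTZ t) ∈ (normalizerMonoidHom Z).ker := by
      rw [normalizerMonoidHom_ker]
      intro z hz
      exact (Subgroup.mem_centralizer_iff.mp ht) z (hZP hz)
    have h2 : (normalizerMonoidHom Z) (Subgroup.inclusion hTZ t) = 1 := h1
    change (IsCyclic.mulAutMulEquiv Z) ((normalizerMonoidHom Z) (Subgroup.inclusion hTZ t)) = 1
    rw [h2, map_one]
  let f : T ⧸ (centralizer (P : Set G)).subgroupOf T →* (ZMod (Nat.card Z))ˣ :=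
    QuotientGroup.lift _ ψ (fun t ht => hψ2 t ht)
  have hf : Function.Injective f := by
    rw [injective_iff_map_eq_one]
    intro q
    induction q using QuotientGroup.induction_on with
    | H t =>
      intro ht
      have h1 : ψ t = 1 := ht
      rw [QuotientGroup.eq_one_iff]
      exact key t t.2 (hψ1 t h1)
  haveI hcycU : IsCyclic (ZMod (Nat.card Z))ˣ := by
    rw [hZcard]; infer_instance
  have hcardU : Nat.card (ZMod (Nat.card Z))ˣ = p - 1 := by
    rw [hZcard, Nat.card_eq_fintype_card, ZMod.card_units]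
  refine ⟨isCyclic_of_injective f hf, ?_, ?_⟩
  · have := Subgroup.card_dvd_of_injective f hf
    rw [hcardU] at this
    exact this
  · intro g hg x hx hx1 hgx
    apply key g hg
    -- `y₀` is a power of `x`
    have hxz : x ∈ zpowers x₀ := hPeq ▸ hx
    obtain ⟨c, rfl⟩ := (mem_powers_iff_mem_zpowers).mpr hxz
    have h1 : orderOf (x₀ ^ c) ∣ p ^ m := by rw [← ho]; exact orderOf_pow_dvd c
    obtain ⟨i, -, hi⟩ := (Nat.dvd_prime_pow hpp).mp h1
    have hi1 : 1 ≤ i := by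
      by_contra h
      have h0 : i = 0 := by omega
      rw [h0, pow_zero, orderOf_eq_one_iff] at hi
      exact hx1 hi
    have hpi : p ^ i = p ^ (i - 1) * p := by rw [← pow_succ]; congr 1; omega
    set w := (x₀ ^ c) ^ (p ^ (i - 1)) with hw
    have hoW : orderOf w = p := by
      rw [hw, orderOf_pow_of_dvd (pow_ne_zero _ hpp.ne_zero) (by rw [hi]; exact ⟨p, hpi⟩), hi, hpi]
      exact Nat.mul_div_cancel_left _ (pow_pos hpp.pos _)
    have hwp : w ^ p = 1 := by rw [← hoW]; exact pow_orderOf_eq_one w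
    have h2 : p ^ m ∣ c * p ^ (i - 1) * p := by
      rw [← ho]
      apply orderOf_dvd_of_pow_eq_one
      rw [pow_mul, pow_mul]
      exact hwp
    rw [hpm] at h2
    have h3 : p ^ (m - 1) ∣ c * p ^ (i - 1) := Nat.dvd_of_mul_dvd_mul_right hpp.pos h2
    obtain ⟨c', hc'⟩ := h3
    have hwY : w ∈ Z := by
      have : w = y₀ ^ c' := by rw [hw, hy₀, ← pow_mul, ← pow_mul, hc']
      rw [this]
      exact Subgroup.pow_mem _ (mem_zpowers y₀) _
    have hZw : zpowers w = Z := by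
      apply Subgroup.eq_of_le_of_card_ge (zpowers_le.mpr hwY)
      have h7 : Nat.card (zpowers w) = p := by rw [Nat.card_zpowers, hoW]
      rw [h7, hZcard]
    have h4 : y₀ ∈ zpowers w := by rw [hZw]; exact mem_zpowers y₀
    obtain ⟨a, ha⟩ := Subgroup.mem_zpowers_iff.mp h4
    have h5 : Commute g (x₀ ^ c) := by
      rw [mul_inv_eq_iff_eq_mul] at hgx
      exact hgx
    have h6 : Commute g y₀ := by
      rw [← ha]
      exact (h5.pow_right _).zpow_right a
    rw [h6.eq, mul_inv_cancel_right]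

end Cfsg.Agent.Lib.Blocks
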