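import Cfsg.Agent.Lib.Blocks.Q8Block

/-!
# Counting blocks when the `p`-regular part of the relevant classes is a normal `p'`-subgroup
-/

set_option autoImplicit false
set_option linter.unusedSectionVars false

namespace Cfsg.Agent.Lib.Blocks.NormalCount

open Cfsg Cfsg.Agent.Lib.Char Cfsg.Agent.Lib.Blocks
open scoped ComplexConjugate

universe u

section

variable {H : Type u} [Group H] [Fintype H] {M : Ideal AlgInt} {p : ℕ} [hp : Fact p.Prime]
variable (X : Subgroup H)

/-- Central functions with group-algebra coefficients supported on `X`. -/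
def suppAlg : Subalgebra ℂ (IrrCharacter H → ℂ) where
  carrier := {c | ∀ g, g ∉ X → coef c g = 0}
  mul_mem' := by
    intro a b ha hb g hg
    rw [coef_mul, conv]
    refine Finset.sum_eq_zero fun x _ => ?_
    by_cases hx : x ∈ X
    · have h1 : x⁻¹ * g ∉ X := by
        intro h2
        apply hg
        have := X.mul_mem hx h2
        simpa using this
      rw [hb _ h1, mul_zero]
    · rw [ha _ hx, zero_mul]
  add_mem' := by
    intro a b ha hb g hg
    rw [coef_add, Pi.add_apply, ha _ hg, hb _ hg, add_zero]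
  algebraMap_mem' := by
    intro r g hg
    have h1 : (algebraMap ℂ (IrrCharacter H → ℂ) r) = r • (1 : IrrCharacter H → ℂ) := by
      rw [Algebra.algebraMap_eq_smul_one]
    have h2 : coef (1 : IrrCharacter H → ℂ) g = 0 := by
      rw [coef_one]
      exact if_neg (fun h : g = 1 => hg (h ▸ X.one_mem))
    rw [h1, coef_smul, Pi.smul_apply, h2, smul_zero]

theorem mem_suppAlg {c : IrrCharacter H → ℂ} : c ∈ suppAlg X ↔ ∀ g, g ∉ X → coef c g = 0 := Iff.rfl

variable {X}

/-- An idempotent supported on a normal `p'`-subgroup has local coefficients. -/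
theorem idem_mem_zS (hM : IsPModular p M) [M.IsPrime] (hX : ¬ p ∣ Nat.card X) {c : IrrCharacter H → ℂ}
    (hc : c ∈ suppAlg X) (hcc : c * c = c) : c ∈ zS M H := by
  classical
  letI : Fintype X := Fintype.ofFinite _
  have ha := coef_isClassFunction c
  set a := coef c with ha_def
  let aX : X → ℂ := fun x => a x
  have haX : IsClassFunction X aX := by
    intro g h
    exact ha (g : H) (h : H)
  have hconv : conv aX aX = aX := by
    funext y
    have h1 : a y = conv a a y := by
      have := congrFun (coef_mul c c) (y : H)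
      rw [hcc] at this
      exact this
    have h2 : conv a a (y : H) = ∑ x : X, a x * a ((x : H)⁻¹ * y) := by
      rw [conv]
      have h3 : ∑ x : H, a x * a (x⁻¹ * y) =
          ∑ x ∈ Finset.univ.filter (· ∈ X), a x * a (x⁻¹ * y) := by
        symm
        apply Finset.sum_subset (Finset.subset_univ _)
        intro g _ hg
        have hg' : g ∉ X := by simpa using hg
        rw [show a g = 0 from hc _ hg', zero_mul]
      rw [h3, Finset.sum_subtype (p := (· ∈ X)) _ (by simp)]
    show conv aX aX y = a y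
    rw [h1, h2, conv]
    simp only [aX]
    refine Finset.sum_congr rfl fun x _ => ?_
    rfl
  have hsp : spec aX * spec aX = spec aX := by
    rw [← spec_conv aX aX haX, hconv]
  have hval : ∀ θ : IrrCharacter X, spec aX θ = 0 ∨ spec aX θ = 1 := by
    intro θ
    have h1 := congrFun hsp θ
    simp only [Pi.mul_apply] at h1
    have h2 : spec aX θ * (spec aX θ - 1) = 0 := by linear_combination h1
    rcases mul_eq_zero.mp h2 with h3 | h3
    · exact Or.inl h3
    · exact Or.inr (by linear_combination h3)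
  rw [mem_zS]
  intro g
  by_cases hg : g ∈ X
  · have h1 : coef (spec aX) ⟨g, hg⟩ = aX ⟨g, hg⟩ := by rw [coef_spec _ haX]
    have h2 : coef c g = coef (spec aX) ⟨g, hg⟩ := h1.symm
    rw [h2, coef]
    refine MemLocalRing.mul (inv_natCast_memLocalRing hM hX) (MemLocalRing.sum _ fun θ _ => ?_)
    refine MemLocalRing.mul ?_ (MemLocalRing.mul ?_ ?_)
    · rcases hval θ with h3 | h3
      · rw [h3]; exact memLocalRing_zero
      · rw [h3]; exact memLocalRing_one
    · exact memLocalRing_of_isIntegral (irr_isIntegral θ _)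
    · rw [← irr_apply_inv]
      exact memLocalRing_of_isIntegral (irr_isIntegral θ _)
  · rw [hc _ hg]
    exact memLocalRing_zero

/-- The level set of a character for the algebra. -/
def levelSet (X : Subgroup H) (χ : IrrCharacter H) : Set (IrrCharacter H) :=
  {ψ | ∀ c ∈ suppAlg X, c ψ = c χ}

theorem self_mem_levelSet (χ : IrrCharacter H) : χ ∈ levelSet X χ := fun _ _ => rfl

/-- The indicator of a level set lies in the algebra. -/
theorem indic_levelSet_mem (χ : IrrCharacter H) : indic (levelSet X χ) ∈ suppAlg X := by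
  classical
  have hex : ∀ ψ : IrrCharacter H, ∃ f ∈ suppAlg X, f χ = 1 ∧ (ψ ∉ levelSet X χ → f ψ = 0) := by
    intro ψ
    by_cases hψ : ψ ∈ levelSet X χ
    · exact ⟨1, one_mem _, rfl, fun h => absurd hψ h⟩
    · have h1 : ∃ c ∈ suppAlg X, c ψ ≠ c χ := by
        by_contra hcon
        push Not at hcon
        exact hψ hcon
      obtain ⟨c, hc, hne⟩ := h1
      have hne' : c χ - c ψ ≠ 0 := sub_ne_zero.mpr hne.symm
      refine ⟨(c χ - c ψ)⁻¹ • (c - algebraMap ℂ _ (c ψ)), ?_, ?_, fun _ => ?_⟩
      · exact Subalgebra.smul_mem _ (Subalgebra.sub_mem _ hc (Subalgebra.algebraMap_mem _ _)) _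
      · simp only [Pi.smul_apply, Pi.sub_apply, smul_eq_mul]
        have : (algebraMap ℂ (IrrCharacter H → ℂ) (c ψ)) χ = c ψ := rfl
        rw [this]
        field_simp
      · simp only [Pi.smul_apply, Pi.sub_apply, smul_eq_mul]
        have : (algebraMap ℂ (IrrCharacter H → ℂ) (c ψ)) ψ = c ψ := rfl
        rw [this, sub_self, mul_zero]
  choose f hf hf1 hf0 using hex
  have : indic (levelSet X χ) = ∏ ψ, f ψ := by
    funext ψ₀
    rw [Finset.prod_apply]
    by_cases h0 : ψ₀ ∈ levelSet X χ
    · rw [indic_apply_of_mem h0, Finset.prod_eq_one]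
      intro ψ _
      rw [h0 _ (hf ψ), hf1]
    · rw [indic_apply_of_notMem h0]
      exact (Finset.prod_eq_zero (f := fun c => f c ψ₀) (Finset.mem_univ ψ₀) (hf0 _ h0)).symm
  rw [this]
  exact Subalgebra.prod_mem _ fun ψ _ => hf ψ

variable [hXn : X.Normal]

theorem centralChar_mem_suppAlg {g : H} (hg : g ∈ X) :
    (fun χ : IrrCharacter H => centralChar (χ : H → ℂ) g) ∈ suppAlg X := by
  intro y hy
  have h1 : (fun χ : IrrCharacter H => centralChar (χ : H → ℂ) g) = spec (cls g) := by
    funext χ
    rw [spec_cls]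
  rw [h1, coef_spec _ (cls_isClassFunction g)]
  classical
  have h2 : ¬ IsConj g y := by
    intro h3
    obtain ⟨c, rfl⟩ := isConj_iff.mp h3
    exact hy (hXn.conj_mem _ hg c)
  simp only [cls, if_neg h2]

/-- Blocks are the level sets of the algebra. -/
theorem blockOf_eq_levelSet (hM : IsPModular p M) (hX : ¬ p ∣ Nat.card X)
    (hreg : ∀ g : H, ¬ p ∣ orderOf g → g ∉ X → ∀ χ : IrrCharacter H,
      MemLocalIdeal M (centralChar (χ : H → ℂ) g)) (χ : IrrCharacter H) :
    blockOf M (χ : H → ℂ) = levelSet X χ := by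
  have := isPrime_of_modular hM
  apply Set.Subset.antisymm
  · exact blockOf_subset_of_indic_mem (idem_mem_zS hM hX (indic_levelSet_mem χ) (indic_mul_self _))
      (self_mem_levelSet χ)
  · intro ψ hψ
    refine Q8Block.sameBlock_of_regular hM fun y hy => ?_
    by_cases hyX : y ∈ X
    · have h1 : centralChar (ψ : H → ℂ) y = centralChar (χ : H → ℂ) y :=
        hψ _ (centralChar_mem_suppAlg hyX)
      rw [h1, sub_self]
      exact memLocalIdeal_zero
    · exact MemLocalIdeal.sub (hreg y hy hyX χ) (hreg y hy hyX ψ)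

noncomputable local instance blockFintype (M : Ideal AlgInt) (H : Type u) [Group H] [Fintype H] :
    Fintype {B : Set (IrrCharacter H) // IsPBlock M B} := Fintype.ofFinite _

noncomputable local instance classFintype (X : Subgroup H) :
    Fintype {C : ConjClasses H // ∀ n : H, ConjClasses.mk n = C → n ∈ X} := Fintype.ofFinite _

/-- The map from functions on blocks. -/
noncomputable def blockMap (M : Ideal AlgInt) (H : Type u) [Group H] [Fintype H] :
    ({B : Set (IrrCharacter H) // IsPBlock M B} → ℂ) →ₗ[ℂ] (IrrCharacter H → ℂ) where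
  toFun := fun f χ => ∑ B, f B * indic B.1 χ
  map_add' := by
    intro f g
    funext χ
    simp only [Pi.add_apply, add_mul, Finset.sum_add_distrib]
  map_smul' := by
    intro r f
    funext χ
    simp only [Pi.smul_apply, smul_eq_mul, RingHom.id_apply, Finset.mul_sum, mul_assoc]

/-- The map from functions on the classes inside `X`. -/
noncomputable def classMap (X : Subgroup H) :
    ({C : ConjClasses H // ∀ n : H, ConjClasses.mk n = C → n ∈ X} → ℂ) →ₗ[ℂ] (IrrCharacter H → ℂ) where
  toFun := fun f χ => ∑ C, f C * centralChar (χ : H → ℂ) (clsRep C.1)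
  map_add' := by
    intro f g
    funext χ
    simp only [Pi.add_apply, add_mul, Finset.sum_add_distrib]
  map_smul' := by
    intro r f
    funext χ
    simp only [Pi.smul_apply, smul_eq_mul, RingHom.id_apply, Finset.mul_sum, mul_assoc]

theorem blockMap_apply (f : {B : Set (IrrCharacter H) // IsPBlock M B} → ℂ) (χ : IrrCharacter H) :
    blockMap M H f χ = ∑ B, f B * indic B.1 χ := rfl

theorem classMap_apply (f : {C : ConjClasses H // ∀ n : H, ConjClasses.mk n = C → n ∈ X} → ℂ)
    (χ : IrrCharacter H) :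
    classMap X f χ = ∑ C, f C * centralChar (χ : H → ℂ) (clsRep C.1) := rfl

theorem eq_of_mem_block [M.IsPrime] {B B' : {B : Set (IrrCharacter H) // IsPBlock M B}}
    {χ : IrrCharacter H} (h : χ ∈ B.1) (h' : χ ∈ B'.1) : B = B' :=
  Subtype.ext ((blockOf_eq_of_mem B.2 h).trans (blockOf_eq_of_mem B'.2 h').symm)

theorem blockMap_injective [M.IsPrime] : Function.Injective (blockMap M H) := by
  classical
  rw [injective_iff_map_eq_zero]
  intro f hf
  funext B
  obtain ⟨χ, hχ⟩ := IsPBlock.nonempty B.2
  have h1 := congrFun hf χ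
  rw [blockMap_apply, Finset.sum_eq_single B] at h1
  · rw [indic_apply_of_mem hχ, mul_one] at h1
    exact h1
  · intro B' _ hne
    by_cases hin : χ ∈ B'.1
    · exact absurd (eq_of_mem_block hin hχ) hne
    · rw [indic_apply_of_notMem hin, mul_zero]
  · intro h
    exact absurd (Finset.mem_univ _) h

theorem clsRep_mem (C : {C : ConjClasses H // ∀ n : H, ConjClasses.mk n = C → n ∈ X}) :
    clsRep C.1 ∈ X := C.2 _ (mk_clsRep _)

theorem classMap_injective : Function.Injective (classMap X) := by
  classical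
  rw [injective_iff_map_eq_zero]
  intro f hf
  funext C₀
  let b : H → ℂ := ∑ C, f C • cls (clsRep C.1)
  have hb : IsClassFunction H b := by
    intro g h
    simp only [b, Finset.sum_apply, Pi.smul_apply]
    exact Finset.sum_congr rfl fun C _ => by rw [cls_isClassFunction]
  have h1 : spec b = 0 := by
    funext χ
    have h2 := congrFun hf χ
    rw [classMap_apply] at h2
    simp only [b]
    rw [spec_sum, Finset.sum_apply]
    simp only [spec_smul, Pi.smul_apply, spec_cls, smul_eq_mul]
    exact h2
  have h3 : b = 0 := by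
    rw [← coef_spec b hb, h1, coef_zero]
  have h4 := congrFun h3 (clsRep C₀.1)
  simp only [b, Finset.sum_apply, Pi.smul_apply, smul_eq_mul, Pi.zero_apply] at h4
  rw [Finset.sum_eq_single C₀] at h4
  · have h5 : IsConj (clsRep C₀.1) (clsRep C₀.1) := IsConj.refl _
    simp only [cls, if_pos h5, mul_one] at h4
    exact h4
  · intro C _ hne
    have h6 : ¬ IsConj (clsRep C.1) (clsRep C₀.1) := by
      intro h7
      apply hne
      apply Subtype.ext
      rw [← (mk_eq_iff_isConj_clsRep C.1 (clsRep C₀.1)).mpr h7, mk_clsRep]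
    simp only [cls, if_neg h6, mul_zero]
  · intro h
    exact absurd (Finset.mem_univ _) h

theorem range_classMap : LinearMap.range (classMap X) = Subalgebra.toSubmodule (suppAlg X) := by
  classical
  apply le_antisymm
  · rintro _ ⟨f, rfl⟩
    have h1 : classMap X f = ∑ C, f C • (fun χ : IrrCharacter H => centralChar (χ : H → ℂ) (clsRep C.1)) := by
      funext χ
      rw [classMap_apply, Finset.sum_apply]
      rfl
    rw [h1]
    exact Submodule.sum_mem _ fun C _ => Submodule.smul_mem _ _
      (centralChar_mem_suppAlg (clsRep_mem C))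
  · intro c hc
    have hc' : c ∈ suppAlg X := hc
    refine ⟨fun C => coef c (clsRep C.1), ?_⟩
    funext χ
    rw [classMap_apply]
    have h2 : c χ = ∑ K : ConjClasses H, coef c (clsRep K) * centralChar (χ : H → ℂ) (clsRep K) := by
      conv_lhs => rw [← spec_coef c]
      exact spec_eq_sum_classes _ (coef_isClassFunction c) χ
    rw [h2]
    have h3 : ∑ K : ConjClasses H, coef c (clsRep K) * centralChar (χ : H → ℂ) (clsRep K) =
        ∑ K ∈ Finset.univ.filter (fun K : ConjClasses H => ∀ n : H, ConjClasses.mk n = K → n ∈ X),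
          coef c (clsRep K) * centralChar (χ : H → ℂ) (clsRep K) := by
      symm
      apply Finset.sum_subset (Finset.subset_univ _)
      intro K _ hK
      have hK' : ¬ ∀ n : H, ConjClasses.mk n = K → n ∈ X := by simpa using hK
      push Not at hK'
      obtain ⟨n, hn, hnX⟩ := hK'
      have h4 : clsRep K ∉ X := by
        intro h5
        apply hnX
        obtain ⟨c', rfl⟩ := isConj_iff.mp ((mk_eq_iff_isConj_clsRep K n).mp hn)
        exact hXn.conj_mem _ h5 c'
      rw [hc' _ h4, zero_mul]
    rw [h3, Finset.sum_subtype (p := fun K : ConjClasses H => ∀ n : H, ConjClasses.mk n = K → n ∈ X) _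
      (by simp)]

theorem range_blockMap (hM : IsPModular p M) (hX : ¬ p ∣ Nat.card X)
    (hreg : ∀ g : H, ¬ p ∣ orderOf g → g ∉ X → ∀ χ : IrrCharacter H,
      MemLocalIdeal M (centralChar (χ : H → ℂ) g)) :
    LinearMap.range (blockMap M H) = Subalgebra.toSubmodule (suppAlg X) := by
  classical
  have := isPrime_of_modular hM
  have hlev := blockOf_eq_levelSet hM hX hreg
  apply le_antisymm
  · rintro _ ⟨f, rfl⟩
    have h1 : blockMap M H f = ∑ B, f B • indic B.1 := by
      funext χ
      rw [blockMap_apply, Finset.sum_apply]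
      rfl
    rw [h1]
    refine Submodule.sum_mem _ fun B _ => Submodule.smul_mem _ _ ?_
    obtain ⟨B, θ, rfl⟩ := B
    show indic (blockOf M (θ : H → ℂ)) ∈ suppAlg X
    rw [hlev θ]
    exact indic_levelSet_mem θ
  · intro c hc
    have hc' : c ∈ suppAlg X := hc
    choose r hr using fun B : {B : Set (IrrCharacter H) // IsPBlock M B} => IsPBlock.nonempty B.2
    refine ⟨fun B => c (r B), ?_⟩
    funext χ
    rw [blockMap_apply]
    let B₀ : {B : Set (IrrCharacter H) // IsPBlock M B} := ⟨blockOf M (χ : H → ℂ), isPBlock_blockOf χ⟩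
    have hχ₀ : χ ∈ B₀.1 := self_mem_blockOf χ
    rw [Finset.sum_eq_single B₀]
    · rw [indic_apply_of_mem hχ₀, mul_one]
      have h5 : r B₀ ∈ levelSet X χ := by
        rw [← hlev χ]
        exact hr B₀
      exact h5 c hc'
    · intro B' _ hne
      by_cases hin : χ ∈ B'.1
      · exact absurd (eq_of_mem_block hin hχ₀) hne
      · rw [indic_apply_of_notMem hin, mul_zero]
    · intro h
      exact absurd (Finset.mem_univ _) h

/-- Counting blocks by the classes inside a normal `p'`-subgroup. -/
theorem card_blocks_eq (hM : IsPModular p M) (hX : ¬ p ∣ Nat.card X)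
    (hreg : ∀ g : H, ¬ p ∣ orderOf g → g ∉ X → ∀ χ : IrrCharacter H,
      MemLocalIdeal M (centralChar (χ : H → ℂ) g)) :
    Nat.card {B : Set (IrrCharacter H) // IsPBlock M B} =
      Nat.card {C : ConjClasses H // ∀ n : H, ConjClasses.mk n = C → n ∈ X} := by
  classical
  have := isPrime_of_modular hM
  have h1 := LinearMap.finrank_range_of_inj (blockMap_injective (M := M) (H := H))
  have h2 := LinearMap.finrank_range_of_inj (classMap_injective (X := X))
  rw [Module.finrank_fintype_fun_eq_card] at h1 h2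
  rw [Nat.card_eq_fintype_card, Nat.card_eq_fintype_card, ← h1, ← h2, range_classMap,
    range_blockMap hM hX hreg]

end

end Cfsg.Agent.Lib.Blocks.NormalCount

namespace Cfsg.Agent.Lib.Blocks.NormalCount

open Cfsg Cfsg.Agent.Lib.Char Cfsg.Agent.Lib.Blocks

universe u

section App

variable {N : Type u} [Group N] [Finite N] {p : ℕ} [hp : Fact p.Prime]

theorem orderOf_conj_eq' (g n : N) : orderOf (g * n * g⁻¹) = orderOf n := by
  simpa using orderOf_injective (MulAut.conj g).toMonoidHom (MulAut.conj g).injective n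

/-- The `p`-regular elements of the centralizer of a normal Sylow subgroup form a subgroup. -/
theorem exists_regular_subgroup (Q : Subgroup N) [hQn : Q.Normal] (hQi : ¬ p ∣ Q.index)
    (hQp : IsPGroup p Q) :
    ∃ X : Subgroup N, X.Normal ∧ ¬ p ∣ Nat.card X ∧
      ∀ n, n ∈ X ↔ (¬ p ∣ orderOf n ∧ n ∈ Subgroup.centralizer (Q : Set N)) := by
  classical
  set C := Subgroup.centralizer (Q : Set N) with hC
  let T : Subgroup C := Q.subgroupOf C
  haveI hTn : T.Normal := hQn.subgroupOf C
  have hTp : IsPGroup p T := by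
    exact IsPGroup.of_injective (p := p) hQp
      (⟨⟨fun t => ⟨(t.1 : N), t.2⟩, by intros; rfl⟩, by intros; rfl⟩ : T →* Q) (by
        intro a b hab
        apply Subtype.ext
        apply Subtype.ext
        exact congrArg (fun x : Q => (x : N)) hab)
  have hTi : ¬ p ∣ T.index := by
    intro h
    exact hQi (h.trans (Subgroup.relIndex_dvd_index_of_normal Q C))
  obtain ⟨k, hk⟩ := IsPGroup.iff_card.mp hTp
  have hcop : (Nat.card T).Coprime T.index := by
    rw [hk]
    exact Nat.Coprime.pow_left _ ((Nat.Prime.coprime_iff_not_dvd hp.out).mpr hTi)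
  obtain ⟨H, hH⟩ := Subgroup.exists_right_complement'_of_coprime hcop
  have hHc : Nat.card H = T.index := hH.symm.index_eq_card.symm
  have hHp : ¬ p ∣ Nat.card H := by rwa [hHc]
  have hmem : ∀ n, n ∈ H.map C.subtype ↔ (¬ p ∣ orderOf n ∧ n ∈ C) := by
    intro n
    constructor
    · rintro ⟨h, hh, rfl⟩
      refine ⟨fun hd => hHp ?_, h.2⟩
      have h1 : orderOf (⟨h, hh⟩ : H) ∣ Nat.card H := orderOf_dvd_natCard _
      have h2 : orderOf (⟨h, hh⟩ : H) = orderOf (C.subtype h) := by
        simp [Subgroup.orderOf_mk]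
      rw [h2] at h1
      exact hd.trans h1
    · rintro ⟨hreg, hnC⟩
      obtain ⟨⟨t, h⟩, ht, -⟩ := (Subgroup.isComplement'_def.mp hH).existsUnique ⟨n, hnC⟩
      have hn : (t : C) * (h : C) = ⟨n, hnC⟩ := ht
      have hcomm : Commute (t : C) (h : C) := by
        apply Subtype.ext
        have h2 : ((t : C) : N) ∈ Q := t.2
        exact ((Subgroup.mem_centralizer_iff.mp (h : C).2) _ h2)
      set m := Nat.card H with hm
      have hpow : (⟨n, hnC⟩ : C) ^ m = (t : C) ^ m := by
        rw [← hn, hcomm.mul_pow]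
        have h3 : (h : C) ^ m = 1 := by
          have h30 : h ^ m = 1 := pow_card_eq_one'
          exact congrArg Subtype.val h30
        rw [h3, mul_one]
      obtain ⟨j, hj⟩ := (IsPGroup.iff_orderOf.mp hTp) t
      have h4 : orderOf (t : C) = p ^ j := by
        rw [← hj, Subgroup.orderOf_coe]
      have hnp : orderOf (⟨n, hnC⟩ : C) = orderOf n := Subgroup.orderOf_mk _ _
      have h5 : ((⟨n, hnC⟩ : C) ^ m) ^ (orderOf n) = 1 := by
        rw [← pow_mul, mul_comm, pow_mul, ← hnp, pow_orderOf_eq_one, one_pow]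
      have h6 : ((t : C) ^ m) ^ (p ^ j) = 1 := by
        rw [← pow_mul, mul_comm, pow_mul, ← h4, pow_orderOf_eq_one, one_pow]
      have hco : Nat.Coprime (orderOf n) (p ^ j) :=
        Nat.Coprime.pow_right _ ((Nat.Prime.coprime_iff_not_dvd hp.out).mpr hreg).symm
      have h7 : (t : C) ^ m = 1 := by
        rw [hpow] at h5
        have h8 := orderOf_dvd_of_pow_eq_one h5
        have h9 := orderOf_dvd_of_pow_eq_one h6
        have h10 := Nat.eq_one_of_dvd_coprimes hco h8 h9
        exact orderOf_eq_one_iff.mp h10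
      have h11 : orderOf (t : C) ∣ m := orderOf_dvd_of_pow_eq_one h7
      have h12 : j = 0 := by
        by_contra hne
        apply hHp
        rw [h4] at h11
        exact (dvd_pow_self p hne).trans h11
      have h13 : (t : C) = 1 := by
        rw [h12, pow_zero] at h4
        exact orderOf_eq_one_iff.mp h4
      rw [h13, one_mul] at hn
      exact ⟨h, h.2, congrArg Subtype.val hn⟩
  refine ⟨H.map C.subtype, ⟨?_⟩, ?_, hmem⟩
  · intro n hn g
    rw [hmem] at hn ⊢
    refine ⟨by rw [orderOf_conj_eq']; exact hn.1, ?_⟩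
    rw [hC, Subgroup.mem_centralizer_iff]
    intro q hq
    have h1 : g⁻¹ * q * g⁻¹⁻¹ ∈ Q := hQn.conj_mem q hq g⁻¹
    have h2 := Subgroup.mem_centralizer_iff.mp hn.2 _ h1
    simp only [inv_inv] at h2
    calc q * (g * n * g⁻¹) = g * (g⁻¹ * q * g * n) * g⁻¹ := by group
      _ = g * (n * (g⁻¹ * q * g)) * g⁻¹ := by rw [h2]
      _ = g * n * g⁻¹ * q := by group
  · rw [Subgroup.card_map_of_injective (Subgroup.subtype_injective C)]
    exact hHp

theorem isConj_mem_centralizer (Q : Subgroup N) [hQn : Q.Normal] {g x : N} (h : IsConj g x)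
    (hx : x ∈ Subgroup.centralizer (Q : Set N)) : g ∈ Subgroup.centralizer (Q : Set N) := by
  obtain ⟨c, rfl⟩ := isConj_iff.mp h
  rw [Subgroup.mem_centralizer_iff] at hx ⊢
  intro q hq
  have h1 : c * q * c⁻¹ ∈ Q := hQn.conj_mem q hq c
  have h2 := hx _ h1
  have h3 : c * (q * g) * c⁻¹ = c * (g * q) * c⁻¹ := by
    calc c * (q * g) * c⁻¹ = c * q * c⁻¹ * (c * g * c⁻¹) := by group
      _ = c * g * c⁻¹ * (c * q * c⁻¹) := h2
      _ = c * (g * q) * c⁻¹ := by group
  simpa using h3

end App

section Unique

variable {G : Type u} [Group G] [Fintype G] {M : Ideal AlgInt} {p : ℕ} [hp : Fact p.Prime]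

theorem induced_unique (hM : IsPModular p M) {H : Subgroup G} [Fintype H] {b : Set (IrrCharacter H)}
    {B B' : Set (IrrCharacter G)} (h : IsInducedBlock M H b B) (h' : IsInducedBlock M H b B') :
    B = B' := by
  have := isPrime_of_modular hM
  obtain ⟨ξ, hξ⟩ := IsPBlock.nonempty h.1
  obtain ⟨χ, hχ⟩ := IsPBlock.nonempty h.2.1
  obtain ⟨χ', hχ'⟩ := IsPBlock.nonempty h'.2.1
  have hs : SameBlock M (χ : G → ℂ) (χ' : G → ℂ) := by
    intro g
    have h1 := MemLocalIdeal.symm (h.2.2 ξ hξ χ hχ g)
    have h2 := h'.2.2 ξ hξ χ' hχ' g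
    exact MemLocalIdeal.trans h1 h2
  rw [blockOf_eq_of_mem h.2.1 hχ, blockOf_eq_of_mem h'.2.1 hχ']
  exact blockOf_eq_of_mem (isPBlock_blockOf χ) hs

end Unique

end Cfsg.Agent.Lib.Blocks.NormalCount
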