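import Cfsg.Agent.Lib.Blocks.RegGamma
import Cfsg.Agent.Lib.Blocks.NormalCount

/-!
# Green's theorem on defect groups: `D = P ∩ P^x`

The proof uses the integrality of the Hecke algebra of a subgroup and the `p`-regular pairing.
-/

set_option autoImplicit false
set_option linter.unusedSectionVars false

namespace Cfsg.Agent.Lib.Blocks.GreenDefect

open Cfsg Cfsg.Agent.Lib.Char Cfsg.Agent.Lib.Blocks
open scoped ComplexConjugate

universe u

section Hecke

variable {H : Type u} [Group H] [Fintype H] (P : Subgroup H)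

/-- Bi-invariant functions with values in `(1/|P|) ℤ`. -/
def heckeMod : Submodule ℤ (H → ℂ) where
  carrier := {f | (∀ u ∈ P, ∀ x, f (u * x) = f x) ∧ (∀ u ∈ P, ∀ x, f (x * u) = f x) ∧
    ∀ g, ∃ k : ℤ, (Nat.card P : ℂ) * f g = k}
  add_mem' := by
    rintro a b ⟨ha1, ha2, ha3⟩ ⟨hb1, hb2, hb3⟩
    refine ⟨fun u hu x => ?_, fun u hu x => ?_, fun g => ?_⟩
    · simp only [Pi.add_apply, ha1 u hu, hb1 u hu]
    · simp only [Pi.add_apply, ha2 u hu, hb2 u hu]
    · obtain ⟨k, hk⟩ := ha3 g
      obtain ⟨l, hl⟩ := hb3 g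
      exact ⟨k + l, by simp only [Pi.add_apply, mul_add, hk, hl]; push_cast; ring⟩
  zero_mem' := by
    refine ⟨fun _ _ _ => rfl, fun _ _ _ => rfl, fun g => ⟨0, by simp⟩⟩
  smul_mem' := by
    rintro c a ⟨ha1, ha2, ha3⟩
    refine ⟨fun u hu x => ?_, fun u hu x => ?_, fun g => ?_⟩
    · simp only [Pi.smul_apply, ha1 u hu]
    · simp only [Pi.smul_apply, ha2 u hu]
    · obtain ⟨k, hk⟩ := ha3 g
      refine ⟨c * k, ?_⟩
      simp only [Pi.smul_apply, zsmul_eq_mul]
      push_cast
      rw [← hk]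
      ring

theorem mem_heckeMod {f : H → ℂ} : f ∈ heckeMod P ↔ (∀ u ∈ P, ∀ x, f (u * x) = f x) ∧
    (∀ u ∈ P, ∀ x, f (x * u) = f x) ∧ ∀ g, ∃ k : ℤ, (Nat.card P : ℂ) * f g = k := Iff.rfl

theorem card_ne_zero_P : (Nat.card P : ℂ) ≠ 0 := by
  exact_mod_cast Nat.card_pos.ne'

/-- The map from integer-valued functions. -/
noncomputable def heckeScale : (H → ℤ) →ₗ[ℤ] (H → ℂ) where
  toFun k g := (k g : ℂ) / (Nat.card P : ℂ)
  map_add' a b := by
    funext g
    simp only [Pi.add_apply]
    push_cast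
    ring
  map_smul' c a := by
    funext g
    simp only [Pi.smul_apply, smul_eq_mul, RingHom.id_apply, zsmul_eq_mul]
    push_cast
    ring

theorem heckeMod_fg : (heckeMod P).FG := by
  classical
  have h1 : (LinearMap.range (heckeScale P)).FG := by
    rw [LinearMap.range_eq_map]
    exact Submodule.FG.map _ Module.Finite.fg_top
  have h2 : IsNoetherian ℤ (LinearMap.range (heckeScale P)) :=
    isNoetherian_of_fg_of_noetherian _ h1
  refine isNoetherian_submodule.mp h2 _ ?_
  rintro f ⟨-, -, hf⟩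
  choose k hk using hf
  refine ⟨k, ?_⟩
  funext g
  show (k g : ℂ) / (Nat.card P : ℂ) = f g
  rw [← hk g]
  field_simp [card_ne_zero_P P]

variable {P}

/-- Sums of a right `P`-invariant function are multiples of `|P|` in the coset sum. -/
theorem sum_right_inv [Fintype (H ⧸ P)] (F : H → ℂ) (hF : ∀ u ∈ P, ∀ x, F (x * u) = F x) :
    ∑ x, F x = (Nat.card P : ℂ) * ∑ c : H ⧸ P, F (Quotient.out c) := by
  classical
  letI : Fintype P := Fintype.ofFinite _
  rw [← Finset.sum_fiberwise Finset.univ (fun x : H => (x : H ⧸ P)) F, Finset.mul_sum]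
  refine Finset.sum_congr rfl fun c _ => ?_
  have h1 : ∀ x ∈ Finset.univ.filter (fun x : H => (x : H ⧸ P) = c), F x = F (Quotient.out c) := by
    intro x hx
    simp only [Finset.mem_filter, Finset.mem_univ, true_and] at hx
    have h2 : ((Quotient.out c : H) : H ⧸ P) = x := by
      rw [hx]
      exact QuotientGroup.out_eq' c
    have h3 : (Quotient.out c)⁻¹ * x ∈ P := QuotientGroup.eq.mp h2
    have h4 := hF _ h3 (Quotient.out c)
    rw [mul_inv_cancel_left] at h4
    exact h4
  rw [Finset.sum_congr rfl h1, Finset.sum_const, nsmul_eq_mul]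
  congr 2
  rw [Nat.card_eq_fintype_card]
  apply Finset.card_eq_of_equiv_fintype
  exact
    { toFun := fun x => ⟨(Quotient.out c)⁻¹ * x.1, by
        have hx := x.2
        simp only [Finset.mem_filter, Finset.mem_univ, true_and] at hx
        have h2 : ((Quotient.out c : H) : H ⧸ P) = x.1 := by
          rw [hx]
          exact QuotientGroup.out_eq' c
        exact QuotientGroup.eq.mp h2⟩
      invFun := fun u => ⟨Quotient.out c * u.1, by
        simp only [Finset.mem_filter, Finset.mem_univ, true_and]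
        rw [← QuotientGroup.out_eq' c]
        rw [eq_comm, QuotientGroup.eq]
        simp⟩
      left_inv := fun x => by simp
      right_inv := fun u => by simp }

theorem conv_mem_heckeMod {f h : H → ℂ} (hf : f ∈ heckeMod P) (hh : h ∈ heckeMod P) :
    conv f h ∈ heckeMod P := by
  classical
  letI : Fintype (H ⧸ P) := Fintype.ofFinite _
  obtain ⟨hf1, hf2, hf3⟩ := hf
  obtain ⟨hh1, hh2, hh3⟩ := hh
  refine ⟨fun u hu x => ?_, fun u hu x => ?_, fun g => ?_⟩
  · simp only [conv]
    rw [← Equiv.sum_comp (Equiv.mulLeft u)]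
    refine Finset.sum_congr rfl fun y _ => ?_
    simp only [Equiv.coe_mulLeft, hf1 u hu]
    congr 2
    group
  · simp only [conv]
    refine Finset.sum_congr rfl fun y _ => ?_
    rw [← mul_assoc, hh2 u hu]
  · have hinv : ∀ u ∈ P, ∀ x, (fun y => f y * h (y⁻¹ * g)) (x * u) = (fun y => f y * h (y⁻¹ * g)) x := by
      intro u hu x
      simp only [hf2 u hu]
      have h1 : (x * u)⁻¹ * g = u⁻¹ * (x⁻¹ * g) := by group
      rw [h1, hh1 _ (P.inv_mem hu)]
    have h2 := sum_right_inv (fun y => f y * h (y⁻¹ * g)) hinv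
    choose k hk using hf3
    choose l hl using hh3
    refine ⟨∑ c : H ⧸ P, k (Quotient.out c) * l ((Quotient.out c)⁻¹ * g), ?_⟩
    rw [conv, h2, Int.cast_sum, ← mul_assoc, Finset.mul_sum]
    refine Finset.sum_congr rfl fun c _ => ?_
    push_cast
    rw [← hk, ← hl]
    ring

end Hecke

section Rep

variable {H : Type u} [Group H] [Fintype H] {P : Subgroup H} {n : ℕ}
  (ρ : Representation ℂ H (Fin n → ℂ))

/-- The operator of a function on the group. -/
noncomputable def Ef (f : H → ℂ) : Module.End ℂ (Fin n → ℂ) := ∑ g, f g • ρ g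

theorem Ef_conv (f h : H → ℂ) : Ef ρ (conv f h) = Ef ρ f * Ef ρ h := by
  classical
  calc Ef ρ (conv f h) = ∑ t, ∑ x, (f x * h (x⁻¹ * t)) • ρ t := by
        simp only [Ef, conv, Finset.sum_smul]
    _ = ∑ x, ∑ t, (f x * h (x⁻¹ * t)) • ρ t := Finset.sum_comm
    _ = ∑ x, ∑ y, (f x * h y) • ρ (x * y) := by
        refine Finset.sum_congr rfl fun x _ => ?_
        rw [← Equiv.sum_comp (Equiv.mulLeft x)]
        simp only [Equiv.coe_mulLeft, inv_mul_cancel_left]
    _ = Ef ρ f * Ef ρ h := by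
        simp only [Ef, Finset.sum_mul_sum]
        refine Finset.sum_congr rfl fun x _ => Finset.sum_congr rfl fun y _ => ?_
        rw [map_mul, smul_mul_smul_comm]

theorem Ef_zsmul (c : ℤ) (a : H → ℂ) : Ef ρ (c • a) = c • Ef ρ a := by
  simp only [Ef, Pi.smul_apply, Finset.smul_sum, smul_assoc]

/-- The normalized indicator of `P`. -/
noncomputable def deltaP (P : Subgroup H) : H → ℂ :=
  open scoped Classical in fun g => if g ∈ P then (Nat.card P : ℂ)⁻¹ else 0

theorem deltaP_mem : deltaP P ∈ heckeMod P := by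
  classical
  have hne := card_ne_zero_P P
  refine ⟨fun u hu x => ?_, fun u hu x => ?_, fun g => ?_⟩
  · simp only [deltaP, Subgroup.mul_mem_cancel_left _ hu]
  · simp only [deltaP, Subgroup.mul_mem_cancel_right _ hu]
  · by_cases hg : g ∈ P
    · refine ⟨1, ?_⟩
      simp only [deltaP, if_pos hg]
      field_simp
      simp
    · refine ⟨0, ?_⟩
      simp only [deltaP, if_neg hg]
      simp

theorem conv_deltaP {f : H → ℂ} (hf : ∀ u ∈ P, ∀ x, f (u * x) = f x) : conv (deltaP P) f = f := by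
  classical
  funext t
  have hne := card_ne_zero_P P
  letI : Fintype P := Fintype.ofFinite _
  rw [conv]
  have h1 : ∑ x, deltaP P x * f (x⁻¹ * t) =
      ∑ x ∈ Finset.univ.filter (· ∈ P), (Nat.card P : ℂ)⁻¹ * f t := by
    rw [Finset.sum_filter]
    refine Finset.sum_congr rfl fun x _ => ?_
    by_cases hx : x ∈ P
    · simp only [deltaP, if_pos hx]
      rw [hf _ (P.inv_mem hx)]
    · simp only [deltaP, if_neg hx, zero_mul]
  rw [h1, Finset.sum_const, nsmul_eq_mul]
  have h2 : ((Finset.univ.filter (· ∈ P)).card : ℂ) = (Nat.card P : ℂ) := by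
    rw [Nat.card_eq_fintype_card, Fintype.card_subtype]
  rw [h2]
  field_simp

/-- Eigenvalues of Hecke operators are algebraic integers. -/
theorem eigen_integral {f : H → ℂ} (hf : f ∈ heckeMod P) {l : ℂ} {v : Fin n → ℂ} (hv : v ≠ 0)
    (h : Ef ρ f v = l • v) : IsIntegral ℤ l := by
  classical
  by_cases hl : l = 0
  · rw [hl]
    exact isIntegral_zero
  let Ev : (H → ℂ) →ₗ[ℤ] (Fin n → ℂ) :=
    { toFun := fun a => Ef ρ a v
      map_add' := by
        intro a b
        simp only [Ef, Pi.add_apply, add_smul, Finset.sum_add_distrib, LinearMap.add_apply]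
      map_smul' := by
        intro c a
        rw [Ef_zsmul]
        rfl }
  let N : Submodule ℤ (Fin n → ℂ) := (heckeMod P).map Ev
  have hNfg : N.FG := Submodule.FG.map _ (heckeMod_fg P)
  have hEf : ∀ a b : H → ℂ, ∀ w, Ef ρ (conv a b) w = Ef ρ a (Ef ρ b w) := by
    intro a b w
    rw [Ef_conv]
    rfl
  have hvN : v ∈ N := by
    refine ⟨deltaP P, deltaP_mem, ?_⟩
    show Ef ρ (deltaP P) v = v
    have h1 : Ef ρ (deltaP P) (Ef ρ f v) = Ef ρ f v := by
      rw [← hEf, conv_deltaP hf.1]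
    rw [h, map_smul] at h1
    exact smul_right_injective _ hl h1
  have hNne : N ≠ ⊥ := by
    intro h0
    rw [h0, Submodule.mem_bot] at hvN
    exact hv hvN
  refine isIntegral_of_smul_mem_submodule N hNne hNfg l ?_
  rintro w ⟨a, ha, rfl⟩
  refine ⟨conv a f, conv_mem_heckeMod ha hf, ?_⟩
  show Ef ρ (conv a f) v = l • Ef ρ a v
  rw [hEf, h, map_smul]

/-- Traces of Hecke operators are algebraic integers. -/
theorem isIntegral_hecke_trace {f : H → ℂ} (hf : f ∈ heckeMod P) :
    IsIntegral ℤ (∑ g, f g * ρ.character g) := by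
  classical
  have h1 : ∑ g, f g * ρ.character g = LinearMap.trace ℂ (Fin n → ℂ) (Ef ρ f) := by
    simp only [Ef, map_sum, map_smul, smul_eq_mul]
    rfl
  rw [h1, Module.End.trace_eq_sum_roots_charpoly_of_splits (IsAlgClosed.splits _)]
  refine IsIntegral.multiset_sum fun l hl => ?_
  have hroot : (LinearMap.charpoly (Ef ρ f)).IsRoot l := (Polynomial.mem_roots'.mp hl).2
  have hev := (Module.End.hasEigenvalue_iff_isRoot_charpoly _ _).mpr hroot
  obtain ⟨v, hv⟩ := hev.exists_hasEigenvector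
  exact eigen_integral ρ hf hv.2 hv.apply_eq_smul

end Rep

section DoubleCoset

variable {H : Type u} [Group H] [Fintype H] (P : Subgroup H)

/-- The normalized indicator of the double coset `P x P`. -/
noncomputable def dcFun (x : H) : H → ℂ :=
  open scoped Classical in
  fun g => if ∃ u ∈ P, ∃ v ∈ P, g = u * x * v then (Nat.card P : ℂ)⁻¹ else 0

theorem dcFun_mem (x : H) : dcFun P x ∈ heckeMod P := by
  classical
  have hne := card_ne_zero_P P
  refine ⟨fun u hu y => ?_, fun u hu y => ?_, fun g => ?_⟩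
  · have h1 : (∃ a ∈ P, ∃ b ∈ P, u * y = a * x * b) ↔ ∃ a ∈ P, ∃ b ∈ P, y = a * x * b := by
      constructor
      · rintro ⟨a, ha, b, hb, h⟩
        refine ⟨u⁻¹ * a, P.mul_mem (P.inv_mem hu) ha, b, hb, ?_⟩
        calc y = u⁻¹ * (u * y) := by group
          _ = u⁻¹ * a * x * b := by rw [h]; group
      · rintro ⟨a, ha, b, hb, h⟩
        refine ⟨u * a, P.mul_mem hu ha, b, hb, ?_⟩
        rw [h]
        group
    simp only [dcFun, h1]
  · have h1 : (∃ a ∈ P, ∃ b ∈ P, y * u = a * x * b) ↔ ∃ a ∈ P, ∃ b ∈ P, y = a * x * b := by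
      constructor
      · rintro ⟨a, ha, b, hb, h⟩
        refine ⟨a, ha, b * u⁻¹, P.mul_mem hb (P.inv_mem hu), ?_⟩
        rw [← mul_assoc, ← h]
        group
      · rintro ⟨a, ha, b, hb, h⟩
        refine ⟨a, ha, b * u, P.mul_mem hb hu, ?_⟩
        rw [h]
        group
    simp only [dcFun, h1]
  · by_cases hg : ∃ u ∈ P, ∃ v ∈ P, g = u * x * v
    · refine ⟨1, ?_⟩
      simp only [dcFun, if_pos hg]
      field_simp
      simp
    · refine ⟨0, ?_⟩
      simp only [dcFun, if_neg hg]
      simp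

/-- The intersection of `P` with its conjugate by `x`. -/
def dcInt (x : H) : Subgroup H := P ⊓ P.map (MulAut.conj x).toMonoidHom

theorem mem_dcInt {x q : H} : q ∈ dcInt P x ↔ q ∈ P ∧ x⁻¹ * q * x ∈ P := by
  constructor
  · rintro ⟨h1, y, hy, rfl⟩
    refine ⟨h1, ?_⟩
    have : x⁻¹ * ((MulAut.conj x).toMonoidHom y) * x = y := by
      simp [MulAut.conj_apply]
      group
    rw [this]
    exact hy
  · rintro ⟨h1, h2⟩
    refine ⟨h1, x⁻¹ * q * x, h2, ?_⟩
    simp [MulAut.conj_apply]
    group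

/-- A fibre of the double coset map. -/
theorem card_fiber_dc {x u₀ v₀ : H} (hu₀ : u₀ ∈ P) (hv₀ : v₀ ∈ P) :
    Nat.card {a : P × P // (a.1 : H) * x * (a.2 : H) = u₀ * x * v₀} = Nat.card (dcInt P x) := by
  refine Nat.card_congr
    { toFun := fun a => ⟨u₀⁻¹ * (a.1.1 : H), ?_⟩
      invFun := fun q => ⟨(⟨u₀ * (q : H), P.mul_mem hu₀ ((mem_dcInt P).mp q.2).1⟩,
        ⟨(x⁻¹ * (q : H) * x)⁻¹ * v₀, P.mul_mem (P.inv_mem ((mem_dcInt P).mp q.2).2) hv₀⟩), ?_⟩
      left_inv := ?_
      right_inv := ?_ }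
  · have ha := a.2
    rw [mem_dcInt]
    refine ⟨P.mul_mem (P.inv_mem hu₀) a.1.1.2, ?_⟩
    have h1 : x⁻¹ * (u₀⁻¹ * (a.1.1 : H)) * x = v₀ * (a.1.2 : H)⁻¹ := by
      have h2 : (a.1.1 : H) * x = u₀ * x * v₀ * (a.1.2 : H)⁻¹ := by
        calc (a.1.1 : H) * x = (a.1.1 : H) * x * (a.1.2 : H) * (a.1.2 : H)⁻¹ := by group
          _ = u₀ * x * v₀ * (a.1.2 : H)⁻¹ := by rw [ha]
      calc x⁻¹ * (u₀⁻¹ * (a.1.1 : H)) * x = x⁻¹ * u₀⁻¹ * ((a.1.1 : H) * x) := by group
        _ = x⁻¹ * u₀⁻¹ * (u₀ * x * v₀ * (a.1.2 : H)⁻¹) := by rw [h2]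
        _ = v₀ * (a.1.2 : H)⁻¹ := by group
    rw [h1]
    exact P.mul_mem hv₀ (P.inv_mem a.1.2.2)
  · show u₀ * (q : H) * x * ((x⁻¹ * (q : H) * x)⁻¹ * v₀) = u₀ * x * v₀
    group
  · intro a
    apply Subtype.ext
    apply Prod.ext
    · apply Subtype.ext
      show u₀ * (u₀⁻¹ * (a.1.1 : H)) = a.1.1
      group
    · apply Subtype.ext
      show (x⁻¹ * (u₀⁻¹ * (a.1.1 : H)) * x)⁻¹ * v₀ = a.1.2
      have ha := a.2
      have h2 : (a.1.1 : H) * x = u₀ * x * v₀ * (a.1.2 : H)⁻¹ := by
        calc (a.1.1 : H) * x = (a.1.1 : H) * x * (a.1.2 : H) * (a.1.2 : H)⁻¹ := by group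
          _ = u₀ * x * v₀ * (a.1.2 : H)⁻¹ := by rw [ha]
      have h1 : x⁻¹ * (u₀⁻¹ * (a.1.1 : H)) * x = v₀ * (a.1.2 : H)⁻¹ := by
        calc x⁻¹ * (u₀⁻¹ * (a.1.1 : H)) * x = x⁻¹ * u₀⁻¹ * ((a.1.1 : H) * x) := by group
          _ = x⁻¹ * u₀⁻¹ * (u₀ * x * v₀ * (a.1.2 : H)⁻¹) := by rw [h2]
          _ = v₀ * (a.1.2 : H)⁻¹ := by group
      rw [h1]
      group
  · intro q
    apply Subtype.ext
    show u₀⁻¹ * (u₀ * (q : H)) = q
    group

/-- The double sum over `P × P` in terms of the Hecke function. -/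
theorem sum_double [Fintype P] (x : H) (F : H → ℂ) :
    ∑ u : P, ∑ v : P, F ((u : H) * x * (v : H)) =
      (Nat.card (dcInt P x) : ℂ) * (Nat.card P : ℂ) * ∑ g, dcFun P x g * F g := by
  classical
  have hne := card_ne_zero_P P
  rw [← Finset.sum_product']
  rw [← Finset.sum_fiberwise (Finset.univ ×ˢ Finset.univ)
    (fun a : P × P => (a.1 : H) * x * (a.2 : H)) (fun a : P × P => F ((a.1 : H) * x * (a.2 : H)))]
  rw [Finset.mul_sum]
  refine Finset.sum_congr rfl fun g _ => ?_
  by_cases hg : ∃ u ∈ P, ∃ v ∈ P, g = u * x * v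
  · obtain ⟨u₀, hu₀, v₀, hv₀, rfl⟩ := hg
    have h1 := card_fiber_dc P (x := x) hu₀ hv₀
    have h2 : dcFun P x (u₀ * x * v₀) = (Nat.card P : ℂ)⁻¹ := by
      simp only [dcFun]
      rw [if_pos ⟨u₀, hu₀, v₀, hv₀, rfl⟩]
    rw [h2]
    have h3 : ∀ a ∈ (Finset.univ ×ˢ Finset.univ : Finset (P × P)).filter
        (fun a : P × P => (a.1 : H) * x * (a.2 : H) = u₀ * x * v₀),
        F ((a.1 : H) * x * (a.2 : H)) = F (u₀ * x * v₀) := by
      intro a ha
      rw [(Finset.mem_filter.mp ha).2]
    rw [Finset.sum_congr rfl h3, Finset.sum_const, nsmul_eq_mul]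
    have h4 : (((Finset.univ ×ˢ Finset.univ : Finset (P × P)).filter
        (fun a : P × P => (a.1 : H) * x * (a.2 : H) = u₀ * x * v₀)).card : ℂ) =
        (Nat.card (dcInt P x) : ℂ) := by
      rw [← h1, Nat.card_eq_fintype_card, Fintype.card_subtype]
      simp only [Finset.univ_product_univ]
    rw [h4]
    field_simp
  · have h2 : dcFun P x g = 0 := by
      simp only [dcFun]
      rw [if_neg hg]
    rw [h2]
    rw [Finset.sum_eq_zero]
    · ring
    · intro a ha
      exfalso
      apply hg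
      exact ⟨a.1, a.1.2, a.2, a.2.2, (Finset.mem_filter.mp ha).2.symm⟩

/-- The key integrality: the sum of a character over a coset of `P` is divisible by `|P ∩ ^x P|`. -/
theorem exists_coset_sum_eq [Fintype P] {χ : H → ℂ} (hχ : IsClassFunction H χ) (hχc : IsCharacter H χ) (x : H) :
    ∃ t : ℂ, IsIntegral ℤ t ∧ ∑ w : P, χ (x * (w : H)) = (Nat.card (dcInt P x) : ℂ) * t := by
  classical
  obtain ⟨n, ρ, rfl⟩ := hχc
  refine ⟨∑ g, dcFun P x g * ρ.character g, isIntegral_hecke_trace ρ (dcFun_mem P x), ?_⟩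
  have hne := card_ne_zero_P P
  have h1 := sum_double P x ρ.character
  have h2 : ∑ u : P, ∑ v : P, ρ.character ((u : H) * x * (v : H)) =
      (Nat.card P : ℂ) * ∑ w : P, ρ.character (x * (w : H)) := by
    have h3 : ∀ u v : P, ρ.character ((u : H) * x * (v : H)) = ρ.character (x * ((v * u : P) : H)) := by
      intro u v
      have h4 := hχ (x * ((v * u : P) : H)) (u : H)
      rw [← h4]
      congr 1
      push_cast
      group
    simp only [h3]
    have h5 : ∀ u : P, ∑ v : P, ρ.character (x * ((v * u : P) : H)) = ∑ w : P, ρ.character (x * (w : H)) := by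
      intro u
      exact Equiv.sum_comp (Equiv.mulRight u) (fun w : P => ρ.character (x * (w : H)))
    simp only [h5, Finset.sum_const, Finset.card_univ, nsmul_eq_mul, Nat.card_eq_fintype_card]
  rw [h2] at h1
  apply mul_left_cancel₀ hne
  rw [h1]
  ring

end DoubleCoset

section Main

variable {H : Type u} [Group H] [Fintype H] {M : Ideal AlgInt} {p : ℕ} [hp : Fact p.Prime]

theorem sum_gam_sylow (S : Sylow p H) [Fintype (S : Subgroup H)] (n : IrrCharacter H → ℕ)
    (hn : indFun (S : Subgroup H) (fun _ => (1 : ℂ)) = ∑ ψ : IrrCharacter H, n ψ • (ψ : H → ℂ))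
    (χ : IrrCharacter H) :
    ∑ ψ : IrrCharacter H, (n ψ : ℂ) * gam p (ψ : H → ℂ) χ = ((S : Subgroup H).index : ℂ) := by
  classical
  rw [← gam_sum_nat, ← hn, gam, spec]
  have h0 : (χ : H → ℂ) 1 ≠ 0 := irr_apply_one_ne_zero χ
  rw [Finset.sum_eq_single 1]
  · have h1 : ¬ p ∣ orderOf (1 : H) := by
      rw [orderOf_one]
      exact hp.out.one_lt.ne' ∘ Nat.dvd_one.mp
    simp only [regInv, if_neg h1, inv_one, indFun_one, mul_one]
    field_simp
  · intro x _ hx
    simp only [regInv]
    split_ifs with hreg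
    · simp
    · have hz : indFun (S : Subgroup H) (fun _ => (1 : ℂ)) x⁻¹ = 0 := by
        rw [indFun_apply, Finset.sum_eq_zero, mul_zero]
        intro t _
        apply extendByZero_of_notMem
        intro hmem
        have hpg : IsPGroup p (S : Subgroup H) := S.isPGroup'
        obtain ⟨k, hk⟩ := hpg ⟨_, hmem⟩
        have h2 : (t⁻¹ * x⁻¹ * t) ^ p ^ k = 1 := by
          simpa using congrArg Subtype.val hk
        have h3 : x⁻¹ ^ p ^ k = 1 := by
          have h4 : t⁻¹ * x⁻¹ ^ p ^ k * t = 1 := by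
            have h5 : (t⁻¹ * x⁻¹ * t) ^ p ^ k = t⁻¹ * x⁻¹ ^ p ^ k * t := by
              have := conj_pow (a := t⁻¹) (b := x⁻¹) (i := p ^ k)
              simpa using this
            rw [← h5, h2]
          have h6 : x⁻¹ ^ p ^ k = t * 1 * t⁻¹ := by
            rw [← h4]
            group
          simpa using h6
        have h7 : orderOf x⁻¹ ∣ p ^ k := orderOf_dvd_of_pow_eq_one h3
        rw [orderOf_inv] at h7
        obtain ⟨j, -, hj⟩ := (Nat.dvd_prime_pow hp.out).mp h7
        rcases Nat.eq_zero_or_pos j with rfl | hjp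
        · rw [pow_zero, orderOf_eq_one_iff] at hj
          exact hx hj
        · apply hreg
          rw [hj]
          exact dvd_pow_self _ hjp.ne'
      rw [hz, zero_mul]
  · intro h
    exact absurd (Finset.mem_univ _) h

/-- Each block has a member whose restriction to `P` has trivial multiplicity prime to `p`. -/
theorem exists_block_char (hM : IsPModular p M) {b : Set (IrrCharacter H)} (hb : IsPBlock M b)
    (P : Sylow p H) [Fintype (P : Subgroup H)] :
    ∃ ψ ∈ b, ∃ n : ℕ, ¬ p ∣ n ∧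
      ∑ u : (P : Subgroup H), (ψ : H → ℂ) u = (Nat.card (P : Subgroup H) : ℂ) * n := by
  classical
  have := isPrime_of_modular hM
  have hπ : IsCharacter H (indFun (P : Subgroup H) (fun _ => (1 : ℂ))) :=
    isCharacter_indFun _ (IsIrrCharacter.isCharacter isIrrCharacter_one)
  obtain ⟨n, hn, hs⟩ := IsCharacter.exists_eq_sum hπ
  have hval : ∀ ψ : IrrCharacter H,
      ∑ u : (P : Subgroup H), (ψ : H → ℂ) u = (Nat.card (P : Subgroup H) : ℂ) * n ψ := by
    intro ψ
    have h1 := hn ψ
    rw [classInner_indFun_left _ _ _ (irr_isClassFunction ψ), classInner] at h1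
    have hne : (Nat.card (P : Subgroup H) : ℂ) ≠ 0 := card_ne_zero_P _
    rw [← h1, ← mul_assoc, mul_inv_cancel₀ hne, one_mul]
    rw [← Equiv.sum_comp (Equiv.inv (P : Subgroup H))]
    refine Finset.sum_congr rfl fun u _ => ?_
    simp only [Equiv.inv_apply, one_mul, InvMemClass.coe_inv, irr_apply_inv]
  obtain ⟨χ₀, hχ₀⟩ := IsPBlock.nonempty hb
  by_contra hcon
  push Not at hcon
  have hdvd : ∀ ψ ∈ b, p ∣ n ψ := by
    intro ψ hψ
    by_contra hd
    exact hcon ψ hψ (n ψ) hd (hval ψ)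
  have hsum := sum_gam_sylow P n hs χ₀
  apply natCast_not_memLocalIdeal hM (P.not_dvd_index)
  rw [← hsum]
  refine MemLocalIdeal.sum _ fun ψ _ => ?_
  by_cases hψ : ψ ∈ b
  · exact MemLocalIdeal.mul_right ((natCast_memLocalIdeal_iff hM _).mpr (hdvd ψ hψ))
      (gam_memLocalRing (irr_isClassFunction ψ) (irr_isIntegral ψ) χ₀)
  · have h1 : ¬ SameBlock M (ψ : H → ℂ) (χ₀ : H → ℂ) := by
      intro h2
      apply hψ
      obtain ⟨θ, rfl⟩ := hb
      exact SameBlock.trans' hχ₀ (SameBlock.symm' h2)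
    rw [gam_eq_zero hM h1, mul_zero]
    exact memLocalIdeal_zero

theorem sum_orbits {P Y : Type*} [Group P] [Fintype P] [Fintype Y] [MulAction P Y] (a : Y → ℂ)
    (ha : ∀ (u : P) (y : Y), a (u • y) = a y) (c : ℕ)
    (hc : ∀ y : Y, Nat.card (MulAction.stabilizer P y) = c) :
    ∃ s : Finset Y, (∑ y, a y) * (c : ℂ) = (Nat.card P : ℂ) * ∑ y ∈ s, a y := by
  classical
  letI : Fintype (MulAction.orbitRel.Quotient P Y) := Fintype.ofFinite _
  let Ω := MulAction.orbitRel.Quotient P Y
  have h1 : ∑ y, a y = ∑ ω : Ω, ∑ z : MulAction.orbit P (Quotient.out ω : Y), a z := by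
    rw [← Equiv.sum_comp (MulAction.selfEquivSigmaOrbits P Y).symm, Fintype.sum_sigma]
    rfl
  have h2 : ∀ ω : Ω, (∑ z : MulAction.orbit P (Quotient.out ω : Y), a z) * (c : ℂ) =
      (Nat.card P : ℂ) * a (Quotient.out ω : Y) := by
    intro ω
    have h3 : ∀ z : MulAction.orbit P (Quotient.out ω : Y), a z = a (Quotient.out ω : Y) := by
      rintro ⟨z, u, rfl⟩
      exact ha u _
    simp only [h3, Finset.sum_const, Finset.card_univ, nsmul_eq_mul]
    have h4 := MulAction.card_orbit_mul_card_stabilizer_eq_card_group P (Quotient.out ω : Y)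
    rw [← hc (Quotient.out ω : Y), Nat.card_eq_fintype_card (α := P), ← h4,
      Nat.card_eq_fintype_card (α := MulAction.stabilizer P (Quotient.out ω : Y))]
    push_cast
    ring
  refine ⟨(Finset.univ : Finset Ω).image (fun ω => (Quotient.out ω : Y)), ?_⟩
  rw [h1, Finset.sum_mul, Finset.sum_congr rfl (fun ω _ => h2 ω), ← Finset.mul_sum]
  congr 1
  rw [Finset.sum_image]
  intro ω₁ _ ω₂ _ h
  have h5 := congrArg (fun y : Y => (Quotient.mk'' y : Ω)) h
  simpa using h5

/-- The core: in a group with normal defect group `D`, some conjugate of a defect class element `x`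
has `P ∩ ^x P = D`. -/
theorem exists_conj_inter_eq (hM : IsPModular p M) (D : Subgroup H) [hDn : D.Normal]
    {b : Set (IrrCharacter H)} (hb : IsPBlock M b) {g : H} (hg : IsDefectClass M b g)
    (hS : IsSylowIn p (Subgroup.centralizer ({g} : Set H)) D) (P : Sylow p H) :
    ∃ x, IsConj g x ∧ dcInt (P : Subgroup H) x = D := by
  classical
  have := isPrime_of_modular hM
  letI : Fintype (P : Subgroup H) := Fintype.ofFinite _
  have hDp : IsPGroup p D := hS.isPGroup
  obtain ⟨ψ, hψ, n, hn, hsum⟩ := exists_block_char hM hb P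
  have hω := hg.2.2 ψ hψ
  have hgC : g ∈ Subgroup.centralizer (D : Set H) := by
    by_contra h
    exact hω (centralChar_memLocalIdeal_of_normal hM D hDp g
      (fun x hx hxC => h (NormalCount.isConj_mem_centralizer D hx hxC)) ψ)
  have hK : ∀ x, IsConj g x → x ∈ Subgroup.centralizer (D : Set H) :=
    fun x hx => NormalCount.isConj_mem_centralizer D hx.symm hgC
  have hDP : D ≤ (P : Subgroup H) := hDp.le_sylow_of_normal P
  have hSx : ∀ x, IsConj g x → IsSylowIn p (Subgroup.centralizer ({x} : Set H)) D :=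
    fun x hx => isSylowIn_of_conj_of_mem hS hx (hK x hx)
  have hCP : ∀ x, IsConj g x → (P : Subgroup H) ⊓ Subgroup.centralizer ({x} : Set H) = D := by
    intro x hx
    exact (hSx x hx).eq_of_le (P.isPGroup'.to_le inf_le_left) inf_le_right
      (le_inf hDP (hSx x hx).le)
  by_contra hcon
  push Not at hcon
  have hDQ : ∀ x, IsConj g x → D ≤ dcInt (P : Subgroup H) x := by
    intro x hx d hd
    rw [mem_dcInt]
    refine ⟨hDP hd, ?_⟩
    have h1 : d * x = x * d := Subgroup.mem_centralizer_iff.mp (hK x hx) d hd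
    have h2 : x⁻¹ * d * x = d := by
      rw [mul_assoc, h1]
      group
    rw [h2]
    exact hDP hd
  have hDne : (Nat.card D : ℂ) ≠ 0 := card_ne_zero_P D
  let Y := {x : H // IsConj g x}
  let a : Y → ℂ := fun y => (∑ w : (P : Subgroup H), (ψ : H → ℂ) (y.1 * (w : H))) / (Nat.card D : ℂ)
  have hJ : ∀ y : Y, MemLocalIdeal M (a y) := by
    intro y
    obtain ⟨t, ht, hs⟩ := exists_coset_sum_eq (P : Subgroup H) (irr_isClassFunction ψ) (irr_isCharacter ψ) y.1
    obtain ⟨e, he⟩ := IsPGroup.iff_card.mp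
      ((P.isPGroup'.to_le inf_le_left : IsPGroup p (dcInt (P : Subgroup H) y.1)))
    obtain ⟨f, hf⟩ := IsPGroup.iff_card.mp hDp
    have hle := hDQ y.1 y.2
    have hdvd := Subgroup.card_dvd_of_le hle
    rw [he, hf] at hdvd
    have hfe : f ≤ e := (Nat.pow_dvd_pow_iff_le_right hp.out.one_lt).mp hdvd
    have hne : f ≠ e := by
      rintro rfl
      apply hcon y.1 y.2
      exact (Subgroup.eq_of_le_of_card_ge hle (by rw [he, hf])).symm
    have hlt : 1 ≤ e - f := by omega
    have hval : a y = ((p ^ (e - f) : ℕ) : ℂ) * t := by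
      simp only [a]
      rw [hs, he, hf]
      have hpne : ((p : ℂ)) ≠ 0 := by exact_mod_cast hp.out.ne_zero
      obtain ⟨k, rfl⟩ := Nat.exists_eq_add_of_le hfe
      simp only [Nat.add_sub_cancel_left]
      push_cast
      field_simp
      ring
    rw [hval]
    refine MemLocalIdeal.mul_right ((natCast_memLocalIdeal_iff hM _).mpr (dvd_pow_self p (by omega)))
      (memLocalRing_of_isIntegral ht)
  letI act : MulAction (P : Subgroup H) Y :=
    { smul := fun u y => ⟨(u : H) * y.1 * (u : H)⁻¹, y.2.trans (isConj_iff.mpr ⟨u, rfl⟩)⟩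
      one_smul := by
        intro y
        apply Subtype.ext
        show ((1 : (P : Subgroup H)) : H) * y.1 * ((1 : (P : Subgroup H)) : H)⁻¹ = y.1
        simp
      mul_smul := by
        intro u v y
        apply Subtype.ext
        show ((u * v : (P : Subgroup H)) : H) * y.1 * ((u * v : (P : Subgroup H)) : H)⁻¹ =
          (u : H) * ((v : H) * y.1 * (v : H)⁻¹) * (u : H)⁻¹
        push_cast
        group }
  have hsmul : ∀ (u : (P : Subgroup H)) (y : Y), ((u • y : Y) : H) = (u : H) * y.1 * (u : H)⁻¹ :=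
    fun _ _ => rfl
  have hinv : ∀ (u : (P : Subgroup H)) (y : Y), a (u • y) = a y := by
    intro u y
    simp only [a]
    congr 1
    rw [← Equiv.sum_comp (MulAut.conj u).toEquiv]
    refine Finset.sum_congr rfl fun w _ => ?_
    rw [hsmul]
    have h1 := irr_isClassFunction ψ (y.1 * (w : H)) (u : H)
    rw [← h1]
    congr 1
    simp only [MulEquiv.toEquiv_eq_coe, EquivLike.coe_coe, MulAut.conj_apply]
    push_cast
    group
  have hstab : ∀ y : Y, Nat.card (MulAction.stabilizer (P : Subgroup H) y) = Nat.card D := by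
    intro y
    refine Nat.card_congr
      { toFun := fun u => ⟨(u.1 : H), ?_⟩
        invFun := fun d => ⟨⟨(d : H), hDP d.2⟩, ?_⟩
        left_inv := fun u => rfl
        right_inv := fun d => rfl }
    · rw [← hCP y.1 y.2]
      refine ⟨u.1.2, ?_⟩
      refine Subgroup.mem_centralizer_iff.mpr ?_
      intro z hz
      have hz' : z = y.1 := hz
      rw [hz']
      have h1 : (u.1 : H) * y.1 * (u.1 : H)⁻¹ = y.1 := congrArg Subtype.val u.2
      calc y.1 * (u.1 : H) = (u.1 : H) * y.1 * (u.1 : H)⁻¹ * (u.1 : H) := by rw [h1]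
        _ = (u.1 : H) * y.1 := by group
    · rw [MulAction.mem_stabilizer_iff]
      apply Subtype.ext
      rw [hsmul]
      have h1 : (d : H) ∈ (P : Subgroup H) ⊓ Subgroup.centralizer ({y.1} : Set H) := by
        rw [hCP y.1 y.2]
        exact d.2
      have h2 := Subgroup.mem_centralizer_iff.mp h1.2 y.1 rfl
      show (d : H) * y.1 * (d : H)⁻¹ = y.1
      rw [← h2]
      group
  obtain ⟨s, hs⟩ := sum_orbits a hinv (Nat.card D) hstab
  have hI : ∑ y : Y, ∑ w : (P : Subgroup H), (ψ : H → ℂ) (y.1 * (w : H)) =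
      centralChar (ψ : H → ℂ) g * ((Nat.card (P : Subgroup H) : ℂ) * n) := by
    rw [Finset.sum_comm]
    have h1 : ∀ w : (P : Subgroup H), ∑ y : Y, (ψ : H → ℂ) (y.1 * (w : H)) =
        centralChar (ψ : H → ℂ) g * (ψ : H → ℂ) w := by
      intro w
      have h2 := sum_class_mul_apply ψ (cls g) (cls_isClassFunction g) (w : H)
      have h3 : (∑ x, cls g x * (ψ : H → ℂ) x) / (ψ : H → ℂ) 1 = centralChar (ψ : H → ℂ) g := by
        rw [← spec_cls]
        rfl
      rw [h3] at h2
      rw [← h2]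
      have h4 : ∑ x, cls g x * (ψ : H → ℂ) (x * (w : H)) =
          ∑ x ∈ Finset.univ.filter (fun x : H => IsConj g x), (ψ : H → ℂ) (x * (w : H)) := by
        rw [Finset.sum_filter]
        refine Finset.sum_congr rfl fun x _ => ?_
        by_cases hx : IsConj g x
        · simp only [cls, if_pos hx, one_mul]
        · simp only [cls, if_neg hx, zero_mul]
      rw [h4, Finset.sum_subtype (p := fun x : H => IsConj g x) _ (by simp)]
    simp only [h1]
    rw [← Finset.mul_sum, hsum]
  have hPne : (Nat.card (P : Subgroup H) : ℂ) ≠ 0 := card_ne_zero_P _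
  have hfinal : centralChar (ψ : H → ℂ) g * (n : ℂ) = ∑ y ∈ s, a y := by
    apply mul_left_cancel₀ hPne
    rw [← hs]
    simp only [a]
    rw [← Finset.sum_div, hI]
    field_simp
  have hJ2 : MemLocalIdeal M (centralChar (ψ : H → ℂ) g * (n : ℂ)) := by
    rw [hfinal]
    exact MemLocalIdeal.sum _ fun y _ => hJ y
  rcases MemLocalIdeal.of_mul (centralChar_memLocalRing ψ g) (MemLocalRing.natCast n) hJ2 with h | h
  · exact hω h
  · exact natCast_not_memLocalIdeal hM hn h

/-- Conjugates of a defect class element inherit the defect group when it is normal. -/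
theorem isSylowIn_of_conj_normal (hM : IsPModular p M) (D : Subgroup H) [hDn : D.Normal]
    {b : Set (IrrCharacter H)} (hb : IsPBlock M b) {g x : H} (hg : IsDefectClass M b g)
    (hS : IsSylowIn p (Subgroup.centralizer ({g} : Set H)) D) (hx : IsConj g x) :
    IsSylowIn p (Subgroup.centralizer ({x} : Set H)) D := by
  have := isPrime_of_modular hM
  obtain ⟨ψ, hψ⟩ := IsPBlock.nonempty hb
  have hDp : IsPGroup p D := hS.isPGroup
  have hω := hg.2.2 ψ hψ
  have hgC : g ∈ Subgroup.centralizer (D : Set H) := by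
    by_contra h
    exact hω (centralChar_memLocalIdeal_of_normal hM D hDp g
      (fun x hx hxC => h (NormalCount.isConj_mem_centralizer D hx hxC)) ψ)
  exact isSylowIn_of_conj_of_mem hS hx (NormalCount.isConj_mem_centralizer D hx.symm hgC)

end Main

section Green

variable {G : Type u} [Group G] [Fintype G] {M : Ideal AlgInt} {p : ℕ} [hp : Fact p.Prime]

/-- **Green's theorem** on defect groups. -/
theorem green_defect (hM : IsPModular p M) {B : Set (IrrCharacter G)} (hB : IsPBlock M B)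
    {D : Subgroup G} (hD : IsDefectGroup p M B D) (P : Sylow p G) (hDP : D ≤ (P : Subgroup G)) :
    ∃ x : G, ¬ p ∣ orderOf x ∧
      (∃ S : Sylow p (Subgroup.centralizer ({x} : Set G)),
        (S : Subgroup (Subgroup.centralizer ({x} : Set G))).map (Subgroup.centralizer ({x} : Set G)).subtype = D) ∧
      (P : Subgroup G) ⊓ (P : Subgroup G).map (MulAut.conj x).toMonoidHom = D := by
  classical
  have := isPrime_of_modular hM
  have hDp : IsPGroup p D := IsDefectGroup.isPGroup hD
  letI : Fintype (Subgroup.normalizer (D : Set G)) := Fintype.ofFinite _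
  obtain ⟨b, ⟨hb, hbD, -⟩, -⟩ := first_main_ii hM hDp hB hD
  have hle : D ≤ Subgroup.normalizer (D : Set G) := Subgroup.le_normalizer
  haveI hnorm : (D.subgroupOf (Subgroup.normalizer (D : Set G))).Normal := Subgroup.normal_in_normalizer
  obtain ⟨g, hg, hS⟩ := isDefectGroup_iff.mp hbD
  have hP₁ : IsPGroup p ((P : Subgroup G).subgroupOf (Subgroup.normalizer (D : Set G))) :=
    isPGroup_subgroupOf P.isPGroup' _
  obtain ⟨P₂, hP₂⟩ := IsPGroup.exists_le_sylow hP₁
  obtain ⟨x, hx, hQ⟩ := exists_conj_inter_eq hM (D.subgroupOf (Subgroup.normalizer (D : Set G))) hb hg hS P₂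
  have hSx := isSylowIn_of_conj_normal hM (D.subgroupOf (Subgroup.normalizer (D : Set G))) hb hg hS hx
  have hreg : ¬ p ∣ orderOf x := by
    obtain ⟨c, rfl⟩ := isConj_iff.mp hx
    rw [NormalCount.orderOf_conj_eq']
    exact IsDefectClass.regular hM hb hg
  have hSG : IsSylowIn p (Subgroup.centralizer ({(x : G)} : Set G)) D := by
    have h1 := (isSylowIn_map_iff _).mp hSx
    rw [centralizer_map_subtype, Subgroup.map_subgroupOf_eq_of_le hle] at h1
    exact isSylowIn_centralizer_of_inf h1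
  have hxC : ∀ d ∈ D, d * (x : G) = (x : G) * d := by
    intro d hd
    have h1 := hSG.le hd
    exact (Subgroup.mem_centralizer_singleton_iff.mp h1)
  refine ⟨(x : G), ?_, hSG, ?_⟩
  · rwa [Subgroup.orderOf_coe]
  · have hDQ : D ≤ (P : Subgroup G) ⊓ (P : Subgroup G).map (MulAut.conj (x : G)).toMonoidHom := by
      intro d hd
      refine ⟨hDP hd, d, hDP hd, ?_⟩
      simp only [MulEquiv.coe_toMonoidHom, MulAut.conj_apply]
      rw [← hxC d hd]
      group
    by_contra hne
    have hlt : D < (P : Subgroup G) ⊓ (P : Subgroup G).map (MulAut.conj (x : G)).toMonoidHom :=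
      lt_of_le_of_ne hDQ (Ne.symm hne)
    have hQp : IsPGroup p ((P : Subgroup G) ⊓ (P : Subgroup G).map (MulAut.conj (x : G)).toMonoidHom : Subgroup G) :=
      P.isPGroup'.to_le inf_le_left
    obtain ⟨z, hzQ, hzD, hzN⟩ := exists_mem_normalizer_of_lt hQp hlt
    obtain ⟨hzP, w, hw, hwz⟩ := hzQ
    have hmem : (⟨z, hzN⟩ : Subgroup.normalizer (D : Set G)) ∈
        dcInt (P₂ : Subgroup (Subgroup.normalizer (D : Set G))) x := by
      rw [mem_dcInt]
      refine ⟨hP₂ hzP, ?_⟩
      apply hP₂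
      rw [Subgroup.mem_subgroupOf]
      have h2 : (((x⁻¹ * ⟨z, hzN⟩ * x : Subgroup.normalizer (D : Set G))) : G) = w := by
        push_cast
        rw [← hwz]
        simp only [MulEquiv.coe_toMonoidHom, MulAut.conj_apply]
        group
      rw [h2]
      exact hw
    rw [hQ] at hmem
    exact hzD hmem

end Green

end Cfsg.Agent.Lib.Blocks.GreenDefect
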