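import Cfsg.Agent.Lib.Transfer.Frobenius

/-! # Sylow 2-subgroups of homocyclic type `(2^m, 2^m)`: fusion -/

set_option autoImplicit false

namespace Cfsg.Agent.Lib.Blocks.Homocyclic

open Subgroup

section Fin3

theorem perm3_aux : ∀ τ : Equiv.Perm (Fin 3), τ ^ 3 = 1 → τ ≠ 1 → ∀ a b : Fin 3, ∃ k : Fin 3, (τ ^ (k : ℕ)) a = b := by
  decide

theorem perm3 {T : Type*} (hT : Nat.card T = 3) (σ : Equiv.Perm T) (h3 : σ ^ 3 = 1) (h1 : σ ≠ 1) (a b : T) :
    ∃ k : ℕ, (σ ^ k) a = b := by
  classical
  haveI : Finite T := Nat.finite_of_card_ne_zero (by omega)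
  let e : T ≃ Fin 3 := Finite.equivFinOfCardEq hT
  let τ : Equiv.Perm (Fin 3) := e.permCongrHom σ
  have hτ3 : τ ^ 3 = 1 := by
    rw [← map_pow, h3, map_one]
  have hτ1 : τ ≠ 1 := by
    intro h
    apply h1
    apply e.permCongrHom.injective
    rw [map_one]
    exact h
  obtain ⟨k, hk⟩ := perm3_aux τ hτ3 hτ1 (e a) (e b)
  refine ⟨k, ?_⟩
  have h2 : (τ ^ (k : ℕ)) = e.permCongrHom (σ ^ (k : ℕ)) := by rw [map_pow]
  rw [h2] at hk
  simpa [Equiv.permCongrHom, Equiv.permCongr_apply] using hk

theorem perm3_no_fixed {T : Type*} (hT : Nat.card T = 3) (σ : Equiv.Perm T) (h3 : σ ^ 3 = 1) (h1 : σ ≠ 1) (a : T) :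
    σ a ≠ a := by
  intro h
  haveI : Finite T := Nat.finite_of_card_ne_zero (by omega)
  apply h1
  ext b
  obtain ⟨k, hk⟩ := perm3 hT σ h3 h1 a b
  have h2 : ∀ j : ℕ, (σ ^ j) a = a := by
    intro j
    induction j with
    | zero => simp
    | succ j ih => rw [pow_succ, Equiv.Perm.mul_apply, h, ih]
  rw [← hk, h2 k]
  simpa using h

end Fin3

section Zmod

theorem zmod_two_mul (k : ℕ) (b : ZMod (2 ^ (k + 1))) : b + b = 0 ↔ b = 0 ∨ b = ((2 ^ k : ℕ) : ZMod (2 ^ (k + 1))) := by
  haveI : NeZero (2 ^ (k + 1)) := ⟨by positivity⟩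
  constructor
  · intro h
    have h1 : ((2 * b.val : ℕ) : ZMod (2 ^ (k + 1))) = 0 := by
      push_cast
      rw [ZMod.natCast_zmod_val, two_mul, h]
    rw [ZMod.natCast_eq_zero_iff] at h1
    have h2 : 2 ^ k ∣ b.val := by
      have h1' : 2 * 2 ^ k ∣ 2 * b.val := Dvd.dvd.trans (dvd_of_eq (by ring)) h1
      exact Nat.dvd_of_mul_dvd_mul_left (by norm_num) h1'
    obtain ⟨q, hq⟩ := h2
    have h3 : b.val < 2 ^ (k + 1) := ZMod.val_lt b
    have h4 : q < 2 := by
      rw [hq, pow_succ] at h3
      exact Nat.lt_of_mul_lt_mul_left h3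
    have h5 : q = 0 ∨ q = 1 := by omega
    rcases h5 with h5 | h5
    · left
      rw [← ZMod.natCast_zmod_val b, hq, h5]
      simp
    · right
      rw [← ZMod.natCast_zmod_val b, hq, h5, mul_one]
  · rintro (h | h)
    · rw [h, add_zero]
    · rw [h, ← Nat.cast_add]
      rw [ZMod.natCast_eq_zero_iff, ← two_mul, pow_succ, mul_comm]

theorem zmod_c_ne (k : ℕ) : ((2 ^ k : ℕ) : ZMod (2 ^ (k + 1))) ≠ 0 := by
  rw [Ne, ZMod.natCast_eq_zero_iff]
  intro h
  have h1 := Nat.le_of_dvd (by positivity) h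
  rw [pow_succ] at h1
  have h2 : 0 < 2 ^ k := by positivity
  omega

theorem card_two_torsion (m : ℕ) (hm : 1 ≤ m) :
    Nat.card {a : ZMod (2 ^ m) × ZMod (2 ^ m) // a ≠ 0 ∧ a + a = 0} = 3 := by
  classical
  obtain ⟨k, rfl⟩ : ∃ k, m = k + 1 := ⟨m - 1, by omega⟩
  set c : ZMod (2 ^ (k + 1)) := ((2 ^ k : ℕ) : ZMod (2 ^ (k + 1))) with hc
  have hc0 : c ≠ 0 := zmod_c_ne k
  let S : Finset (ZMod (2 ^ (k + 1)) × ZMod (2 ^ (k + 1))) := {(0, c), (c, 0), (c, c)}
  have hS : ∀ a, a ∈ S ↔ a ≠ 0 ∧ a + a = 0 := by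
    rintro ⟨x, y⟩
    simp only [S, Finset.mem_insert, Finset.mem_singleton, Prod.mk.injEq, ne_eq, Prod.mk_eq_zero,
      Prod.mk_add_mk, zmod_two_mul]
    constructor
    · rintro (⟨rfl, rfl⟩ | ⟨rfl, rfl⟩ | ⟨rfl, rfl⟩)
      · exact ⟨fun h => hc0 h.2, Or.inl rfl, Or.inr rfl⟩
      · exact ⟨fun h => hc0 h.1, Or.inr rfl, Or.inl rfl⟩
      · exact ⟨fun h => hc0 h.1, Or.inr rfl, Or.inr rfl⟩
    · rintro ⟨h0, hx | hx, hy | hy⟩
      · exact absurd ⟨hx, hy⟩ h0
      · exact Or.inl ⟨hx, hy⟩
      · exact Or.inr (Or.inl ⟨hx, hy⟩)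
      · exact Or.inr (Or.inr ⟨hx, hy⟩)
  have h1 : Nat.card {a // a ≠ (0 : ZMod (2 ^ (k + 1)) × ZMod (2 ^ (k + 1))) ∧ a + a = 0} = Nat.card S := by
    refine Nat.card_congr ?_
    exact Equiv.subtypeEquivRight (fun a => (hS a).symm)
  rw [h1, Nat.card_eq_fintype_card, Fintype.card_coe]
  have h2 : ((0, c) : ZMod (2 ^ (k + 1)) × ZMod (2 ^ (k + 1))) ∉ ({(c, 0), (c, c)} : Finset _) := by
    simp only [Finset.mem_insert, Finset.mem_singleton, Prod.mk.injEq, not_or, not_and]
    exact ⟨fun h => absurd h.symm hc0, fun h => absurd h.symm hc0⟩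
  have h3 : ((c, 0) : ZMod (2 ^ (k + 1)) × ZMod (2 ^ (k + 1))) ∉ ({(c, c)} : Finset _) := by
    simp only [Finset.mem_singleton, Prod.mk.injEq, not_and]
    exact fun _ h => hc0 h.symm
  simp only [S]
  rw [Finset.card_insert_of_notMem h2, Finset.card_insert_of_notMem h3, Finset.card_singleton]

end Zmod

variable {G : Type*} [Group G]

/-- The involutions of a subgroup. -/
abbrev InvP (P : Subgroup G) : Type _ := {x : G // x ∈ P ∧ x ≠ 1 ∧ x * x = 1}

section Card

variable {P : Subgroup G} {m : ℕ} (e : P ≃* Multiplicative (ZMod (2 ^ m) × ZMod (2 ^ m)))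

include e in
theorem card_invP (hm : 1 ≤ m) : Nat.card (InvP P) = 3 := by
  rw [← card_two_torsion m hm]
  refine Nat.card_congr
    { toFun := fun t => ⟨Multiplicative.toAdd (e ⟨t.1, t.2.1⟩), ?_, ?_⟩
      invFun := fun a => ⟨(e.symm (Multiplicative.ofAdd a.1) : P), (e.symm (Multiplicative.ofAdd a.1) : P).2, ?_, ?_⟩
      left_inv := fun t => ?_
      right_inv := fun a => ?_ }
  · intro h
    have h1 : e ⟨t.1, t.2.1⟩ = 1 := h
    have h2 := (map_eq_one_iff e e.injective).mp h1
    exact t.2.2.1 (congrArg Subtype.val h2)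
  · have h1 : (⟨t.1, t.2.1⟩ : P) * ⟨t.1, t.2.1⟩ = 1 := Subtype.ext t.2.2.2
    have h2 := congrArg e h1
    rw [map_mul, map_one] at h2
    exact h2
  · intro h
    have h1 : e.symm (Multiplicative.ofAdd a.1) = 1 := Subtype.ext h
    have h2 := (map_eq_one_iff e.symm e.symm.injective).mp h1
    exact a.2.1 h2
  · have h1 : Multiplicative.ofAdd a.1 * Multiplicative.ofAdd a.1 = 1 := a.2.2
    have h2 := congrArg e.symm h1
    rw [map_mul, map_one] at h2
    exact congrArg Subtype.val h2
  · apply Subtype.ext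
    simp
  · apply Subtype.ext
    simp

include e in
theorem comm_of_e {x y : G} (hx : x ∈ P) (hy : y ∈ P) : x * y = y * x := by
  have h1 : (⟨x, hx⟩ : P) * ⟨y, hy⟩ = ⟨y, hy⟩ * ⟨x, hx⟩ := by
    apply e.injective
    rw [map_mul, map_mul, mul_comm]
  exact congrArg Subtype.val h1

end Card

section Action

variable (P : Subgroup G)

/-- The action of the normalizer on the involutions. -/
def actHom : normalizer (P : Set G) →* Equiv.Perm (InvP P) where
  toFun g :=
    { toFun := fun t => ⟨g * t.1 * (g : G)⁻¹, (Subgroup.mem_normalizer_iff.mp g.2 t.1).mp t.2.1, by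
        intro h
        apply t.2.2.1
        have h1 : t.1 = (g : G)⁻¹ * ((g : G) * t.1 * (g : G)⁻¹) * g := by group
        rw [h1, h]
        group, by
        have h1 : (g : G) * t.1 * (g : G)⁻¹ * ((g : G) * t.1 * (g : G)⁻¹) = g * (t.1 * t.1) * (g : G)⁻¹ := by group
        rw [h1, t.2.2.2]
        group⟩
      invFun := fun t => ⟨(g : G)⁻¹ * t.1 * g, by
        have h1 := (Subgroup.mem_normalizer_iff.mp g.2 ((g : G)⁻¹ * t.1 * g)).mpr
        apply h1
        have h2 : (g : G) * ((g : G)⁻¹ * t.1 * g) * (g : G)⁻¹ = t.1 := by group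
        rw [h2]
        exact t.2.1, by
        intro h
        apply t.2.2.1
        have h1 : t.1 = (g : G) * ((g : G)⁻¹ * t.1 * g) * (g : G)⁻¹ := by group
        rw [h1, h]
        group, by
        have h1 : (g : G)⁻¹ * t.1 * g * ((g : G)⁻¹ * t.1 * g) = (g : G)⁻¹ * (t.1 * t.1) * g := by group
        rw [h1, t.2.2.2]
        group⟩
      left_inv := fun t => by
        apply Subtype.ext
        simp only
        group
      right_inv := fun t => by
        apply Subtype.ext
        simp only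
        group }
  map_one' := by
    ext t
    simp
  map_mul' a b := by
    ext t
    simp only [Equiv.coe_fn_mk, Equiv.Perm.coe_mul, Function.comp_apply, Subgroup.coe_mul]
    group

theorem actHom_apply (g : normalizer (P : Set G)) (t : InvP P) :
    ((actHom P g t : InvP P) : G) = g * t.1 * (g : G)⁻¹ := rfl

theorem actHom_pow_apply (g : normalizer (P : Set G)) (k : ℕ) (t : InvP P) :
    ((actHom P g ^ k) t : G) = (g : G) ^ k * t.1 * ((g : G) ^ k)⁻¹ := by
  rw [← map_pow, actHom_apply]
  simp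

end Action

section Main

variable {P : Subgroup G}

theorem centralizes_of_trivial (habel : ∀ x ∈ P, ∀ y ∈ P, x * y = y * x) (h2 : ∀ x : P, ∃ k : ℕ, x ^ 2 ^ k = 1)
    {g : G} (hgN : g ∈ normalizer (P : Set G)) (htriv : ∀ t : InvP P, g * t.1 * g⁻¹ = t.1) {n : ℕ} (hn : Odd n)
    (hgn : g ^ n ∈ centralizer (P : Set G)) : g ∈ centralizer (P : Set G) := by
  have hnorm : ∀ x ∈ P, g * x * g⁻¹ ∈ P := fun x hx => (Subgroup.mem_normalizer_iff.mp hgN x).mp hx
  have key : ∀ k : ℕ, ∀ x ∈ P, x ^ 2 ^ k = 1 → g * x * g⁻¹ = x := by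
    intro k
    induction k with
    | zero =>
      intro x _ hx
      have : x = 1 := by simpa using hx
      rw [this]
      group
    | succ k ih =>
      intro x hx hk
      have h3 : (x * x) ^ 2 ^ k = 1 := by
        rw [← pow_two, ← pow_mul, ← pow_succ']
        exact hk
      have h4 := ih (x * x) (P.mul_mem hx hx) h3
      set y := g * x * g⁻¹ with hy
      have hyP : y ∈ P := hnorm x hx
      set t := y * x⁻¹ with ht
      have htP : t ∈ P := P.mul_mem hyP (P.inv_mem hx)
      have hyt : y = t * x := by rw [ht]; group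
      have h5 : y * y = x * x := by
        have h6 : y * y = g * (x * x) * g⁻¹ := by rw [hy]; group
        rw [h6, h4]
      have h6 : t * t = 1 := by
        have h7 : t * t = y * y * (x * x)⁻¹ := by
          rw [ht]
          have := habel y hyP x⁻¹ (P.inv_mem hx)
          calc y * x⁻¹ * (y * x⁻¹) = y * (x⁻¹ * y) * x⁻¹ := by group
            _ = y * (y * x⁻¹) * x⁻¹ := by rw [← this]
            _ = y * y * (x * x)⁻¹ := by group
        rw [h7, h5]
        group
      have h7 : g * t * g⁻¹ = t := by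
        by_cases ht1 : t = 1
        · rw [ht1]
          group
        · exact htriv ⟨t, htP, ht1, h6⟩
      have h8 : ∀ j : ℕ, g ^ j * x * (g ^ j)⁻¹ = t ^ j * x := by
        intro j
        induction j with
        | zero => simp
        | succ j ihj =>
          have h9 : g ^ j * t * (g ^ j)⁻¹ = t := by
            clear ihj
            induction j with
            | zero => simp
            | succ j ih' =>
              calc g ^ (j + 1) * t * (g ^ (j + 1))⁻¹ = g ^ j * (g * t * g⁻¹) * (g ^ j)⁻¹ := by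
                    rw [pow_succ]; group
                _ = t := by rw [h7, ih']
          calc g ^ (j + 1) * x * (g ^ (j + 1))⁻¹ = g ^ j * (g * x * g⁻¹) * (g ^ j)⁻¹ := by
                rw [pow_succ]; group
            _ = g ^ j * (t * x) * (g ^ j)⁻¹ := by rw [← hyt]
            _ = (g ^ j * t * (g ^ j)⁻¹) * (g ^ j * x * (g ^ j)⁻¹) := by group
            _ = t * (t ^ j * x) := by rw [h9, ihj]
            _ = t ^ (j + 1) * x := by rw [pow_succ']; group
      have h9 := h8 n
      have h10 : g ^ n * x * (g ^ n)⁻¹ = x := by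
        have := (Subgroup.mem_centralizer_iff.mp hgn) x hx
        rw [← this]
        group
      rw [h10] at h9
      have h11 : t ^ n = 1 := by
        have := mul_right_cancel (a := t ^ n) (b := x) (c := 1) (by rw [one_mul]; exact h9.symm)
        exact this
      have h12 : t = 1 := by
        obtain ⟨q, rfl⟩ := hn
        rw [pow_succ, pow_mul, pow_two, h6, one_pow, one_mul] at h11
        exact h11
      have h13 : y = x := by rw [hyt, h12, one_mul]
      exact h13
  rw [Subgroup.mem_centralizer_iff]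
  intro x hx
  obtain ⟨k, hk⟩ := h2 ⟨x, hx⟩
  have h3 := key k x hx (congrArg Subtype.val hk)
  have h4 : x * g = (g * x * g⁻¹) * g := by rw [h3]
  rw [h4]
  group

end Main

section Sylow

variable [Finite G] (P : Sylow 2 G) {m : ℕ} (e : (P : Subgroup G) ≃* Multiplicative (ZMod (2 ^ m) × ZMod (2 ^ m)))

include e in
theorem C_le_N : centralizer ((P : Subgroup G) : Set G) ≤ normalizer ((P : Subgroup G) : Set G) := by
  intro c hc
  rw [Subgroup.mem_normalizer_iff]
  intro h
  constructor
  · intro hh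
    have h1 := (Subgroup.mem_centralizer_iff.mp hc) h hh
    have h2 : c * h * c⁻¹ = h := by rw [← h1]; group
    rw [h2]
    exact hh
  · intro hh
    have hc' : c⁻¹ ∈ centralizer ((P : Subgroup G) : Set G) := inv_mem hc
    have h1 := (Subgroup.mem_centralizer_iff.mp hc') _ hh
    have h2 : h = c⁻¹ * (c * h * c⁻¹) * c := by group
    have h3 : h = c * h * c⁻¹ := by
      calc h = c⁻¹ * (c * h * c⁻¹) * c := h2
        _ = (c * h * c⁻¹) * c⁻¹ * c := by rw [h1]
        _ = c * h * c⁻¹ := by group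
    rw [h3]
    exact hh

include e in
theorem P_le_C : (P : Subgroup G) ≤ centralizer ((P : Subgroup G) : Set G) := by
  intro x hx
  rw [Subgroup.mem_centralizer_iff]
  intro y hy
  exact comm_of_e e hy hx

include e in
theorem not_two_dvd_relIndex :
    ¬ 2 ∣ (centralizer ((P : Subgroup G) : Set G)).relIndex (normalizer ((P : Subgroup G) : Set G)) := by
  intro h
  apply P.not_dvd_index
  have h1 := Subgroup.relIndex_mul_index (H := (P : Subgroup G)) (K := normalizer ((P : Subgroup G) : Set G)) Subgroup.le_normalizer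
  have h2 := Subgroup.relIndex_mul_relIndex (P : Subgroup G) (centralizer ((P : Subgroup G) : Set G))
    (normalizer ((P : Subgroup G) : Set G)) (P_le_C P e) (C_le_N P e)
  rw [← h1, ← h2]
  exact Dvd.dvd.mul_right (Dvd.dvd.mul_left h _) _

include e in
theorem ker_actHom : (actHom (P : Subgroup G)).ker =
    (centralizer ((P : Subgroup G) : Set G)).subgroupOf (normalizer ((P : Subgroup G) : Set G)) := by
  classical
  haveI hnormal := Cfsg.Agent.Lib.Transfer.centralizer_subgroupOf_normal (P : Subgroup G)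
  ext g
  rw [MonoidHom.mem_ker, Subgroup.mem_subgroupOf]
  constructor
  · intro hg
    have htriv : ∀ t : InvP (P : Subgroup G), (g : G) * t.1 * (g : G)⁻¹ = t.1 := by
      intro t
      have h1 : actHom (P : Subgroup G) g t = t := by rw [hg]; rfl
      have h2 := congrArg Subtype.val h1
      rwa [actHom_apply] at h2
    have h2 : ∀ x : (P : Subgroup G), ∃ k : ℕ, x ^ 2 ^ k = 1 := fun x => P.2 x
    have hodd : Odd ((centralizer ((P : Subgroup G) : Set G)).subgroupOf (normalizer ((P : Subgroup G) : Set G))).index := by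
      rw [← Nat.not_even_iff_odd, even_iff_two_dvd]
      exact not_two_dvd_relIndex P e
    have hpow := Subgroup.pow_index_mem ((centralizer ((P : Subgroup G) : Set G)).subgroupOf (normalizer ((P : Subgroup G) : Set G))) g
    rw [Subgroup.mem_subgroupOf] at hpow
    exact centralizes_of_trivial (fun x hx y hy => comm_of_e e hx hy) h2 g.2 htriv hodd (by simpa using hpow)
  · intro hg
    ext t
    rw [actHom_apply]
    have h1 := (Subgroup.mem_centralizer_iff.mp hg) t.1 t.2.1
    simp only [Equiv.Perm.coe_one, id_eq]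
    rw [← h1]
    group

include e in
theorem relIndex_eq_card_range :
    (centralizer ((P : Subgroup G) : Set G)).relIndex (normalizer ((P : Subgroup G) : Set G)) =
      Nat.card (actHom (P : Subgroup G)).range := by
  rw [Subgroup.relIndex, ← ker_actHom P e, Subgroup.index_ker]

include e in
theorem relIndex_one_or_three (hm : 1 ≤ m) :
    (centralizer ((P : Subgroup G) : Set G)).relIndex (normalizer ((P : Subgroup G) : Set G)) = 1 ∨
    (centralizer ((P : Subgroup G) : Set G)).relIndex (normalizer ((P : Subgroup G) : Set G)) = 3 := by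
  have h1 := not_two_dvd_relIndex P e
  have h2 := relIndex_eq_card_range P e
  have h3 : Nat.card (actHom (P : Subgroup G)).range ∣ Nat.card (Equiv.Perm (InvP (P : Subgroup G))) :=
    Subgroup.card_subgroup_dvd_card _
  have h4 : Nat.card (Equiv.Perm (InvP (P : Subgroup G))) = 6 := by
    rw [Nat.card_perm, card_invP e hm]
    rfl
  rw [h4, ← h2] at h3
  generalize (centralizer ((P : Subgroup G) : Set G)).relIndex (normalizer ((P : Subgroup G) : Set G)) = r at h1 h3 ⊢
  have h5 := Nat.le_of_dvd (by norm_num) h3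
  interval_cases r <;> omega

include e in
theorem cube_of_three (h3 : (centralizer ((P : Subgroup G) : Set G)).relIndex (normalizer ((P : Subgroup G) : Set G)) = 3)
    (g : normalizer ((P : Subgroup G) : Set G)) : (actHom (P : Subgroup G) g) ^ 3 = 1 := by
  have h1 := relIndex_eq_card_range P e
  rw [h3] at h1
  have h2 := pow_card_eq_one' (x := (⟨actHom (P : Subgroup G) g, ⟨g, rfl⟩⟩ : (actHom (P : Subgroup G)).range))
  rw [← h1] at h2
  exact congrArg Subtype.val h2

theorem exists_inv_power {z : G} (hz : z ∈ (P : Subgroup G)) (hz1 : z ≠ 1) :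
    ∃ k : ℕ, z ^ k ≠ 1 ∧ z ^ k * z ^ k = 1 := by
  classical
  have hex : ∃ k : ℕ, z ^ 2 ^ k = 1 := by
    obtain ⟨k, hk⟩ := P.2 ⟨z, hz⟩
    exact ⟨k, congrArg Subtype.val hk⟩
  have hk0 : Nat.find hex ≠ 0 := by
    intro h
    have := Nat.find_spec hex
    rw [h] at this
    exact hz1 (by simpa using this)
  obtain ⟨j, hj⟩ := Nat.exists_eq_succ_of_ne_zero hk0
  refine ⟨2 ^ j, ?_, ?_⟩
  · have := Nat.find_min hex (m := j) (by omega)
    exact this
  · have := Nat.find_spec hex
    rw [hj] at this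
    rw [← pow_add, ← two_mul, ← pow_succ']
    exact this

include e in
/-- The statement S0945. -/
theorem homocyclic_index (hm : 1 ≤ m) :
    ((centralizer ((P : Subgroup G) : Set G)).relIndex (normalizer ((P : Subgroup G) : Set G)) = 1 ∨
      (centralizer ((P : Subgroup G) : Set G)).relIndex (normalizer ((P : Subgroup G) : Set G)) = 3) ∧
    ((centralizer ((P : Subgroup G) : Set G)).relIndex (normalizer ((P : Subgroup G) : Set G)) ≠ 1 →
      ∀ z ∈ (P : Subgroup G), z ≠ 1 →
        centralizer ({z} : Set G) ⊓ normalizer ((P : Subgroup G) : Set G) = centralizer ((P : Subgroup G) : Set G)) := by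
  classical
  refine ⟨relIndex_one_or_three P e hm, fun hne z hz hz1 => ?_⟩
  have h3 := (relIndex_one_or_three P e hm).resolve_left hne
  apply le_antisymm
  · rintro g ⟨hg1, hg2⟩
    have hcomm : g * z = z * g := by
      have := (Subgroup.mem_centralizer_iff.mp hg1) z rfl
      exact this.symm
    obtain ⟨k, hk1, hk2⟩ := exists_inv_power P hz hz1
    have hkP : z ^ k ∈ (P : Subgroup G) := pow_mem hz k
    let t : InvP (P : Subgroup G) := ⟨z ^ k, hkP, hk1, hk2⟩
    let g' : normalizer ((P : Subgroup G) : Set G) := ⟨g, hg2⟩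
    have hfix : actHom (P : Subgroup G) g' t = t := by
      apply Subtype.ext
      rw [actHom_apply]
      show g * z ^ k * g⁻¹ = z ^ k
      have : Commute g (z ^ k) := Commute.pow_right hcomm k
      rw [this.eq]
      group
    have h1 : actHom (P : Subgroup G) g' = 1 := by
      by_contra hσ
      exact perm3_no_fixed (card_invP e hm) _ (cube_of_three P e h3 g') hσ t hfix
    have h2 : g' ∈ (actHom (P : Subgroup G)).ker := h1
    rw [ker_actHom P e, Subgroup.mem_subgroupOf] at h2
    exact h2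
  · intro c hc
    refine ⟨?_, C_le_N P e hc⟩
    show c ∈ centralizer ({z} : Set G)
    rw [Subgroup.mem_centralizer_iff]
    intro y hy
    have hy' : y = z := hy
    rw [hy']
    exact (Subgroup.mem_centralizer_iff.mp hc z hz)

theorem exists_conj_mem {s : G} (hs : orderOf s = 2) : ∃ a : G, a * s * a⁻¹ ∈ (P : Subgroup G) := by
  have h1 : IsPGroup 2 (Subgroup.zpowers s) :=
    (IsPGroup.iff_card).mpr ⟨1, by rw [Nat.card_zpowers, hs, pow_one]⟩
  obtain ⟨Q, hQ⟩ := h1.exists_le_sylow
  obtain ⟨a, ha⟩ := MulAction.exists_smul_eq G Q P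
  refine ⟨a, ?_⟩
  have h2 : s ∈ Q := hQ (Subgroup.mem_zpowers s)
  have h3 := Cfsg.Agent.Lib.Transfer.conj_mem_smul_sylow (g := a) h2
  rw [ha] at h3
  exact h3

include e in
/-- The statement S0946. -/
theorem homocyclic_fusion (hm : 1 ≤ m) :
    (∃ N : Subgroup G, N.Normal ∧ Subgroup.IsComplement' N (P : Subgroup G)) ∨
      ∀ s t : G, orderOf s = 2 → orderOf t = 2 → IsConj s t := by
  classical
  rcases relIndex_one_or_three P e hm with h1 | h3
  · left
    have hle : normalizer ((P : Subgroup G) : Set G) ≤ centralizer ((P : Subgroup G) : Set G) :=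
      Subgroup.relIndex_eq_one.mp h1
    haveI : Fact (Nat.Prime 2) := ⟨Nat.prime_two⟩
    exact ⟨_, inferInstance, MonoidHom.ker_transferSylow_isComplement' P hle⟩
  · right
    intro s t hs ht
    obtain ⟨a, ha⟩ := exists_conj_mem P hs
    obtain ⟨b, hb⟩ := exists_conj_mem P ht
    have hs1 : a * s * a⁻¹ ≠ 1 := by
      intro h
      have : s = 1 := by
        have h2 : s = a⁻¹ * (a * s * a⁻¹) * a := by group
        rw [h2, h]
        group
      rw [this, orderOf_one] at hs
      omega
    have ht1 : b * t * b⁻¹ ≠ 1 := by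
      intro h
      have : t = 1 := by
        have h2 : t = b⁻¹ * (b * t * b⁻¹) * b := by group
        rw [h2, h]
        group
      rw [this, orderOf_one] at ht
      omega
    have hs2 : a * s * a⁻¹ * (a * s * a⁻¹) = 1 := by
      have h2 : a * s * a⁻¹ * (a * s * a⁻¹) = a * s ^ 2 * a⁻¹ := by rw [pow_two]; group
      rw [h2, ← hs, pow_orderOf_eq_one]
      group
    have ht2 : b * t * b⁻¹ * (b * t * b⁻¹) = 1 := by
      have h2 : b * t * b⁻¹ * (b * t * b⁻¹) = b * t ^ 2 * b⁻¹ := by rw [pow_two]; group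
      rw [h2, ← ht, pow_orderOf_eq_one]
      group
    let s' : InvP (P : Subgroup G) := ⟨a * s * a⁻¹, ha, hs1, hs2⟩
    let t' : InvP (P : Subgroup G) := ⟨b * t * b⁻¹, hb, ht1, ht2⟩
    -- an element of the normalizer acting nontrivially
    have hex : ∃ g : normalizer ((P : Subgroup G) : Set G), actHom (P : Subgroup G) g ≠ 1 := by
      by_contra hcon
      push Not at hcon
      have h2 := relIndex_eq_card_range P e
      rw [h3] at h2
      have h4 : (actHom (P : Subgroup G)).range = ⊥ := by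
        rw [eq_bot_iff]
        rintro _ ⟨g, rfl⟩
        exact hcon g
      rw [h4] at h2
      simp at h2
    obtain ⟨g, hg⟩ := hex
    obtain ⟨k, hk⟩ := perm3 (card_invP e hm) _ (cube_of_three P e h3 g) hg s' t'
    have h5 := actHom_pow_apply (P : Subgroup G) g k s'
    rw [hk] at h5
    have h6 : b * t * b⁻¹ = (g : G) ^ k * (a * s * a⁻¹) * ((g : G) ^ k)⁻¹ := h5
    rw [isConj_iff]
    refine ⟨b⁻¹ * (g : G) ^ k * a, ?_⟩
    have h7 : t = b⁻¹ * (b * t * b⁻¹) * b := by group
    rw [h7, h6]
    group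

end Sylow

end Cfsg.Agent.Lib.Blocks.Homocyclic
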