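import Cfsg.Agent.Lib.Blocks.Homocyclic
import Cfsg.Agent.Lib.Blocks.AbelianSylow
import Cfsg.Agent.Lib.Char.ClassPair

/-! # Brauer's theorem on Sylow 2-subgroups of type `(2^m, 2^m)`, `m ≥ 2` -/

set_option autoImplicit false
set_option linter.unusedSectionVars false
set_option linter.unusedVariables false

namespace Cfsg.Agent.Lib.Blocks.Homocyclic2

open Cfsg Cfsg.Agent.Lib.Char Cfsg.Agent.Lib.Blocks
open scoped ComplexConjugate

universe u

section Alg

theorem mul_sq_mem_of_comm_complement {H : Type*} [Group H] {N A : Subgroup H} [hN : N.Normal]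
    (hc : N.IsComplement' A) (hA : ∀ a ∈ A, ∀ b ∈ A, a * b = b * a) {s t : H} (hs : s * s = 1)
    (ht : t * t = 1) : (s * t) * (s * t) ∈ N := by
  have hdec : ∀ x : H, ∃ n ∈ N, ∃ a ∈ A, x = n * a := by
    intro x
    obtain ⟨⟨n, a⟩, hx⟩ := hc.2 x
    exact ⟨n.1, n.2, a.1, a.2, hx.symm⟩
  obtain ⟨n₁, hn₁, a, ha, rfl⟩ := hdec s
  obtain ⟨n₂, hn₂, b, hb, rfl⟩ := hdec t
  rw [← QuotientGroup.eq_one_iff]
  have e1 : ((n₁ : H) : H ⧸ N) = 1 := (QuotientGroup.eq_one_iff n₁).mpr hn₁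
  have e2 : ((n₂ : H) : H ⧸ N) = 1 := (QuotientGroup.eq_one_iff n₂).mpr hn₂
  have hs' := congrArg (fun x : H => (x : H ⧸ N)) hs
  have ht' := congrArg (fun x : H => (x : H ⧸ N)) ht
  simp only [QuotientGroup.mk_mul, e1, e2, one_mul, QuotientGroup.mk_one] at hs' ht' ⊢
  have hab : ((a : H) : H ⧸ N) * (b : H) = (b : H) * (a : H) := by
    rw [← QuotientGroup.mk_mul, ← QuotientGroup.mk_mul, hA a ha b hb]
  calc ((a : H) : H ⧸ N) * (b : H) * ((a : H) * (b : H))
      = (a : H) * ((b : H) * (a : H)) * (b : H) := by group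
    _ = (a : H) * ((a : H) * (b : H)) * (b : H) := by rw [← hab]
    _ = ((a : H) * (a : H)) * ((b : H) * (b : H)) := by group
    _ = 1 := by rw [hs', ht', one_mul]

theorem dioph_aux {A B : ℤ} (hA : A ≤ -15) (hB : 17 ≤ B) (hc : (16 : ℤ) ∣ (1 + A + B) - 3)
    (h : (A * B + A + B) * (1 + A + B) = 9 * (A * B)) : False := by
  have hp : A * B + A + B < 0 := by nlinarith
  have hAB : A * B < 0 := by nlinarith
  have hcpos : 0 < 1 + A + B := by
    by_contra hcon
    have h1 : 1 + A + B ≤ 0 := by omega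
    have h2 : 0 ≤ (A * B + A + B) * (1 + A + B) := mul_nonneg_of_nonpos_of_nonpos hp.le h1
    linarith
  obtain ⟨k, hk⟩ := hc
  have hk' : 0 ≤ k := by omega
  by_cases hk0 : k = 0
  · subst hk0
    have hB' : B = 2 - A := by omega
    subst hB'
    nlinarith
  · have hk1 : 1 ≤ k := by omega
    have hc19 : 19 ≤ 1 + A + B := by omega
    have h2 : (A * B + A + B) * (1 + A + B) ≤ (A * B + A + B) * 19 :=
      mul_le_mul_of_nonpos_left hc19 hp.le
    have h3 : A * B ≤ -15 * B := by nlinarith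
    nlinarith

theorem dioph {A B : ℤ} (hA : (16 : ℤ) ∣ A - 1) (hB : (16 : ℤ) ∣ B - 1)
    (h : (A * B + A + B) * (1 + A + B) = 9 * (A * B)) : A = 1 ∧ B = 1 := by
  by_cases hA1 : A = 1
  · subst hA1
    refine ⟨rfl, ?_⟩
    have h1 : (B - 1) * (B - 1) = 0 := by nlinarith
    have h2 := mul_self_eq_zero.mp h1
    omega
  by_cases hB1 : B = 1
  · subst hB1
    refine ⟨?_, rfl⟩
    have h1 : (A - 1) * (A - 1) = 0 := by nlinarith
    have h2 := mul_self_eq_zero.mp h1
    omega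
  exfalso
  have hA' : A ≤ -15 ∨ 17 ≤ A := by omega
  have hB' : B ≤ -15 ∨ 17 ≤ B := by omega
  have hc : (16 : ℤ) ∣ (1 + A + B) - 3 := by omega
  rcases hA' with hA' | hA' <;> rcases hB' with hB' | hB'
  · have hp : 0 < A * B + A + B := by nlinarith
    have hc' : 1 + A + B < 0 := by omega
    have h1 : (A * B + A + B) * (1 + A + B) < 0 := mul_neg_of_pos_of_neg hp hc'
    have h2 : 0 < A * B := by nlinarith
    linarith
  · exact dioph_aux hA' hB' hc h
  · refine dioph_aux hB' hA' (by omega) ?_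
    linear_combination h
  · have h1 : 0 < A * B := by nlinarith
    have h2 : 0 < A * B * (A + B - 8) := mul_pos h1 (by omega)
    have h3 : 0 < (A + B) * (1 + A + B) := mul_pos (by omega) (by omega)
    nlinarith

end Alg

section Pairs

variable {G : Type u} [Group G] [Fintype G] {M : Ideal AlgInt} [hp2 : Fact (Nat.Prime 2)] {Q : Subgroup G}

theorem classPairs_eq_zero (h : FrobSetup 2 M Q) {u x v : G} (hu : u * u = 1) (hv : v ∈ Q) (hv2 : v * v ≠ 1)
    (hx : IsPPart 2 x v) : classPairs u u x = 0 := by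
  classical
  obtain ⟨α, hα⟩ := exists_isPExp G 2
  have hxα : x ^ α = v := hα.eq_of_isPPart hx
  obtain ⟨P, rfl⟩ := h.sylow
  rw [classPairs, Nat.card_eq_zero]
  left
  refine ⟨?_⟩
  rintro ⟨⟨s, t⟩, hs, ht, hst⟩
  simp only at hs ht hst
  have hs2 : s * s = 1 := by
    obtain ⟨c, rfl⟩ := isConj_iff.mp hs
    calc c * u * c⁻¹ * (c * u * c⁻¹) = c * (u * u) * c⁻¹ := by group
      _ = 1 := by rw [hu]; group
  have ht2 : t * t = 1 := by
    obtain ⟨c, rfl⟩ := isConj_iff.mp ht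
    calc c * u * c⁻¹ * (c * u * c⁻¹) = c * (u * u) * c⁻¹ := by group
      _ = 1 := by rw [hu]; group
  have hsi : s⁻¹ = s := inv_eq_of_mul_eq_one_left hs2
  have hti : t⁻¹ = t := inv_eq_of_mul_eq_one_left ht2
  have hinv : x⁻¹ = t * s := by rw [← hst, mul_inv_rev, hsi, hti]
  have hsx : s * x * s⁻¹ = x⁻¹ := by
    rw [hinv, ← hst, hsi]
    calc s * (s * t) * s = (s * s) * t * s := by group
      _ = t * s := by rw [hs2, one_mul]
  have htx : t * x * t⁻¹ = x⁻¹ := by
    rw [hinv, ← hst, hti]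
    calc t * (s * t) * t = t * s * (t * t) := by group
      _ = t * s := by rw [ht2, mul_one]
  have hsv : s * v * s⁻¹ = v⁻¹ := by
    rw [← hxα, ← conj_pow, hsx, inv_pow]
  have htv : t * v * t⁻¹ = v⁻¹ := by
    rw [← hxα, ← conj_pow, htx, inv_pow]
  obtain ⟨k, hk⟩ := (IsPGroup.iff_orderOf.mp P.isPGroup') ⟨v, hv⟩
  rw [Subgroup.orderOf_mk] at hk
  have hk2 : 2 ≤ k := by
    by_contra hcon
    have h1 : k = 0 ∨ k = 1 := by omega
    apply hv2
    rw [← pow_two, ← orderOf_dvd_iff_pow_eq_one, hk]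
    rcases h1 with rfl | rfl <;> norm_num
  obtain ⟨j, rfl⟩ : ∃ j, k = j + 1 := ⟨k - 1, by omega⟩
  set v₀ := v ^ (2 ^ j) with hv₀
  have hv₀Q : v₀ ∈ (P : Subgroup G) := Subgroup.pow_mem _ hv _
  have hv₀1 : v₀ ≠ 1 := by
    apply pow_ne_one_of_lt_orderOf
    · positivity
    · rw [hk]
      exact Nat.pow_lt_pow_right (by norm_num) (by omega)
  have hv₀2 : v₀ * v₀ = 1 := by
    rw [hv₀, ← pow_add, ← two_mul, ← pow_succ']
    rw [← hk, pow_orderOf_eq_one]
  have hv₀i : v₀⁻¹ = v₀ := inv_eq_of_mul_eq_one_left hv₀2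
  have hsv₀ : s * v₀ * s⁻¹ = v₀ := by
    rw [hv₀, ← conj_pow, hsv, inv_pow, ← hv₀, hv₀i]
  have htv₀ : t * v₀ * t⁻¹ = v₀ := by
    rw [hv₀, ← conj_pow, htv, inv_pow, ← hv₀, hv₀i]
  have hsC : s ∈ Subgroup.centralizer ({v₀} : Set G) := by
    rw [Subgroup.mem_centralizer_singleton_iff]
    calc s * v₀ = (s * v₀ * s⁻¹) * s := by group
      _ = v₀ * s := by rw [hsv₀]
  have htC : t ∈ Subgroup.centralizer ({v₀} : Set G) := by
    rw [Subgroup.mem_centralizer_singleton_iff]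
    calc t * v₀ = (t * v₀ * t⁻¹) * t := by group
      _ = v₀ * t := by rw [htv₀]
  have hh := h.hasNormalPComplement hv₀Q hv₀1
  have hle : (P : Subgroup G) ≤ Subgroup.centralizer ({v₀} : Set G) := fun x hx =>
    mem_centralizer_singleton_of_commute (h.comm x hx v₀ hv₀Q)
  let S : Sylow 2 (Subgroup.centralizer ({v₀} : Set G)) := P.subtype hle
  have hSmem : ∀ x : Subgroup.centralizer ({v₀} : Set G), x ∈ (S : Subgroup (Subgroup.centralizer ({v₀} : Set G))) ↔ (x : G) ∈ (P : Subgroup G) := by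
    intro x
    simp only [S, Sylow.coe_subtype]
    exact Subgroup.mem_subgroupOf
  obtain ⟨N, hN, hc⟩ := Cfsg.Agent.Lib.Transfer.exists_normal_isComplement'_of_hasNormalPComplement hh S
  have hA : ∀ a ∈ (S : Subgroup (Subgroup.centralizer ({v₀} : Set G))), ∀ b ∈ (S : Subgroup (Subgroup.centralizer ({v₀} : Set G))), a * b = b * a := by
    intro a ha b hb
    exact Subtype.ext (h.comm a ((hSmem a).mp ha) b ((hSmem b).mp hb))
  have hmem := mul_sq_mem_of_comm_complement (s := ⟨s, hsC⟩) (t := ⟨t, htC⟩) hc hA (Subtype.ext hs2) (Subtype.ext ht2)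
  have hodd : ¬ 2 ∣ Nat.card N := by
    rw [← hc.index_eq_card]
    exact S.not_dvd_index
  have hreg : ¬ 2 ∣ orderOf (x * x) := by
    intro hd
    apply hodd
    have h1 : orderOf (⟨_, hmem⟩ : N) ∣ Nat.card N := orderOf_dvd_natCard _
    refine dvd_trans ?_ h1
    rw [Subgroup.orderOf_mk, ← Subgroup.orderOf_coe]
    have h2 : ((((⟨s, hsC⟩ : Subgroup.centralizer ({v₀} : Set G)) * ⟨t, htC⟩) * ((⟨s, hsC⟩ : Subgroup.centralizer ({v₀} : Set G)) * ⟨t, htC⟩) : Subgroup.centralizer ({v₀} : Set G)) : G) = x * x := by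
      simp [hst]
    rw [h2]
    exact hd
  have h3 := hα.pow_of_regular hreg
  rw [(Commute.refl x).mul_pow, hxα] at h3
  exact hv2 h3

/-- The sum over the `2'`-core of the centralizer vanishes outside the principal block. -/
theorem sum_core_eq_zero (h : FrobSetup 2 M Q) {v : G} (hv : v ∈ Q) (hv1 : v ≠ 1) {χ : IrrCharacter G}
    (hχ : χ ∉ principalBlock M G) [Fintype (Subgroup.centralizer ({v} : Set G))]
    [Fintype (pPrimeCore 2 (Subgroup.centralizer ({v} : Set G)))] :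
    ∑ w : pPrimeCore 2 (Subgroup.centralizer ({v} : Set G)), (χ : G → ℂ) (v * ((w : Subgroup.centralizer ({v} : Set G)) : G)) = 0 := by
  classical
  obtain ⟨P, rfl⟩ := h.sylow
  have hM := h.modular
  have := isPrime_of_modular hM
  obtain ⟨k, hk⟩ := (IsPGroup.iff_orderOf.mp P.isPGroup') ⟨v, hv⟩
  rw [Subgroup.orderOf_mk] at hk
  have hz : ∃ k, orderOf v = 2 ^ k := ⟨k, hk⟩
  set C := Subgroup.centralizer ({v} : Set G) with hC
  set O := pPrimeCore 2 C with hO
  haveI hOn : O.Normal := Cfsg.Agent.Lib.Basic.pPrimeCore_normal 2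
  have hN : ¬ 2 ∣ Nat.card O := by
    have hcop : (Nat.card O).Coprime 2 := Cfsg.Agent.Lib.Basic.pPrimeCore_coprime 2
    exact (Nat.prime_two.coprime_iff_not_dvd).mp hcop.symm
  obtain ⟨j, hj⟩ := index_pPrimeCore_of_hasNormalPComplement (h.hasNormalPComplement hv hv1)
  have hB := principalBlock_eq_of_normal_complement (M := M) hM hN hj
  have hker : ∀ ξ : IrrCharacter C, O ≤ charKer (ξ : C → ℂ) ↔ ξ ∈ principalBlock M C := by
    intro ξ
    rw [hB]
    constructor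
    · intro h n hn
      exact (mem_charKer (IsIrrCharacter.isCharacter ξ.2)).mp (h hn)
    · intro h n hn
      exact (mem_charKer (IsIrrCharacter.isCharacter ξ.2)).mpr (h n hn)
  have hsum : ∀ ξ : IrrCharacter C, ∑ n : O, (ξ : C → ℂ) n = (Nat.card O : ℂ) * (indic (principalBlock M C) ξ * (ξ : C → ℂ) 1) := by
    intro ξ
    have h1 := sum_coset_irr O ξ.2 1
    simp only [mul_one] at h1
    rw [h1]
    by_cases hξ : ξ ∈ principalBlock M C
    · rw [if_pos ((hker ξ).mpr hξ), indic_apply_of_mem hξ, one_mul]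
    · rw [if_neg (fun h' => hξ ((hker ξ).mp h')), indic_apply_of_notMem hξ]
      simp
  have h0 := projOp_secFun_eq_zero (M := M) (p := 2) (z := v) hM hz hχ (y := 1) (by simp)
  rw [projOp_eq_sum _ (secFun_isClassFunction v χ)] at h0
  have hexp : ∀ w : C, secFun v χ w = ∑ ξ : IrrCharacter C, classInner (secFun v χ) (ξ : C → ℂ) * (ξ : C → ℂ) w := by
    intro w
    have h3 := congrFun (classFunction_eq_sum (secFun v χ) (secFun_isClassFunction v χ)) w
    rw [Finset.sum_apply] at h3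
    exact h3
  have key : ∑ w : O, secFun v χ (w : C) = 0 := by
    simp only [hexp]
    rw [Finset.sum_comm]
    have h2 : ∀ ξ : IrrCharacter C, ∑ w : O, classInner (secFun v χ) (ξ : C → ℂ) * (ξ : C → ℂ) w =
        (Nat.card O : ℂ) * (indic (principalBlock M C) ξ * (classInner (secFun v χ) (ξ : C → ℂ) * (ξ : C → ℂ) 1)) := by
      intro ξ
      rw [← Finset.mul_sum, hsum]
      ring
    rw [Finset.sum_congr rfl (fun ξ _ => h2 ξ), ← Finset.mul_sum, h0, mul_zero]
  convert key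
  rfl

/-- **The cubic relation.** -/
theorem sum_principal_cubic (h : FrobSetup 2 M Q) {u v : G} (hu : u * u = 1) (hv : v ∈ Q) (hv2 : v * v ≠ 1) :
    ∑ χ : IrrCharacter G, indic (principalBlock M G) χ *
      ((χ : G → ℂ) u * (χ : G → ℂ) u * conj ((χ : G → ℂ) v) / (χ : G → ℂ) 1) = 0 := by
  classical
  have hv1 : v ≠ 1 := by
    rintro rfl
    simp at hv2
  letI : Fintype (Subgroup.centralizer ({v} : Set G)) := Fintype.ofFinite _
  letI : Fintype (pPrimeCore 2 (Subgroup.centralizer ({v} : Set G))) := Fintype.ofFinite _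
  obtain ⟨P, hP⟩ := h.sylow
  obtain ⟨k, hk⟩ := (IsPGroup.iff_orderOf.mp P.isPGroup') ⟨v, hP ▸ hv⟩
  rw [Subgroup.orderOf_mk] at hk
  have hz : ∃ k, orderOf v = 2 ^ k := ⟨k, hk⟩
  set C := Subgroup.centralizer ({v} : Set G) with hC
  set O := pPrimeCore 2 C with hO
  have hN : ¬ 2 ∣ Nat.card O := by
    have hcop : (Nat.card O).Coprime 2 := Cfsg.Agent.Lib.Basic.pPrimeCore_coprime 2
    exact (Nat.prime_two.coprime_iff_not_dvd).mp hcop.symm
  have hreg : ∀ w : O, ¬ 2 ∣ orderOf (w : C) := by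
    intro w hd
    apply hN
    rw [Subgroup.orderOf_coe] at hd
    exact hd.trans (orderOf_dvd_natCard _)
  have hpart : ∀ w : O, IsPPart 2 (v * ((w : C) : G)) v := fun w => isPPart_mul_of_regular hz (hreg w)
  have hT : ∀ w : O, ∑ χ : IrrCharacter G, (χ : G → ℂ) u * (χ : G → ℂ) u * conj ((χ : G → ℂ) (v * ((w : C) : G))) / (χ : G → ℂ) 1 = 0 := by
    intro w
    have h1 := classPairs_eq u u (v * ((w : C) : G))
    rw [classPairs_eq_zero h hu hv hv2 (hpart w), Nat.cast_zero] at h1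
    have h2 : (classSize u : ℂ) ≠ 0 := by exact_mod_cast (classSize_pos u).ne'
    have h3 : (Nat.card G : ℂ) ≠ 0 := by exact_mod_cast Nat.card_pos.ne'
    have h4 : (classSize u : ℂ) * (classSize u : ℂ) / (Nat.card G : ℂ) ≠ 0 := by positivity
    exact (mul_eq_zero.mp h1.symm).resolve_left h4
  have hO0 : (Nat.card O : ℂ) ≠ 0 := by exact_mod_cast Nat.card_pos.ne'
  have hS : ∀ χ : IrrCharacter G, ∑ w : O, (χ : G → ℂ) (v * ((w : C) : G)) =
      (Nat.card O : ℂ) * (indic (principalBlock M G) χ * (χ : G → ℂ) v) := by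
    intro χ
    by_cases hχ : χ ∈ principalBlock M G
    · rw [indic_apply_of_mem hχ, one_mul]
      have h1 : ∀ w : O, (χ : G → ℂ) (v * ((w : C) : G)) = (χ : G → ℂ) v := fun w =>
        h.apply_eq_of_isPPart (hpart w) hv hv1 hχ
      rw [Finset.sum_congr rfl (fun w _ => h1 w), Finset.sum_const, Finset.card_univ, nsmul_eq_mul,
        Nat.card_eq_fintype_card]
    · rw [indic_apply_of_notMem hχ, zero_mul, mul_zero]
      exact sum_core_eq_zero h hv hv1 hχ
  have hfinal : (Nat.card O : ℂ) * ∑ χ : IrrCharacter G, indic (principalBlock M G) χ *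
      ((χ : G → ℂ) u * (χ : G → ℂ) u * conj ((χ : G → ℂ) v) / (χ : G → ℂ) 1) = 0 := by
    have h1 : ∑ w : O, ∑ χ : IrrCharacter G, (χ : G → ℂ) u * (χ : G → ℂ) u * conj ((χ : G → ℂ) (v * ((w : C) : G))) / (χ : G → ℂ) 1 = 0 :=
      Finset.sum_eq_zero (fun w _ => hT w)
    rw [Finset.sum_comm] at h1
    rw [← h1, Finset.mul_sum]
    refine Finset.sum_congr rfl fun χ _ => ?_
    have h2 : ∑ w : O, (χ : G → ℂ) u * (χ : G → ℂ) u * conj ((χ : G → ℂ) (v * ((w : C) : G))) / (χ : G → ℂ) 1 =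
        (χ : G → ℂ) u * (χ : G → ℂ) u / (χ : G → ℂ) 1 * conj (∑ w : O, (χ : G → ℂ) (v * ((w : C) : G))) := by
      rw [map_sum, Finset.mul_sum]
      refine Finset.sum_congr rfl fun w _ => ?_
      ring
    rw [h2, hS, map_mul, map_mul, Complex.conj_natCast]
    by_cases hχ : χ ∈ principalBlock M G
    · rw [indic_apply_of_mem hχ]
      simp only [map_one]
      ring
    · rw [indic_apply_of_notMem hχ]
      simp only [map_zero]
      ring
  exact (mul_eq_zero.mp hfinal).resolve_left hO0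

end Pairs

section Orbit

variable {G : Type u} [Group G] [Fintype G] {M : Ideal AlgInt} [hp2 : Fact (Nat.Prime 2)] {Q : Subgroup G}
  [Fintype Q] [Fintype (Subgroup.normalizer (Q : Set G))] [Fintype (Q →* ℂˣ)]

theorem orbVal_twist (n : Subgroup.normalizer (Q : Set G)) (ψ : Q →* ℂˣ) (y : Q) :
    orbVal (twist Q n ψ) y = orbVal ψ y := by
  rw [orbVal, orbVal]
  congr 1
  refine Fintype.sum_equiv (Equiv.mulLeft n⁻¹) _ _ fun x => ?_
  simp only [linVal, twist_apply, Equiv.coe_mulLeft]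
  congr 2
  apply Subtype.ext
  simp only [coe_conjQ, Subgroup.coe_mul, Subgroup.coe_inv]
  group

theorem orbVal_apply_one (ψ : Q →* ℂˣ) {m : ℕ}
    (hm : Nat.card (Subgroup.normalizer (Q : Set G)) = m * Nat.card (Subgroup.centralizer (Q : Set G))) :
    orbVal ψ 1 = m := by
  have h0 := card_centralizer_ne_zero_coe Q
  rw [orbVal]
  have h1 : ∀ x : Subgroup.normalizer (Q : Set G), linVal ψ (conjQ Q x 1) = 1 := by
    intro x
    rw [map_one, linVal_one]
  rw [Finset.sum_congr rfl (fun x _ => h1 x), Finset.sum_const, Finset.card_univ, nsmul_eq_mul, mul_one,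
    ← Nat.card_eq_fintype_card, hm]
  push_cast
  field_simp

theorem orbVal_one_char (y : Q) {m : ℕ}
    (hm : Nat.card (Subgroup.normalizer (Q : Set G)) = m * Nat.card (Subgroup.centralizer (Q : Set G))) :
    orbVal (1 : Q →* ℂˣ) y = m := by
  have h0 := card_centralizer_ne_zero_coe Q
  rw [orbVal]
  have h1 : ∀ x : Subgroup.normalizer (Q : Set G), linVal (1 : Q →* ℂˣ) (conjQ Q x y) = 1 := by
    intro x
    simp [linVal]
  rw [Finset.sum_congr rfl (fun x _ => h1 x), Finset.sum_const, Finset.card_univ, nsmul_eq_mul, mul_one,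
    ← Nat.card_eq_fintype_card, hm]
  push_cast
  field_simp

theorem sum_orbVal_dual (hcomm : ∀ a ∈ Q, ∀ b ∈ Q, a * b = b * a) {u v : Q} (hu : u * u = 1) (hv : v * v ≠ 1) :
    ∑ ψ : Q →* ℂˣ, orbVal ψ u * orbVal ψ u * conj (orbVal ψ v) = 0 := by
  classical
  have hcomm' : ∀ a b : Q, a * b = b * a := fun a b => Subtype.ext (hcomm a a.2 b b.2)
  set c : ℂ := (Nat.card (Subgroup.centralizer (Q : Set G)) : ℂ) with hc
  have hexp : ∀ ψ : Q →* ℂˣ, orbVal ψ u * orbVal ψ u * conj (orbVal ψ v) =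
      c⁻¹ * c⁻¹ * c⁻¹ * ∑ x₁ : Subgroup.normalizer (Q : Set G), ∑ x₂ : Subgroup.normalizer (Q : Set G),
        ∑ x₃ : Subgroup.normalizer (Q : Set G), linVal ψ (conjQ Q x₁ u * conjQ Q x₂ u * (conjQ Q x₃ v)⁻¹) := by
    intro ψ
    have hcc : conj c = c := Complex.conj_natCast _
    simp only [orbVal]
    rw [map_mul, map_inv₀, ← hc, hcc]
    have e1 : ∀ A B C : ℂ, c⁻¹ * A * (c⁻¹ * B) * (c⁻¹ * C) = c⁻¹ * c⁻¹ * c⁻¹ * (A * B * C) := by
      intro A B C; ring
    rw [e1]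
    congr 1
    rw [map_sum, Finset.sum_mul_sum, Finset.sum_mul]
    refine Finset.sum_congr rfl fun x₁ _ => ?_
    rw [Finset.sum_mul]
    refine Finset.sum_congr rfl fun x₂ _ => ?_
    rw [Finset.mul_sum]
    refine Finset.sum_congr rfl fun x₃ _ => ?_
    rw [linVal_mul, linVal_mul, linVal_inv]
  simp only [hexp]
  rw [← Finset.mul_sum]
  have hmain : ∑ ψ : Q →* ℂˣ, ∑ x₁ : Subgroup.normalizer (Q : Set G), ∑ x₂ : Subgroup.normalizer (Q : Set G),
        ∑ x₃ : Subgroup.normalizer (Q : Set G), linVal ψ (conjQ Q x₁ u * conjQ Q x₂ u * (conjQ Q x₃ v)⁻¹) = 0 := by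
    rw [Finset.sum_comm]
    refine Finset.sum_eq_zero fun x₁ _ => ?_
    rw [Finset.sum_comm]
    refine Finset.sum_eq_zero fun x₂ _ => ?_
    rw [Finset.sum_comm]
    refine Finset.sum_eq_zero fun x₃ _ => ?_
    rw [sum_dual_apply hcomm', if_neg]
    intro hw
    have h1 : conjQ Q x₁ u * conjQ Q x₂ u = conjQ Q x₃ v := mul_inv_eq_one.mp hw
    apply hv
    have h2 : conjQ Q x₃ (v * v) = 1 := by
      rw [map_mul, ← h1]
      have h3 : conjQ Q x₁ u * conjQ Q x₁ u = 1 := by rw [← map_mul, hu, map_one]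
      have h4 : conjQ Q x₂ u * conjQ Q x₂ u = 1 := by rw [← map_mul, hu, map_one]
      calc conjQ Q x₁ u * conjQ Q x₂ u * (conjQ Q x₁ u * conjQ Q x₂ u)
          = conjQ Q x₁ u * (conjQ Q x₂ u * conjQ Q x₁ u) * conjQ Q x₂ u := by group
        _ = conjQ Q x₁ u * (conjQ Q x₁ u * conjQ Q x₂ u) * conjQ Q x₂ u := by rw [hcomm' (conjQ Q x₂ u)]
        _ = (conjQ Q x₁ u * conjQ Q x₁ u) * (conjQ Q x₂ u * conjQ Q x₂ u) := by group
        _ = 1 := by rw [h3, h4, one_mul]
    have h5 : ((conjQ Q x₃ (v * v) : Q) : G) = 1 := by rw [h2]; rfl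
    rw [coe_conjQ] at h5
    apply Subtype.ext
    have h6 : ((v * v : Q) : G) = (x₃ : G)⁻¹ * ((x₃ : G) * ((v * v : Q) : G) * (x₃ : G)⁻¹) * (x₃ : G) := by group
    rw [h6, h5]
    simp
  rw [hmain, mul_zero]

/-- The sum over the orbit representatives. -/
theorem sum_orbVal_cubic {r : ℕ} (D : BrauerData 2 M Q r)
    (hm : Nat.card (Subgroup.normalizer (Q : Set G)) = 3 * Nat.card (Subgroup.centralizer (Q : Set G)))
    {u v : Q} (hu : u * u = 1) (hv : v * v ≠ 1) :
    ∑ j : Fin r, orbVal (D.rep j) u * orbVal (D.rep j) u * conj (orbVal (D.rep j) v) = -9 := by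
  classical
  let F : (Q →* ℂˣ) → ℂ := fun ψ => orbVal ψ u * orbVal ψ u * conj (orbVal ψ v)
  have h0 : ∑ ψ : Q →* ℂˣ, F ψ = 0 := sum_orbVal_dual D.setup.comm hu hv
  have h1 : F 1 = 27 := by
    simp only [F]
    rw [orbVal_one_char u hm, orbVal_one_char v hm]
    simp only [Complex.conj_natCast]
    norm_num
  rw [← Finset.sum_filter_add_sum_filter_not Finset.univ (fun ψ : Q →* ℂˣ => ψ ≠ 1)] at h0
  have h2 : Finset.univ.filter (fun ψ : Q →* ℂˣ => ¬ ψ ≠ 1) = {1} := by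
    ext ψ
    simp
  rw [h2, Finset.sum_singleton, h1] at h0
  have h3 : ∑ ψ ∈ Finset.univ.filter (fun ψ : Q →* ℂˣ => ψ ≠ 1), F ψ = ∑ j : Fin r, 3 * F (D.rep j) := by
    rw [← Finset.sum_fiberwise (Finset.univ.filter (fun ψ : Q →* ℂˣ => ψ ≠ 1)) D.idx F]
    refine Finset.sum_congr rfl fun j _ => ?_
    have hset : (Finset.univ.filter (fun ψ : Q →* ℂˣ => ψ ≠ 1)).filter (fun ψ => D.idx ψ = j) =
        Finset.univ.filter (fun ψ' : Q →* ℂˣ => ∃ n, twist Q n (D.rep j) = ψ') := by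
      ext ψ'
      simp only [Finset.mem_filter, Finset.mem_univ, true_and]
      rw [← D.idx_iff (D.rep j) ψ' (D.rep_ne j), D.idx_rep]
    rw [hset]
    have hF : ∀ ψ' ∈ Finset.univ.filter (fun ψ' : Q →* ℂˣ => ∃ n, twist Q n (D.rep j) = ψ'), F ψ' = F (D.rep j) := by
      intro ψ' hψ'
      obtain ⟨n, rfl⟩ := (Finset.mem_filter.mp hψ').2
      simp only [F, orbVal_twist]
    rw [Finset.sum_congr rfl hF, Finset.sum_const, nsmul_eq_mul]
    congr 1
    have h4 := orbVal_eq D.setup.comm D.setup.frob (D.rep_ne j) 1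
    rw [orbVal_apply_one _ hm] at h4
    simp only [linVal_one, Finset.sum_const, nsmul_eq_mul, mul_one] at h4
    exact_mod_cast h4.symm
  rw [h3, ← Finset.mul_sum] at h0
  have h5 : (3 : ℂ) * ∑ j : Fin r, F (D.rep j) = 3 * (-9) := by
    linear_combination h0
  exact mul_left_cancel₀ (by norm_num) h5

end Orbit

section Linear

variable {G : Type u} [Group G] [Fintype G] {M : Ideal AlgInt} [hp2 : Fact (Nat.Prime 2)] {Q : Subgroup G}
  [Fintype Q] [Fintype (Subgroup.normalizer (Q : Set G))] [Fintype (Q →* ℂˣ)]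

/-- The congruence for a non-exceptional character. -/
theorem card_dvd_sub {r : ℕ} (D : BrauerData 2 M Q r) {χ : IrrCharacter G} (hχ : χ ∈ D.Xf) :
    (Nat.card Q : ℤ) ∣ (charDegree (χ : G → ℂ) : ℤ) - D.valD χ := by
  classical
  obtain ⟨hB, hY⟩ := D.mem_Xf.mp hχ
  have h1 := coefN_spec χ (1 : Q →* ℂˣ)
  rw [coefL] at h1
  have h2 : ∀ y : Q, (χ : G → ℂ) y * conj (linVal (1 : Q →* ℂˣ) y) = (χ : G → ℂ) y := by
    intro y
    simp [linVal]
  rw [Finset.sum_congr rfl (fun y _ => h2 y), ← Finset.add_sum_erase Finset.univ _ (Finset.mem_univ (1 : Q))] at h1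
  have h3 : ∀ y ∈ (Finset.univ : Finset Q).erase 1, (χ : G → ℂ) y = (D.valD χ : ℂ) := by
    intro y hy
    exact D.apply_eq_of_notMem_range hB hY y (Finset.ne_of_mem_erase hy)
  rw [Finset.sum_congr rfl h3, Finset.sum_const, Finset.card_erase_of_mem (Finset.mem_univ _), Finset.card_univ,
    nsmul_eq_mul, ← Nat.card_eq_fintype_card] at h1
  have hQ0 : (Nat.card Q : ℂ) ≠ 0 := by exact_mod_cast Nat.card_pos.ne'
  have hQ1 : 1 ≤ Nat.card Q := Nat.card_pos
  rw [Subgroup.coe_one, apply_one_eq_charDegree (irr_isCharacter χ), Nat.cast_sub hQ1] at h1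
  refine ⟨(coefN χ (1 : Q →* ℂˣ) : ℤ) - D.valD χ, ?_⟩
  have h4 : (((charDegree (χ : G → ℂ) : ℤ) - D.valD χ : ℤ) : ℂ) =
      (((Nat.card Q : ℤ) * ((coefN χ (1 : Q →* ℂˣ) : ℤ) - D.valD χ) : ℤ) : ℂ) := by
    push_cast
    rw [h1]
    field_simp
    push_cast
    ring
  exact_mod_cast h4

theorem alg_key {a b e x y w : ℂ} (ha : a * a = 1) (hb : b * b = 1) (he : e * e = 1) (hx : x ≠ 0) (hy : y ≠ 0)
    (hw : w ≠ 0) (h1 : 1 + a * a * a / x + b * b * b / y + e * e * e / w * (-9) = 0)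
    (h2 : -(e * w) + 1 + a * x + b * y = 0) :
    (a * x * (b * y) + a * x + b * y) * (1 + a * x + b * y) = 9 * (a * x * (b * y)) := by
  have h1' : x * y * w + a * y * w + b * x * w - 9 * e * x * y = 0 := by
    have h3 : x * y * w * (1 + a * a * a / x + b * b * b / y + e * e * e / w * (-9)) =
        x * y * w + a * y * w + b * x * w - 9 * e * x * y := by
      rw [show a * a * a = a by rw [ha, one_mul], show b * b * b = b by rw [hb, one_mul],
        show e * e * e = e by rw [he, one_mul]]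
      field_simp
      ring
    rw [← h3, h1, mul_zero]
  linear_combination (a * x * (b * y) + a * x + b * y) * h2 + (a * b * e) * h1' + (-a * x * e * w) * hb +
    (-b * y * e * w) * ha + (9 * a * b * x * y) * he

theorem exists_linear {r : ℕ} (D : BrauerData 2 M Q r)
    (hm : Nat.card (Subgroup.normalizer (Q : Set G)) = 3 * Nat.card (Subgroup.centralizer (Q : Set G)))
    (hr : 5 ≤ r) (h16 : 16 ∣ Nat.card Q) {u v : Q} (hu1 : u ≠ 1) (hu2 : u * u = 1) (hv2 : v * v ≠ 1) :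
    ∃ ζ : IrrCharacter G, ζ ≠ oneIrr G ∧ ζ ∈ principalBlock M G ∧ (ζ : G → ℂ) 1 = 1 ∧
      ∀ y : Q, y ≠ 1 → (ζ : G → ℂ) y = 1 := by
  classical
  have := isPrime_of_modular D.setup.modular
  have hnorm := D.norm_identity hm
  set one : IrrCharacter G := oneIrr G with hone'
  have hone : one ∈ D.Xf := D.mem_Xf.mpr ⟨self_mem_blockOf (oneIrr G), D.one_notMem_range⟩
  have hval1 : D.valD one = 1 := by
    have h1 := D.apply_eq_of_notMem_range (self_mem_blockOf (oneIrr G)) D.one_notMem_range u hu1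
    have h7 : ((oneIrr G : IrrCharacter G) : G → ℂ) (u : G) = 1 := rfl
    rw [h7] at h1
    exact_mod_cast h1.symm
  have hSum1 : 1 ≤ ∑ χ ∈ D.Xf, D.valD χ ^ 2 := by
    have h1 := Finset.single_le_sum (f := fun χ => D.valD χ ^ 2) (fun _ _ => sq_nonneg _) hone
    simp only [hval1] at h1
    linarith
  have hE2 : D.E ^ 2 = 1 := by rcases D.E_sign with h | h <;> rw [h] <;> norm_num
  have hr' : (4 : ℤ) ≤ (r : ℤ) - 1 := by
    have : (5 : ℤ) ≤ (r : ℤ) := by exact_mod_cast hr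
    omega
  push_cast at hnorm
  have hd0 : D.dval = 0 := by
    by_contra hd
    have h1 : 1 ≤ D.dval ^ 2 := by
      have : 0 < D.dval ^ 2 := by positivity
      omega
    nlinarith [sq_nonneg (D.dval - D.E)]
  rw [hd0] at hnorm
  have hSum3 : ∑ χ ∈ D.Xf, D.valD χ ^ 2 = 3 := by
    nlinarith
  -- the two other characters
  have hS' : ∑ χ ∈ D.Xf.erase one, D.valD χ ^ 2 = 2 := by
    have h1 := Finset.add_sum_erase D.Xf (fun χ => D.valD χ ^ 2) hone
    simp only [hval1] at h1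
    rw [hSum3] at h1
    linarith
  have hval : ∀ χ ∈ D.Xf.erase one, D.valD χ = 1 ∨ D.valD χ = -1 := by
    intro χ hχ
    have h1 := Finset.single_le_sum (f := fun χ => D.valD χ ^ 2) (fun _ _ => sq_nonneg _) hχ
    rw [hS'] at h1
    have h2 := D.valD_ne_zero (Finset.mem_of_mem_erase hχ)
    have h3 : D.valD χ ≤ 1 := by nlinarith
    have h4 : -1 ≤ D.valD χ := by nlinarith
    omega
  have hcard : (D.Xf.erase one).card = 2 := by
    have h1 : ∑ χ ∈ D.Xf.erase one, D.valD χ ^ 2 = ∑ χ ∈ D.Xf.erase one, (1 : ℤ) := by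
      refine Finset.sum_congr rfl fun χ hχ => ?_
      rcases hval χ hχ with h | h <;> rw [h] <;> norm_num
    rw [hS', Finset.sum_const, nsmul_eq_mul, mul_one] at h1
    exact_mod_cast h1.symm
  obtain ⟨ζ₂, ζ₃, h23, hS2⟩ := Finset.card_eq_two.mp hcard
  have hζ₂ : ζ₂ ∈ D.Xf.erase one := by rw [hS2]; simp
  have hζ₃ : ζ₃ ∈ D.Xf.erase one := by rw [hS2]; simp
  have hζ₂X := Finset.mem_of_mem_erase hζ₂
  have hζ₃X := Finset.mem_of_mem_erase hζ₃
  have hsumX : ∀ F : IrrCharacter G → ℂ, ∑ χ ∈ D.Xf, F χ = F one + (F ζ₂ + F ζ₃) := by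
    intro F
    rw [← Finset.add_sum_erase D.Xf F hone, hS2, Finset.sum_pair h23]
  -- values
  have hvalX : ∀ χ ∈ D.Xf, ∀ y : Q, y ≠ 1 → (χ : G → ℂ) y = (D.valD χ : ℂ) := by
    intro χ hχ y hy
    obtain ⟨hB, hY⟩ := D.mem_Xf.mp hχ
    exact D.apply_eq_of_notMem_range hB hY y hy
  have hvalμ : ∀ j : Fin r, ∀ y : Q, y ≠ 1 → (D.μ j : G → ℂ) y = (D.E : ℂ) * orbVal (D.rep j) y := by
    intro j y hy
    rw [D.apply_μ j y hy, D.valD_μ_eq, show D.dval = 0 from hd0]
    simp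
  have hdeg : ∀ χ : IrrCharacter G, (χ : G → ℂ) 1 = (charDegree (χ : G → ℂ) : ℂ) :=
    fun χ => apply_one_eq_charDegree (irr_isCharacter χ)
  set a : ℤ := D.valD ζ₂ with ha
  set b : ℤ := D.valD ζ₃ with hb
  set e : ℤ := D.E with he
  set x : ℂ := (charDegree (ζ₂ : G → ℂ) : ℂ) with hx
  set y : ℂ := (charDegree (ζ₃ : G → ℂ) : ℂ) with hy
  set w : ℂ := (D.μ D.i₀ : G → ℂ) 1 with hw
  have hx0 : x ≠ 0 := by rw [hx, ← hdeg]; exact irr_apply_one_ne_zero _
  have hy0 : y ≠ 0 := by rw [hy, ← hdeg]; exact irr_apply_one_ne_zero _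
  have hw0 : w ≠ 0 := irr_apply_one_ne_zero _
  have ha2 : (a : ℂ) * a = 1 := by
    rcases hval ζ₂ hζ₂ with h | h <;> rw [ha, h] <;> norm_num
  have hb2 : (b : ℂ) * b = 1 := by
    rcases hval ζ₃ hζ₃ with h | h <;> rw [hb, h] <;> norm_num
  have he2 : (e : ℂ) * e = 1 := D.E_sq
  have hu' : (u : G) * u = 1 := congrArg Subtype.val hu2
  have hv' : (v : G) * v ≠ 1 := fun h => hv2 (Subtype.ext h)
  have hv1 : v ≠ 1 := by
    rintro rfl
    simp at hv2
  -- the cubic relation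
  have hQ := sum_principal_cubic D.setup hu' v.2 hv'
  rw [D.sum_indic_split (fun χ => (χ : G → ℂ) u * (χ : G → ℂ) u * conj ((χ : G → ℂ) v) / (χ : G → ℂ) 1), hsumX] at hQ
  have hμsum : ∑ j : Fin r, (D.μ j : G → ℂ) u * (D.μ j : G → ℂ) u * conj ((D.μ j : G → ℂ) v) / (D.μ j : G → ℂ) 1 =
      (e : ℂ) * e * e / w * (-9) := by
    have h1 : ∀ j : Fin r, (D.μ j : G → ℂ) u * (D.μ j : G → ℂ) u * conj ((D.μ j : G → ℂ) v) / (D.μ j : G → ℂ) 1 =
        (e : ℂ) * e * e / w * (orbVal (D.rep j) u * orbVal (D.rep j) u * conj (orbVal (D.rep j) v)) := by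
      intro j
      have h2 : (D.μ j : G → ℂ) 1 = w := D.μ_regular j D.i₀ (g := 1) (by simp)
      rw [hvalμ j u hu1, hvalμ j v hv1, h2, map_mul, map_intCast]
      ring
    rw [Finset.sum_congr rfl (fun j _ => h1 j), ← Finset.mul_sum, sum_orbVal_cubic D hm hu2 hv2]
  rw [hμsum, hvalX one hone u hu1, hvalX one hone v hv1, hvalX ζ₂ hζ₂X u hu1, hvalX ζ₂ hζ₂X v hv1,
    hvalX ζ₃ hζ₃X u hu1, hvalX ζ₃ hζ₃X v hv1, hval1, hdeg ζ₂, hdeg ζ₃] at hQ
  have hone1 : (one : G → ℂ) 1 = 1 := rfl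
  rw [hone1] at hQ
  simp only [map_intCast, Int.cast_one, map_one, mul_one, one_mul, div_one] at hQ
  -- the regular identity
  have hreg := D.regular_identity D.i₀ (g := 1) (by simp)
  rw [hsumX, show D.dval = 0 from hd0, hval1, hone1, hdeg ζ₂, hdeg ζ₃] at hreg
  have hreg' : -((e : ℂ) * w) + 1 + (a : ℂ) * x + (b : ℂ) * y = 0 := by
    simp only [Int.cast_zero, mul_zero, zero_sub, Int.cast_one, mul_one] at hreg
    linear_combination hreg
  have hpoly := alg_key (a := (a : ℂ)) (b := (b : ℂ)) (e := (e : ℂ)) ha2 hb2 he2 hx0 hy0 hw0 (by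
    linear_combination hQ) hreg'
  -- to the integers
  have hpolyZ : ((a * (charDegree (ζ₂ : G → ℂ) : ℤ)) * (b * (charDegree (ζ₃ : G → ℂ) : ℤ)) + a * (charDegree (ζ₂ : G → ℂ) : ℤ) + b * (charDegree (ζ₃ : G → ℂ) : ℤ)) *
      (1 + a * (charDegree (ζ₂ : G → ℂ) : ℤ) + b * (charDegree (ζ₃ : G → ℂ) : ℤ)) =
      9 * ((a * (charDegree (ζ₂ : G → ℂ) : ℤ)) * (b * (charDegree (ζ₃ : G → ℂ) : ℤ))) := by
    have : (((a * (charDegree (ζ₂ : G → ℂ) : ℤ)) * (b * (charDegree (ζ₃ : G → ℂ) : ℤ)) + a * (charDegree (ζ₂ : G → ℂ) : ℤ) + b * (charDegree (ζ₃ : G → ℂ) : ℤ)) *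
      (1 + a * (charDegree (ζ₂ : G → ℂ) : ℤ) + b * (charDegree (ζ₃ : G → ℂ) : ℤ)) : ℤ) =
      ((9 * ((a * (charDegree (ζ₂ : G → ℂ) : ℤ)) * (b * (charDegree (ζ₃ : G → ℂ) : ℤ))) : ℤ) : ℂ) := by
      push_cast
      exact hpoly
    exact_mod_cast this
  have h16Z : ∀ {χ : IrrCharacter G}, χ ∈ D.Xf → (16 : ℤ) ∣ (charDegree (χ : G → ℂ) : ℤ) - D.valD χ := by
    intro χ hχ
    refine dvd_trans ?_ (card_dvd_sub D hχ)
    exact_mod_cast h16
  have hdA : ∀ {χ : IrrCharacter G}, χ ∈ D.Xf.erase one → (16 : ℤ) ∣ D.valD χ * (charDegree (χ : G → ℂ) : ℤ) - 1 := by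
    intro χ hχ
    have h1 := h16Z (Finset.mem_of_mem_erase hχ)
    have h2 : D.valD χ * (charDegree (χ : G → ℂ) : ℤ) - 1 = D.valD χ * ((charDegree (χ : G → ℂ) : ℤ) - D.valD χ) := by
      rcases hval χ hχ with h | h <;> rw [h] <;> ring
    rw [h2]
    exact Dvd.dvd.mul_left h1 _
  obtain ⟨hA1, -⟩ := dioph (hdA hζ₂) (hdA hζ₃) hpolyZ
  have hdpos : 0 < charDegree (ζ₂ : G → ℂ) := charDegree_pos ζ₂.2
  have hdpos' : (1 : ℤ) ≤ (charDegree (ζ₂ : G → ℂ) : ℤ) := by exact_mod_cast hdpos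
  have ha1 : D.valD ζ₂ = 1 := by
    rcases hval ζ₂ hζ₂ with h | h
    · exact h
    · exfalso
      rw [h] at hA1
      omega
  have hd1 : (charDegree (ζ₂ : G → ℂ) : ℤ) = 1 := by
    rw [ha1, one_mul] at hA1
    exact hA1
  refine ⟨ζ₂, (Finset.mem_erase.mp hζ₂).1, (D.mem_Xf.mp hζ₂X).1, ?_, ?_⟩
  · rw [hdeg]
    exact_mod_cast hd1
  · intro t ht
    rw [hvalX ζ₂ hζ₂X t ht, ha1]
    simp

end Linear

section Final

open Subgroup Cfsg.Agent.Lib.Blocks.Homocyclic

variable {G : Type u} [Group G] [Finite G]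

theorem eq_sylow_of_normal (P : Sylow 2 G) {H : Subgroup G} [hH : H.Normal] (hle : (P : Subgroup G) ≤ H)
    (hinf : ∀ x ∈ H, x ∈ normalizer ((P : Subgroup G) : Set G) → x ∈ centralizer ((P : Subgroup G) : Set G))
    (hO : ∀ N : Subgroup G, N.Normal → Odd (Nat.card N) → N = ⊥) : H = P := by
  haveI : Fact (Nat.Prime 2) := ⟨Nat.prime_two⟩
  let S : Sylow 2 H := P.subtype hle
  have hSmem : ∀ x : H, x ∈ (S : Subgroup H) ↔ (x : G) ∈ (P : Subgroup G) := by
    intro x
    simp only [S, Sylow.coe_subtype]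
    exact Subgroup.mem_subgroupOf
  have hh : HasNormalPComplement 2 H := by
    refine Cfsg.Agent.Lib.Transfer.hasNormalPComplement_of_normalizer_le S ?_
    intro x hx
    have hxN : (x : G) ∈ normalizer (((P : Subgroup G)) : Set G) := by
      rw [Subgroup.mem_normalizer_iff]
      intro t
      constructor
      · intro ht
        have h1 := (Subgroup.mem_normalizer_iff.mp hx ⟨t, hle ht⟩).mp ((hSmem _).mpr ht)
        exact (hSmem _).mp h1
      · intro ht
        have ht' : (x : G) * t * (x : G)⁻¹ ∈ H := hle ht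
        have htC : t ∈ H := by
          have h2 := Subgroup.mul_mem _ (Subgroup.mul_mem _ (Subgroup.inv_mem _ x.2) ht') x.2
          have h3 : (x : G)⁻¹ * ((x : G) * t * (x : G)⁻¹) * (x : G) = t := by group
          rwa [h3] at h2
        have h1 : (⟨t, htC⟩ : H) ∈ (S : Subgroup H) := by
          apply (Subgroup.mem_normalizer_iff.mp hx ⟨t, htC⟩).mpr
          apply (hSmem _).mpr
          exact ht
        exact (hSmem _).mp h1
    have hxC := hinf x x.2 hxN
    rw [Subgroup.mem_centralizer_iff]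
    intro t ht
    apply Subtype.ext
    exact Subgroup.mem_centralizer_iff.mp hxC t ((hSmem t).mp ht)
  obtain ⟨k, hk⟩ := index_pPrimeCore_of_hasNormalPComplement hh
  haveI := Cfsg.Agent.Lib.Basic.pPrimeCore_characteristic (G := H) 2
  have hL : ((pPrimeCore 2 H).map H.subtype).Normal := inferInstance
  have hodd : Odd (Nat.card ((pPrimeCore 2 H).map H.subtype)) := by
    rw [Subgroup.card_map_of_injective H.subtype_injective]
    have hcop : (Nat.card (pPrimeCore 2 H)).Coprime 2 := Cfsg.Agent.Lib.Basic.pPrimeCore_coprime 2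
    exact Nat.odd_iff.mpr (by
      have := Nat.Coprime.symm hcop
      rcases Nat.mod_two_eq_zero_or_one (Nat.card (pPrimeCore 2 H)) with h | h
      · have h2 : 2 ∣ Nat.card (pPrimeCore 2 H) := Nat.dvd_of_mod_eq_zero h
        have h3 := Nat.Coprime.eq_one_of_dvd this h2
        omega
      · exact h)
  have hbot := hO _ hL hodd
  have hK : pPrimeCore 2 H = ⊥ := (Subgroup.map_eq_bot_iff_of_injective _ H.subtype_injective).mp hbot
  rw [hK, Subgroup.index_bot] at hk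
  have hpg : IsPGroup 2 H := IsPGroup.of_card hk
  exact P.is_maximal' hpg hle

variable (P : Sylow 2 G) {m : ℕ} (e : (P : Subgroup G) ≃* Multiplicative (ZMod (2 ^ m) × ZMod (2 ^ m)))

include e in
theorem card_P : Nat.card (P : Subgroup G) = 2 ^ m * 2 ^ m := by
  haveI : NeZero (2 ^ m) := ⟨by positivity⟩
  rw [Nat.card_congr e.toEquiv, Nat.card_congr (Multiplicative.toAdd (α := ZMod (2 ^ m) × ZMod (2 ^ m))), Nat.card_prod,
    Nat.card_zmod]

include e in
theorem exists_u_v (hm : 2 ≤ m) : ∃ u v : (P : Subgroup G), u ≠ 1 ∧ u * u = 1 ∧ v * v ≠ 1 := by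
  obtain ⟨k, rfl⟩ : ∃ k, m = k + 1 := ⟨m - 1, by omega⟩
  have hk1 : 1 ≤ k := by omega
  let c : ZMod (2 ^ (k + 1)) := ((2 ^ k : ℕ) : ZMod (2 ^ (k + 1)))
  have hc0 : c ≠ 0 := zmod_c_ne k
  have hcc : c + c = 0 := by
    have h1 : c + c = ((2 ^ (k + 1) : ℕ) : ZMod (2 ^ (k + 1))) := by
      simp only [c]
      rw [← Nat.cast_add, pow_succ]
      congr 1
      ring
    rw [h1]
    exact ZMod.natCast_self _
  have h11 : (1 : ZMod (2 ^ (k + 1))) + 1 ≠ 0 := by
    intro h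
    have h2 : ((2 : ℕ) : ZMod (2 ^ (k + 1))) = 0 := by
      push_cast
      rw [← h]
      norm_num
    rw [ZMod.natCast_eq_zero_iff] at h2
    have h3 := Nat.le_of_dvd (by norm_num) h2
    have h4 : 2 ^ 2 ≤ 2 ^ (k + 1) := Nat.pow_le_pow_right (by norm_num) (by omega)
    omega
  refine ⟨e.symm (Multiplicative.ofAdd (c, 0)), e.symm (Multiplicative.ofAdd (1, 0)), ?_, ?_, ?_⟩
  · intro h
    rw [EmbeddingLike.map_eq_one_iff] at h
    have h2 : (c, (0 : ZMod (2 ^ (k + 1)))) = 0 := Multiplicative.ofAdd.injective (by simpa using h)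
    exact hc0 (congrArg Prod.fst h2)
  · rw [← map_mul, ← ofAdd_add, Prod.mk_add_mk, hcc, add_zero]
    exact map_one e.symm
  · rw [← map_mul, ← ofAdd_add, Prod.mk_add_mk]
    intro h
    rw [EmbeddingLike.map_eq_one_iff] at h
    have h2 : ((1 : ZMod (2 ^ (k + 1))) + 1, (0 : ZMod (2 ^ (k + 1))) + 0) = 0 := Multiplicative.ofAdd.injective (by simpa using h)
    exact h11 (congrArg Prod.fst h2)

include e in
theorem normal_of_three (hm : 2 ≤ m) (hO : ∀ N : Subgroup G, N.Normal → Odd (Nat.card N) → N = ⊥)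
    (h3 : (centralizer ((P : Subgroup G) : Set G)).relIndex (normalizer ((P : Subgroup G) : Set G)) = 3) :
    (P : Subgroup G).Normal := by
  classical
  haveI : Fact (Nat.Prime 2) := ⟨Nat.prime_two⟩
  letI : Fintype G := Fintype.ofFinite G
  letI : Fintype (P : Subgroup G) := Fintype.ofFinite _
  letI : Fintype (normalizer ((P : Subgroup G) : Set G)) := Fintype.ofFinite _
  letI : Fintype ((P : Subgroup G) →* ℂˣ) := Fintype.ofFinite _
  obtain ⟨M, hM⟩ := exists_isPModular Nat.prime_two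
  have := isPrime_of_modular hM
  have hcomm : ∀ x ∈ (P : Subgroup G), ∀ y ∈ (P : Subgroup G), x * y = y * x :=
    fun x hx y hy => comm_of_e e hx hy
  have hab : IsMulCommutative P := ⟨⟨fun a b => Subtype.ext (hcomm a a.2 b b.2)⟩⟩
  have hcard := card_P P e
  have h4 : 2 ^ 2 ≤ 2 ^ m := Nat.pow_le_pow_right (by norm_num) hm
  have h16le : 16 ≤ Nat.card (P : Subgroup G) := by
    rw [hcard]
    nlinarith
  have h16 : 16 ∣ Nat.card (P : Subgroup G) := by
    rw [hcard]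
    have h5 : (2 : ℕ) ^ 2 ∣ 2 ^ m := pow_dvd_pow 2 hm
    exact mul_dvd_mul h5 h5
  have hfrob := (homocyclic_index P e (by omega)).2 (by rw [h3]; norm_num)
  obtain ⟨r, hr, hrm, hN, ⟨D⟩⟩ := exists_brauerData_of_sylow (M := M) hM P hab
    (by
      show Nat.card (P : Subgroup G) ≠ 1
      omega) 3 (by norm_num)
    (by
      show 3 + 1 < Nat.card (P : Subgroup G)
      omega) h3 hfrob
  have hr5 : 5 ≤ r := by
    have h5 : r * 3 = Nat.card (P : Subgroup G) - 1 := hrm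
    omega
  obtain ⟨u, v, hu1, hu2, hv2⟩ := exists_u_v P e hm
  obtain ⟨ζ, hζ1, hζB, hζdeg, hζval⟩ := exists_linear D hN hr5 h16 hu1 hu2 hv2
  have hζc := irr_isCharacter ζ
  haveI hG₁ : (charKer (ζ : G → ℂ)).Normal := charKer_normal hζc
  have hmem : ∀ g, g ∈ charKer (ζ : G → ℂ) ↔ (ζ : G → ℂ) g = 1 := by
    intro g
    rw [mem_charKer hζc, hζdeg]
  have hle : (P : Subgroup G) ≤ charKer (ζ : G → ℂ) := by
    intro y hy
    by_cases hy1 : y = 1
    · rw [hy1]; exact Subgroup.one_mem _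
    · rw [hmem]
      exact hζval ⟨y, hy⟩ (fun h => hy1 (congrArg Subtype.val h))
  have hu1' : (u : G) ≠ 1 := fun h => hu1 (Subtype.ext h)
  have huord : ∃ k, orderOf (u : G) = 2 ^ k := by
    obtain ⟨k, hk⟩ := (IsPGroup.iff_orderOf.mp P.isPGroup') u
    exact ⟨k, by rw [← hk, Subgroup.orderOf_coe]⟩
  have hCG : centralizer ((P : Subgroup G) : Set G) ≤ charKer (ζ : G → ℂ) := by
    intro c hc
    obtain ⟨α, hα⟩ := exists_isPExp G 2
    obtain ⟨c', hcc, hcomm', ⟨k, hk⟩, hreg⟩ := hα.isPPart c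
    have hc2C : c ^ α ∈ centralizer ((P : Subgroup G) : Set G) := Subgroup.pow_mem _ hc _
    have hc'C : c' ∈ centralizer ((P : Subgroup G) : Set G) := by
      have h5 : c' = (c ^ α)⁻¹ * c := eq_inv_mul_of_mul_eq hcc
      rw [h5]
      exact Subgroup.mul_mem _ (Subgroup.inv_mem _ hc2C) hc
    have hc2P : c ^ α ∈ (P : Subgroup G) := by
      have hZ : IsPGroup 2 (zpowers (c ^ α)) := isPGroup_zpowers (p := 2) ⟨k, hk⟩
      have h5 := IsPGroup.inf_normalizer_sylow hZ P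
      have h6 : c ^ α ∈ zpowers (c ^ α) ⊓ normalizer ((P : Subgroup G) : Set G) :=
        ⟨mem_zpowers _, C_le_N P e hc2C⟩
      have h6' : c ^ α ∈ zpowers (c ^ α) ⊓ normalizer (P : Set G) := h6
      rw [h5] at h6'
      exact h6'.2
    have hc'1 : u.1 * c' ∈ charKer (ζ : G → ℂ) := by
      rw [hmem]
      have hpart : IsPPart 2 (u.1 * c') u.1 := ⟨c', rfl,
        (Subgroup.mem_centralizer_iff.mp hc'C u.1 u.2), huord, hreg⟩
      rw [D.setup.apply_eq_of_isPPart hpart u.2 hu1' hζB]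
      exact hζval u hu1
    have hc'2 : c' ∈ charKer (ζ : G → ℂ) := by
      have h5 := Subgroup.mul_mem _ (Subgroup.inv_mem _ (hle u.2)) hc'1
      have h6 : u.1⁻¹ * (u.1 * c') = c' := by group
      rwa [h6] at h5
    rw [← hcc]
    exact Subgroup.mul_mem _ (hle hc2P) hc'2
  have hNot : ¬ normalizer ((P : Subgroup G) : Set G) ≤ charKer (ζ : G → ℂ) := by
    intro hN'
    let P' : Sylow 2 (charKer (ζ : G → ℂ)) := P.subtype hle
    have h5 := Sylow.normalizer_sup_eq_top P'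
    have h6 : ((P' : Subgroup (charKer (ζ : G → ℂ))).map (charKer (ζ : G → ℂ)).subtype) = (P : Subgroup G) := by
      simp only [P', Sylow.coe_subtype]
      exact Subgroup.map_subgroupOf_eq_of_le hle
    rw [h6, sup_eq_right.mpr hN'] at h5
    apply hζ1
    apply Subtype.ext
    funext g
    have h7 : g ∈ charKer (ζ : G → ℂ) := by rw [h5]; trivial
    rw [(hmem g).mp h7]
    rfl
  have hinf : ∀ x ∈ charKer (ζ : G → ℂ), x ∈ normalizer ((P : Subgroup G) : Set G) →
      x ∈ centralizer ((P : Subgroup G) : Set G) := by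
    intro x hxG hxN
    by_contra hxC
    apply hNot
    set C := centralizer ((P : Subgroup G) : Set G) with hCdef
    set N := normalizer ((P : Subgroup G) : Set G) with hNdef
    have hCH : C ≤ C ⊔ zpowers x := le_sup_left
    have hHN : C ⊔ zpowers x ≤ N := sup_le (C_le_N P e) ((zpowers_le).mpr hxN)
    have h5 := Subgroup.relIndex_mul_relIndex C (C ⊔ zpowers x) N hCH hHN
    rw [h3] at h5
    have hne : C.relIndex (C ⊔ zpowers x) ≠ 1 := by
      intro h
      have h6 := Subgroup.relIndex_eq_one.mp h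
      exact hxC (h6 (Subgroup.mem_sup_right (mem_zpowers x)))
    have h7 : (C ⊔ zpowers x).relIndex N = 1 := by
      have h8 : C.relIndex (C ⊔ zpowers x) ∣ 3 := ⟨_, h5.symm⟩
      rcases (Nat.dvd_prime Nat.prime_three).mp h8 with h9 | h9
      · exact absurd h9 hne
      · rw [h9] at h5
        omega
    have h8 := Subgroup.relIndex_eq_one.mp h7
    exact h8.trans (sup_le hCG ((zpowers_le).mpr hxG))
  have hfinal := eq_sylow_of_normal P hle hinf hO
  rw [← hfinal]
  exact hG₁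

include e in
theorem homocyclic_main (hm : 2 ≤ m) (hO : ∀ N : Subgroup G, N.Normal → Odd (Nat.card N) → N = ⊥) :
    (P : Subgroup G).Normal ∧ centralizer ((P : Subgroup G) : Set G) = (P : Subgroup G) ∧
      ((P : Subgroup G).index = 1 ∨ (P : Subgroup G).index = 3) := by
  have hidx := relIndex_one_or_three P e (by omega)
  have hn : (P : Subgroup G).Normal := by
    rcases hidx with h1 | h3
    · have hle : normalizer ((P : Subgroup G) : Set G) ≤ centralizer ((P : Subgroup G) : Set G) :=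
        Subgroup.relIndex_eq_one.mp h1
      have h2 := eq_sylow_of_normal (H := ⊤) P le_top (fun x _ hx => hle hx) hO
      rw [← h2]
      infer_instance
    · exact normal_of_three P e hm hO h3
  have hc : centralizer ((P : Subgroup G) : Set G) = (P : Subgroup G) :=
    eq_sylow_of_normal P (P_le_C P e) (fun x hx _ => hx) hO
  refine ⟨hn, hc, ?_⟩
  have hN : normalizer ((P : Subgroup G) : Set G) = ⊤ := Subgroup.normalizer_eq_top_iff.mpr hn
  rw [hc, hN, Subgroup.relIndex_top_right] at hidx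
  exact hidx

end Final

end Cfsg.Agent.Lib.Blocks.Homocyclic2
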