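import Cfsg.Agent.Lib.Blocks.SubCount

/-!
# Counting involutions in a group with Klein four Sylow 2-subgroups
-/

set_option autoImplicit false
set_option linter.unusedSectionVars false

namespace Cfsg.Agent.Lib.Blocks

open Cfsg Cfsg.Agent.Lib.Char

universe u

section Orbit

variable {G : Type u} [Group G] [Finite G]

/-- Orbit-stabilizer for conjugation by a subgroup. -/
theorem card_conj_orbit_mul (H : Subgroup G) (g : G) :
    Nat.card {x : G // ∃ c ∈ H, x = c * g * c⁻¹} *
      Nat.card (H ⊓ Subgroup.centralizer ({g} : Set G) : Subgroup G) = Nat.card H := by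
  classical
  letI : MulAction H G :=
    { smul := fun c x => (c : G) * x * (c : G)⁻¹
      one_smul := fun x => by
        show ((1 : H) : G) * x * ((1 : H) : G)⁻¹ = x
        simp
      mul_smul := fun r s x => by
        show ((r * s : H) : G) * x * ((r * s : H) : G)⁻¹ =
          (r : G) * ((s : G) * x * (s : G)⁻¹) * (r : G)⁻¹
        simp only [Subgroup.coe_mul]
        group }
  have hsmul : ∀ (c : H) (x : G), c • x = (c : G) * x * (c : G)⁻¹ := fun _ _ => rfl
  have h1 := Subgroup.index_mul_card (MulAction.stabilizer H g)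
  have h2 : (MulAction.stabilizer H g).index = Nat.card {x : G // ∃ c ∈ H, x = c * g * c⁻¹} := by
    have h3 := Nat.card_congr (MulAction.orbitEquivQuotientStabilizer H g)
    rw [Subgroup.index, ← h3]
    refine Nat.card_congr (Equiv.subtypeEquivRight fun x => ?_)
    rw [MulAction.mem_orbit_iff]
    constructor
    · rintro ⟨c, rfl⟩
      exact ⟨c, c.2, hsmul c g⟩
    · rintro ⟨c, hc, rfl⟩
      exact ⟨⟨c, hc⟩, hsmul _ g⟩
  have h4 : Nat.card (H ⊓ Subgroup.centralizer ({g} : Set G) : Subgroup G) =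
      Nat.card (MulAction.stabilizer H g) := by
    refine Nat.card_congr
      { toFun := fun x => ⟨⟨x, x.2.1⟩, ?_⟩
        invFun := fun x => ⟨x.1, x.1.2, ?_⟩
        left_inv := fun x => rfl
        right_inv := fun x => rfl }
    · rw [MulAction.mem_stabilizer_iff, hsmul]
      have h5 : (x : G) * g = g * (x : G) := Subgroup.mem_centralizer_singleton_iff.mp x.2.2
      show (x : G) * g * (x : G)⁻¹ = g
      rw [h5]
      group
    · have h5 : ((x.1 : G)) * g * (x.1 : G)⁻¹ = g := x.2
      exact Subgroup.mem_centralizer_singleton_iff.mpr (mul_inv_eq_iff_eq_mul.mp h5)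
  rw [h4, ← h2]
  exact h1

/-- Conjugate centralizers. -/
theorem conjS_centralizer_singleton (c x : G) :
    Cfsg.Agent.Lib.Blocks.conjS c (Subgroup.centralizer ({x} : Set G)) =
      Subgroup.centralizer ({c * x * c⁻¹} : Set G) := by
  ext z
  rw [mem_conjS, Subgroup.mem_centralizer_singleton_iff, Subgroup.mem_centralizer_singleton_iff]
  constructor
  · intro h
    have h2 : z = c * (c⁻¹ * z * c) * c⁻¹ := by group
    rw [h2]
    calc c * (c⁻¹ * z * c) * c⁻¹ * (c * x * c⁻¹) = c * (c⁻¹ * z * c * x) * c⁻¹ := by group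
      _ = c * (x * (c⁻¹ * z * c)) * c⁻¹ := by rw [h]
      _ = c * x * c⁻¹ * (c * (c⁻¹ * z * c) * c⁻¹) := by group
  · intro h
    calc c⁻¹ * z * c * x = c⁻¹ * (z * (c * x * c⁻¹)) * c := by group
      _ = c⁻¹ * (c * x * c⁻¹ * z) * c := by rw [h]
      _ = x * (c⁻¹ * z * c) := by group

theorem card_centralizer_of_isConj {x y : G} (h : IsConj x y) :
    Nat.card (Subgroup.centralizer ({x} : Set G)) = Nat.card (Subgroup.centralizer ({y} : Set G)) := by
  obtain ⟨c, rfl⟩ := isConj_iff.mp h
  rw [← conjS_centralizer_singleton, card_conjS]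

end Orbit

section Sylow

variable {G : Type u} [Group G] [Finite G] 

/-- An automorphism of a Sylow `2`-subgroup by an element whose square centralizes it is trivial. -/
theorem mem_centralizer_of_sq_mem {P : Sylow 2 G}
    (hcomm : ∀ x ∈ (P : Subgroup G), ∀ y ∈ (P : Subgroup G), x * y = y * x) {g : G}
    (hg : g ∈ Subgroup.normalizer ((P : Subgroup G) : Set G))
    (hg2 : g ^ 2 ∈ Subgroup.centralizer ((P : Subgroup G) : Set G)) :
    g ∈ Subgroup.centralizer ((P : Subgroup G) : Set G) := by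
  classical
  set N := Subgroup.normalizer ((P : Subgroup G) : Set G) with hN
  have hPN : (P : Subgroup G) ≤ N := Subgroup.le_normalizer
  set Q : Subgroup N := (P : Subgroup G).subgroupOf N with hQ
  haveI hQn : Q.Normal := Subgroup.normal_in_normalizer
  have hr : Odd Q.index := by
    rw [← Nat.not_even_iff_odd, even_iff_two_dvd]
    intro h
    apply P.not_dvd_index
    have h1 := Subgroup.relIndex_mul_index hPN
    rw [← h1]
    exact Dvd.dvd.mul_right h _
  obtain ⟨s, hs⟩ := hr
  have h1 : (⟨g, hg⟩ : N) ^ Q.index ∈ Q := Subgroup.pow_index_mem Q _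
  have h2 : g ^ Q.index ∈ (P : Subgroup G) := by
    have := Subgroup.mem_subgroupOf.mp h1
    simpa using this
  have h3 : g ^ Q.index ∈ Subgroup.centralizer ((P : Subgroup G) : Set G) := by
    rw [Subgroup.mem_centralizer_iff]
    intro y hy
    exact hcomm y hy _ h2
  have h4 : g = g ^ Q.index * ((g ^ 2) ^ s)⁻¹ := by
    rw [hs, ← pow_mul, pow_succ', mul_assoc, mul_inv_cancel, mul_one]
  rw [h4]
  exact Subgroup.mul_mem _ h3 (Subgroup.inv_mem _ (Subgroup.pow_mem _ hg2 s))

end Sylow

section Count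

variable {G : Type u} [Group G] [Finite G] {P : Sylow 2 G}

theorem klein_mem_cases
    (hcard : Nat.card (P : Subgroup G) = 4) {u t : G} (h2 : u ^ 2 = 1) (huQ : u ∈ (P : Subgroup G))
    (htQ : t ∈ (P : Subgroup G)) (hu1 : u ≠ 1) (ht1 : t ≠ 1) (htu : t ≠ u) :
    ∀ c ∈ (P : Subgroup G), c = 1 ∨ c = u ∨ c = t ∨ c = t * u := by
  classical
  letI : Fintype (P : Subgroup G) := Fintype.ofFinite _
  let A : Finset (P : Subgroup G) := {1, ⟨u, huQ⟩, ⟨t, htQ⟩, ⟨t * u, (P : Subgroup G).mul_mem htQ huQ⟩}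
  have hne1 : (1 : (P : Subgroup G)) ≠ ⟨u, huQ⟩ := fun e => hu1 (congrArg Subtype.val e).symm
  have hne2 : (1 : (P : Subgroup G)) ≠ ⟨t, htQ⟩ := fun e => ht1 (congrArg Subtype.val e).symm
  have hne3 : (1 : (P : Subgroup G)) ≠ ⟨t * u, (P : Subgroup G).mul_mem htQ huQ⟩ := by
    intro e
    have e' : (1 : G) = t * u := congrArg Subtype.val e
    apply htu
    calc t = t * (u * u) * u⁻¹ * u := by rw [show u * u = u ^ 2 by rw [pow_two], h2]; group
      _ = (t * u) * u * u⁻¹ * u := by group
      _ = u := by rw [← e']; group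
  have hne4 : (⟨u, huQ⟩ : (P : Subgroup G)) ≠ ⟨t, htQ⟩ := fun e => htu (congrArg Subtype.val e).symm
  have hne5 : (⟨u, huQ⟩ : (P : Subgroup G)) ≠ ⟨t * u, (P : Subgroup G).mul_mem htQ huQ⟩ := by
    intro e
    have e' : u = t * u := congrArg Subtype.val e
    exact ht1 (by simpa using e'.symm)
  have hne6 : (⟨t, htQ⟩ : (P : Subgroup G)) ≠ ⟨t * u, (P : Subgroup G).mul_mem htQ huQ⟩ := by
    intro e
    have e' : t = t * u := congrArg Subtype.val e
    exact hu1 (by simpa using e'.symm)
  have hAcard : A.card = 4 := by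
    simp only [A]
    rw [Finset.card_insert_of_notMem, Finset.card_insert_of_notMem, Finset.card_insert_of_notMem,
      Finset.card_singleton]
    · simpa using hne6
    · simp only [Finset.mem_insert, Finset.mem_singleton, not_or]
      exact ⟨hne4, hne5⟩
    · simp only [Finset.mem_insert, Finset.mem_singleton, not_or]
      exact ⟨hne1, hne2, hne3⟩
  have hA : A = Finset.univ := by
    apply Finset.eq_univ_of_card
    rw [hAcard, ← hcard, Nat.card_eq_fintype_card]
  intro c hc
  have h1 : (⟨c, hc⟩ : (P : Subgroup G)) ∈ A := by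
    rw [hA]
    exact Finset.mem_univ _
  simp only [A, Finset.mem_insert, Finset.mem_singleton] at h1
  rcases h1 with h1 | h1 | h1 | h1
  · exact Or.inl (congrArg Subtype.val h1)
  · exact Or.inr (Or.inl (congrArg Subtype.val h1))
  · exact Or.inr (Or.inr (Or.inl (congrArg Subtype.val h1)))
  · exact Or.inr (Or.inr (Or.inr (congrArg Subtype.val h1)))

theorem centralizer_inf_eq
    (hcard : Nat.card (P : Subgroup G) = 4) {u t : G} (hu2 : u ^ 2 = 1) (huQ : u ∈ (P : Subgroup G))
    (htQ : t ∈ (P : Subgroup G)) (hu1 : u ≠ 1) (ht1 : t ≠ 1) (htu : t ≠ u) :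
    Subgroup.centralizer ({u} : Set G) ⊓ Subgroup.centralizer ({t} : Set G) =
      Subgroup.centralizer ((P : Subgroup G) : Set G) := by
  ext x
  rw [Subgroup.mem_inf, Subgroup.mem_centralizer_singleton_iff, Subgroup.mem_centralizer_singleton_iff,
    Subgroup.mem_centralizer_iff]
  constructor
  · rintro ⟨h1, h2⟩ c hc
    rcases klein_mem_cases hcard hu2 huQ htQ hu1 ht1 htu c hc with rfl | rfl | rfl | rfl
    · simp
    · exact h1.symm
    · exact h2.symm
    · exact ((Commute.mul_right (show Commute x t from h2) (show Commute x u from h1))).eq.symm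
  · intro h
    exact ⟨(h u huQ).symm, (h t htQ).symm⟩

theorem exists_conj_into_sylow (hcomm : ∀ x ∈ (P : Subgroup G), ∀ y ∈ (P : Subgroup G), x * y = y * x)
    {J z : G} (hJ : J ∈ (P : Subgroup G)) (hzC : z * J = J * z) (hz2 : z ^ 2 = 1) :
    ∃ c, c * J = J * c ∧ c * z * c⁻¹ ∈ (P : Subgroup G) := by
  have hPC : (P : Subgroup G) ≤ Subgroup.centralizer ({J} : Set G) := by
    intro x hx
    exact Subgroup.mem_centralizer_singleton_iff.mpr (hcomm x hx J hJ)
  have hSyl : IsSylowIn 2 (Subgroup.centralizer ({J} : Set G)) (P : Subgroup G) :=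
    isSylowIn_of_maximal hPC P.isPGroup' (fun Q hQ _ hPQ => P.is_maximal' hQ hPQ)
  letI : Fintype G := Fintype.ofFinite G
  obtain ⟨k, -, hk⟩ := (Nat.dvd_prime_pow Nat.prime_two (i := orderOf z) (m := 1)).mp
    (by rw [pow_one]; exact orderOf_dvd_of_pow_eq_one hz2)
  obtain ⟨E, hE, hzE⟩ := exists_isSylowIn_ge (p := 2) (isPGroup_zpowers ⟨k, hk⟩)
    (C := Subgroup.centralizer ({J} : Set G)) (by
      rw [Subgroup.zpowers_le]
      exact Subgroup.mem_centralizer_singleton_iff.mpr hzC)
  obtain ⟨c, hc, hcP⟩ := hE.conj_eq hSyl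
  refine ⟨c, Subgroup.mem_centralizer_singleton_iff.mp hc, ?_⟩
  rw [hcP]
  exact conj_mem_conjS (hzE (Subgroup.mem_zpowers z))

theorem card_inf_centralizer_of_commuting (hP : IsKleinFour (P : Subgroup G)) {J z : G}
    (hJ : J ∈ (P : Subgroup G)) (hJ1 : J ≠ 1) (hzC : z * J = J * z) (hz2 : z ^ 2 = 1) (hz1 : z ≠ 1)
    (hzJ : z ≠ J) :
    Nat.card (Subgroup.centralizer ({J} : Set G) ⊓ Subgroup.centralizer ({z} : Set G) : Subgroup G) =
      Nat.card (Subgroup.centralizer ((P : Subgroup G) : Set G)) := by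
  obtain ⟨hsq, hcomm, hcard⟩ := sylow_klein_props P hP P
  have hJ2 := hsq J hJ
  obtain ⟨c, hc, hcz⟩ := exists_conj_into_sylow hcomm hJ hzC hz2
  have hcJ : c * J * c⁻¹ = J := by rw [hc]; group
  have hz'1 : c * z * c⁻¹ ≠ 1 := by
    intro h
    apply hz1
    have : z = c⁻¹ * (c * z * c⁻¹) * c := by group
    rw [this, h]
    group
  have hz'J : c * z * c⁻¹ ≠ J := by
    intro h
    apply hzJ
    have h2 : z = c⁻¹ * (c * z * c⁻¹) * c := by group
    rw [h2, h]
    calc c⁻¹ * J * c = c⁻¹ * (J * c) := by group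
      _ = c⁻¹ * (c * J) := by rw [hc]
      _ = J := by group
  have h3 : Cfsg.Agent.Lib.Blocks.conjS c (Subgroup.centralizer ({J} : Set G) ⊓ Subgroup.centralizer ({z} : Set G)) =
      Subgroup.centralizer ({J} : Set G) ⊓ Subgroup.centralizer ({c * z * c⁻¹} : Set G) := by
    have e1 := conjS_centralizer_singleton c J
    rw [hcJ] at e1
    have e2 := conjS_centralizer_singleton c z
    have e3 : Cfsg.Agent.Lib.Blocks.conjS c (Subgroup.centralizer ({J} : Set G) ⊓ Subgroup.centralizer ({z} : Set G)) =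
        Cfsg.Agent.Lib.Blocks.conjS c (Subgroup.centralizer ({J} : Set G)) ⊓
          Cfsg.Agent.Lib.Blocks.conjS c (Subgroup.centralizer ({z} : Set G)) := by
      ext x
      simp only [mem_conjS, Subgroup.mem_inf]
    rw [e3, e1, e2]
  rw [← centralizer_inf_eq hcard hJ2 hJ hcz hJ1 hz'1 hz'J, ← h3, card_conjS]

/-- Commutators in the centralizer of an involution have odd order. -/
theorem not_two_dvd_orderOf_commutator (hP : IsKleinFour (P : Subgroup G)) {z c d : G}
    (hz : orderOf z = 2) (hc : c ∈ Subgroup.centralizer ({z} : Set G))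
    (hd : d ∈ Subgroup.centralizer ({z} : Set G)) : ¬ 2 ∣ orderOf (c * d * c⁻¹ * d⁻¹) := by
  classical
  obtain ⟨⟨k, hk⟩, Q, hQ⟩ := exists_index_core_centralizer P hP hz
  have hcop := Cfsg.Agent.Lib.Basic.pPrimeCore_coprime (G := (Subgroup.centralizer ({z} : Set G))) 2
  have hnd : ¬ 2 ∣ Nat.card (pPrimeCore 2 (Subgroup.centralizer ({z} : Set G))) := by
    intro h
    have := Nat.Coprime.eq_one_of_dvd hcop.symm h
    omega
  have h3 : (2 : ℕ) ^ k = 2 ^ 2 := by
    have h4 := Subgroup.index_mul_card (pPrimeCore 2 (Subgroup.centralizer ({z} : Set G)))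
    rw [hk] at h4
    have h5 : (Nat.card (Subgroup.centralizer ({z} : Set G))).factorization 2 = k := by
      rw [← h4, Nat.factorization_mul (pow_ne_zero _ (by norm_num)) Nat.card_pos.ne',
        Nat.factorization_pow, Finsupp.add_apply, Finsupp.smul_apply, Nat.prime_two.factorization_self,
        Nat.factorization_eq_zero_of_not_dvd hnd]
      simp
    have h6 := Sylow.card_eq_multiplicity Q
    rw [h5, hQ] at h6
    rw [← h6]
    norm_num
  haveI hKn : (pPrimeCore 2 (Subgroup.centralizer ({z} : Set G))).Normal := Cfsg.Agent.Lib.Basic.pPrimeCore_normal 2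
  have hquot : Nat.card ((Subgroup.centralizer ({z} : Set G)) ⧸ pPrimeCore 2 (Subgroup.centralizer ({z} : Set G))) = 2 ^ 2 := by
    rw [← h3, ← hk]
    rfl
  haveI : Fact (Nat.Prime 2) := ⟨Nat.prime_two⟩
  haveI := IsPGroup.isMulCommutative_of_card_eq_prime_sq hquot
  set π := QuotientGroup.mk' (pPrimeCore 2 (Subgroup.centralizer ({z} : Set G))) with hπ
  have h1 : (⟨c, hc⟩ : (Subgroup.centralizer ({z} : Set G))) * ⟨d, hd⟩ * (⟨c, hc⟩ : (Subgroup.centralizer ({z} : Set G)))⁻¹ * (⟨d, hd⟩ : (Subgroup.centralizer ({z} : Set G)))⁻¹ ∈ pPrimeCore 2 (Subgroup.centralizer ({z} : Set G)) := by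
    rw [← QuotientGroup.eq_one_iff]
    have h2 : π ⟨c, hc⟩ * π ⟨d, hd⟩ = π ⟨d, hd⟩ * π ⟨c, hc⟩ := mul_comm' _ _
    show π _ = 1
    simp only [map_mul, map_inv]
    rw [h2]
    group
  have h2 : orderOf ((⟨c, hc⟩ : (Subgroup.centralizer ({z} : Set G))) * ⟨d, hd⟩ * (⟨c, hc⟩ : (Subgroup.centralizer ({z} : Set G)))⁻¹ * (⟨d, hd⟩ : (Subgroup.centralizer ({z} : Set G)))⁻¹) ∣ Nat.card (pPrimeCore 2 (Subgroup.centralizer ({z} : Set G))) :=
    Subgroup.orderOf_dvd_natCard _ h1
  have h3 : orderOf ((⟨c, hc⟩ : (Subgroup.centralizer ({z} : Set G))) * ⟨d, hd⟩ * (⟨c, hc⟩ : (Subgroup.centralizer ({z} : Set G)))⁻¹ * (⟨d, hd⟩ : (Subgroup.centralizer ({z} : Set G)))⁻¹) =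
      orderOf (c * d * c⁻¹ * d⁻¹) := by
    rw [← Subgroup.orderOf_coe]
    rfl
  rw [← h3]
  exact fun h => hnd (h.trans h2)

/-- An element of odd order inverted by an involution `t`: `t y` is conjugate to `t`. -/
theorem exists_conj_of_inverted {t y : G} (ht : t * y * t⁻¹ = y⁻¹) (hy : ¬ 2 ∣ orderOf y) :
    ∃ e : ℕ, (y ^ e) * t * (y ^ e)⁻¹ = y * t ∧ (y ^ e)⁻¹ * t * y ^ e = t * y := by
  have hodd : Odd (orderOf y) := by
    rwa [← Nat.not_even_iff_odd, even_iff_two_dvd]
  obtain ⟨s, hs⟩ := hodd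
  have h2 : y ^ (2 * (s + 1)) = y := by
    have h3 : 2 * (s + 1) = orderOf y + 1 := by omega
    rw [h3, pow_succ, pow_orderOf_eq_one, one_mul]
  have h4 : ∀ e : ℕ, t * y ^ e * t⁻¹ = (y ^ e)⁻¹ := by
    intro e
    rw [← conj_pow, ht, inv_pow]
  have h5 : ∀ e : ℕ, t * y ^ e = (y ^ e)⁻¹ * t := by
    intro e
    rw [← h4 e]
    group
  have h6 : ∀ e : ℕ, t * (y ^ e)⁻¹ = y ^ e * t := by
    intro e
    have h7 := h5 e
    have h8 : t * (y ^ e)⁻¹ * t⁻¹ = y ^ e := by
      have h9 := h4 e
      calc t * (y ^ e)⁻¹ * t⁻¹ = (t * y ^ e * t⁻¹)⁻¹ := by group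
        _ = y ^ e := by rw [h9, inv_inv]
    exact mul_inv_eq_iff_eq_mul.mp h8
  have h7 : y ^ (s + 1) * y ^ (s + 1) = y := by
    rw [← pow_add, ← two_mul, h2]
  refine ⟨s + 1, ?_, ?_⟩
  · calc y ^ (s + 1) * t * (y ^ (s + 1))⁻¹ = y ^ (s + 1) * (t * (y ^ (s + 1))⁻¹) := by group
      _ = y ^ (s + 1) * (y ^ (s + 1) * t) := by rw [h6]
      _ = (y ^ (s + 1) * y ^ (s + 1)) * t := by group
      _ = y * t := by rw [h7]
  · calc (y ^ (s + 1))⁻¹ * t * y ^ (s + 1) = (y ^ (s + 1))⁻¹ * (t * y ^ (s + 1)) := by group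
      _ = (y ^ (s + 1))⁻¹ * ((y ^ (s + 1))⁻¹ * t) := by rw [h5]
      _ = (y ^ (s + 1) * y ^ (s + 1))⁻¹ * t := by group
      _ = y⁻¹ * t := by rw [h7]
      _ = t * y := by
        rw [← ht]
        have : t⁻¹ * t = 1 := inv_mul_cancel t
        group

/-- The structure forced by the absence of a normal complement. -/
theorem klein_of_no_complement (g₀ : ℕ) (hg₀ : Odd g₀) (hG : Nat.card G = 4 * g₀)
    (hnc : ¬ ∃ N : Subgroup G, N.Normal ∧ Nat.card N = g₀) (P : Sylow 2 G) {J : G}
    (hJ : J ∈ (P : Subgroup G)) (hJ2 : orderOf J = 2) :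
    IsKleinFour (P : Subgroup G) ∧ ∀ s t : G, orderOf s = 2 → orderOf t = 2 → IsConj s t := by
  classical
  haveI : Fact (Nat.Prime 2) := ⟨Nat.prime_two⟩
  have hg₀2 : ¬ 2 ∣ g₀ := by
    rw [← even_iff_two_dvd, Nat.not_even_iff_odd]
    exact hg₀
  have hfac : (Nat.card G).factorization 2 = 2 := by
    rw [hG, Nat.factorization_mul (by norm_num) (by rintro rfl; simp at hg₀),
      Finsupp.add_apply, Nat.factorization_eq_zero_of_not_dvd hg₀2,
      show (4 : ℕ) = 2 ^ 2 by norm_num, Nat.factorization_pow, Finsupp.smul_apply,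
      Nat.prime_two.factorization_self]
    rfl
  have hcardS : ∀ S : Sylow 2 G, Nat.card (S : Subgroup G) = 4 := by
    intro S
    rw [Sylow.card_eq_multiplicity, hfac]
    rfl
  have hcard := hcardS P
  haveI hcommP : IsMulCommutative (P : Subgroup G) :=
    IsPGroup.isMulCommutative_of_card_eq_prime_sq (p := 2) (by rw [hcard]; norm_num)
  have hcomm : ∀ x ∈ (P : Subgroup G), ∀ y ∈ (P : Subgroup G), x * y = y * x := by
    intro x hx y hy
    have := mul_comm' (⟨x, hx⟩ : (P : Subgroup G)) ⟨y, hy⟩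
    exact congrArg Subtype.val this
  have hJsq : J ^ 2 = 1 := by rw [← hJ2]; exact pow_orderOf_eq_one J
  have hJ1 : J ≠ 1 := by
    rintro rfl
    simp at hJ2
  have hJJ : J * J = 1 := by rw [← pow_two, hJsq]
  have hcomplement : ¬ HasNormalPComplement 2 G := by
    rintro ⟨P', N, hN, hc⟩
    apply hnc
    refine ⟨N, hN, ?_⟩
    have h1 := Subgroup.index_mul_card (P' : Subgroup G)
    rw [hc.index_eq_card, hcardS, hG] at h1
    omega
  have hne : ∃ g ∈ Subgroup.normalizer ((P : Subgroup G) : Set G), g * J * g⁻¹ ≠ J := by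
    by_contra hcon
    push Not at hcon
    apply hcomplement
    apply Cfsg.Agent.Lib.Transfer.hasNormalPComplement_of_normalizer_le P
    intro g hg
    have hgJ := hcon g hg
    -- another element
    obtain ⟨a, haP, ha1, haJ⟩ : ∃ a ∈ (P : Subgroup G), a ≠ 1 ∧ a ≠ J := by
      by_contra hno
      push Not at hno
      have h1 : Nat.card (P : Subgroup G) ≤ 2 := by
        letI : Fintype (P : Subgroup G) := Fintype.ofFinite _
        rw [Nat.card_eq_fintype_card]
        have h2 : (Finset.univ : Finset (P : Subgroup G)) ⊆ {1, ⟨J, hJ⟩} := by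
          intro x _
          by_cases hx : (x : G) = 1
          · simp [Subtype.ext_iff, hx]
          · simp [Subtype.ext_iff, hno x x.2 hx]
        exact (Finset.card_le_card h2).trans Finset.card_le_two
      omega
    have hgP : ∀ x ∈ (P : Subgroup G), g * x * g⁻¹ ∈ (P : Subgroup G) := by
      intro x hx
      exact (Subgroup.mem_normalizer_iff.mp hg x).mp hx
    have hcen : Subgroup.centralizer ({J} : Set G) ⊓ Subgroup.centralizer ({a} : Set G) =
        Subgroup.centralizer ((P : Subgroup G) : Set G) :=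
      centralizer_inf_eq hcard hJsq hJ haP hJ1 ha1 haJ
    have hgJ' : g ∈ Subgroup.centralizer ({J} : Set G) :=
      Subgroup.mem_centralizer_singleton_iff.mpr (mul_inv_eq_iff_eq_mul.mp hgJ)
    have hcase := klein_mem_cases hcard hJsq hJ haP hJ1 ha1 haJ _ (hgP a haP)
    have hga1 : g * a * g⁻¹ ≠ 1 := by
      intro h
      apply ha1
      have : a = g⁻¹ * (g * a * g⁻¹) * g := by group
      rw [this, h]
      group
    have hgaJ : g * a * g⁻¹ ≠ J := by
      intro h
      apply haJ
      have h2 : g * a * g⁻¹ = g * J * g⁻¹ := by rw [h, hgJ]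
      have h3 : g * a = g * J := by
        have := congrArg (fun t => t * g) h2
        simpa using this
      exact mul_left_cancel h3
    rcases hcase with h | h | h | h
    · exact absurd h hga1
    · exact absurd h hgaJ
    · rw [← hcen]
      exact ⟨hgJ', Subgroup.mem_centralizer_singleton_iff.mpr (mul_inv_eq_iff_eq_mul.mp h)⟩
    · refine mem_centralizer_of_sq_mem hcomm hg ?_
      rw [← hcen]
      refine ⟨Subgroup.pow_mem _ hgJ' 2, Subgroup.mem_centralizer_singleton_iff.mpr ?_⟩
      have h3 : g * (a * J) * g⁻¹ = a * J * J := by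
        calc g * (a * J) * g⁻¹ = (g * a * g⁻¹) * (g * J * g⁻¹) := by group
          _ = a * J * J := by rw [h, hgJ]
      have h4 : g ^ 2 * a * (g ^ 2)⁻¹ = a := by
        calc g ^ 2 * a * (g ^ 2)⁻¹ = g * (g * a * g⁻¹) * g⁻¹ := by simp only [pow_two]; group
          _ = g * (a * J) * g⁻¹ := by rw [h]
          _ = a * J * J := h3
          _ = a := by rw [mul_assoc, hJJ, mul_one]
      exact mul_inv_eq_iff_eq_mul.mp h4
  obtain ⟨g, hg, hgJ⟩ := hne
  have hgP : ∀ x ∈ (P : Subgroup G), g * x * g⁻¹ ∈ (P : Subgroup G) := by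
    intro x hx
    exact (Subgroup.mem_normalizer_iff.mp hg x).mp hx
  set J' := g * J * g⁻¹ with hJ'
  have hJ'P : J' ∈ (P : Subgroup G) := hgP J hJ
  have hJ'1 : J' ≠ 1 := by
    intro h
    apply hJ1
    have : J = g⁻¹ * J' * g := by rw [hJ']; group
    rw [this, h]
    group
  have hJ'sq : J' ^ 2 = 1 := by
    rw [hJ', conj_pow, hJsq]
    group
  have hcase := klein_mem_cases hcard hJsq hJ hJ'P hJ1 hJ'1 hgJ
  have hcase2 := hcase _ (hgP J' hJ'P)
  have hsqP : ∀ x ∈ (P : Subgroup G), x ^ 2 = 1 := by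
    intro x hx
    rcases hcase x hx with rfl | rfl | rfl | rfl
    · simp
    · exact hJsq
    · exact hJ'sq
    · rw [(show Commute J' J from hcomm _ hJ'P _ hJ).mul_pow, hJ'sq, hJsq, one_mul]
  have hklein : IsKleinFour (P : Subgroup G) := by
    refine ⟨hcard, ?_⟩
    haveI : Nontrivial (P : Subgroup G) := by
      rw [← Finite.one_lt_card_iff_nontrivial, hcard]
      norm_num
    rw [Monoid.exponent_eq_prime_iff Nat.prime_two]
    intro x hx
    refine orderOf_eq_prime ?_ hx
    exact Subtype.ext (hsqP x x.2)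
  refine ⟨hklein, ?_⟩
  have hconjJ' : IsConj J J' := isConj_iff.mpr ⟨g, rfl⟩
  have hgJ'1 : g * J' * g⁻¹ ≠ 1 := by
    intro h
    apply hJ'1
    have : J' = g⁻¹ * (g * J' * g⁻¹) * g := by group
    rw [this, h]
    group
  have hgJ'J' : g * J' * g⁻¹ ≠ J' := by
    intro h
    apply hgJ
    have h2 : g * J' = J' * g := mul_inv_eq_iff_eq_mul.mp h
    have h3 : g * J' = g * J := by
      rw [h2]
      rw [hJ']
      group
    exact mul_left_cancel h3
  have hcen : Subgroup.centralizer ({J} : Set G) ⊓ Subgroup.centralizer ({J'} : Set G) =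
      Subgroup.centralizer ((P : Subgroup G) : Set G) :=
    centralizer_inf_eq hcard hJsq hJ hJ'P hJ1 hJ'1 hgJ
  have hconjJJ : IsConj J (J' * J) := by
    rcases hcase2 with h | h | h | h
    · exact absurd h hgJ'1
    · exfalso
      -- `g` swaps `J` and `J'`
      have hg2 : g ^ 2 ∈ Subgroup.centralizer ((P : Subgroup G) : Set G) := by
        rw [← hcen]
        constructor
        · refine Subgroup.mem_centralizer_singleton_iff.mpr (mul_inv_eq_iff_eq_mul.mp ?_)
          calc g ^ 2 * J * (g ^ 2)⁻¹ = g * J' * g⁻¹ := by rw [hJ']; simp only [pow_two]; group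
            _ = J := h
        · refine Subgroup.mem_centralizer_singleton_iff.mpr (mul_inv_eq_iff_eq_mul.mp ?_)
          calc g ^ 2 * J' * (g ^ 2)⁻¹ = g * (g * J' * g⁻¹) * g⁻¹ := by simp only [pow_two]; group
            _ = g * J * g⁻¹ := by rw [h]
            _ = J' := rfl
      have h2 := mem_centralizer_of_sq_mem hcomm hg hg2
      apply hgJ
      have h3 := Subgroup.mem_centralizer_iff.mp h2 J hJ
      rw [hJ', ← h3]
      group
    · exact absurd h hgJ'J'
    · exact hconjJ'.trans (by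
        rw [← h]
        exact isConj_iff.mpr ⟨g, rfl⟩)
  have hallP : ∀ x ∈ (P : Subgroup G), x ≠ 1 → IsConj x J := by
    intro x hx hx1
    rcases hcase x hx with h | h | h | h
    · exact absurd h hx1
    · rw [h]
    · rw [h]
      exact hconjJ'.symm
    · rw [h]
      exact hconjJJ.symm
  have hall : ∀ s : G, orderOf s = 2 → IsConj s J := by
    intro s hs
    have hs2 : s ^ 2 = 1 := by rw [← hs]; exact pow_orderOf_eq_one s
    have hs1 : s ≠ 1 := by
      rintro rfl
      simp at hs
    obtain ⟨c, -, hc⟩ := exists_conj_into_sylow (P := P) (J := 1) (z := s) hcomm (Subgroup.one_mem _) (by simp) hs2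
    have h1 : c * s * c⁻¹ ≠ 1 := by
      intro h
      apply hs1
      have : s = c⁻¹ * (c * s * c⁻¹) * c := by group
      rw [this, h]
      group
    exact (isConj_iff.mpr ⟨c, rfl⟩).trans (hallP _ hc h1)
  intro s t hs ht
  exact (hall s hs).trans (hall t ht).symm

end Count

section Main

variable {G : Type u} [Group G] [Fintype G] {P : Sylow 2 G}

open Classical in
/-- The involutions `u` with `u * J` of even order. -/
noncomputable def kleinT (J : G) : Finset G :=
  Finset.univ.filter (fun u => u ^ 2 = 1 ∧ u ≠ 1 ∧ 2 ∣ orderOf (u * J))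

open Classical in
/-- The involutions commuting with `J`, other than `J`. -/
noncomputable def kleinZ (J : G) : Finset G :=
  Finset.univ.filter (fun z => z ^ 2 = 1 ∧ z ≠ 1 ∧ z ≠ J ∧ z * J = J * z)

theorem mem_kleinT {J u : G} : u ∈ kleinT J ↔ u ^ 2 = 1 ∧ u ≠ 1 ∧ 2 ∣ orderOf (u * J) := by
  simp [kleinT]

theorem mem_kleinZ {J z : G} : z ∈ kleinZ J ↔ z ^ 2 = 1 ∧ z ≠ 1 ∧ z ≠ J ∧ z * J = J * z := by
  simp [kleinZ]

variable [hp2 : Fact (Nat.Prime 2)]

theorem pow_mem_kleinZ (hP : IsKleinFour (P : Subgroup G)) {J : G} (hJ2 : orderOf J = 2) {α : ℕ}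
    (hα : IsPExp 2 G α) {u : G} (hu : u ∈ kleinT J) : (u * J) ^ α ∈ kleinZ J := by
  obtain ⟨hu2, hu1, hud⟩ := mem_kleinT.mp hu
  have hJsq : J ^ 2 = 1 := by rw [← hJ2]; exact pow_orderOf_eq_one J
  have hJJ : J * J = 1 := by rw [← pow_two, hJsq]
  have huu : u * u = 1 := by rw [← pow_two, hu2]
  have hJinv : J⁻¹ = J := inv_eq_of_mul_eq_one_left hJJ
  have huinv : u⁻¹ = u := inv_eq_of_mul_eq_one_left huu
  set w := u * J with hw
  have hwinv : J * w * J⁻¹ = w⁻¹ := by
    rw [hw, mul_inv_rev, hJinv, huinv]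
    calc J * (u * J) * J = J * u * (J * J) := by group
      _ = J * u := by rw [hJJ, mul_one]
  obtain ⟨y, hy, hc, ⟨k, hk⟩, hyo⟩ := hα.isPPart w
  have hz2 : (w ^ α) ^ 2 = 1 := pow_two_eq_one_of_two_element P hP hk
  have hz1 : w ^ α ≠ 1 := by
    rw [Ne, hα.pow_eq_one_iff, not_not]
    exact hud
  have hzinv : (w ^ α)⁻¹ = w ^ α := inv_eq_of_mul_eq_one_left (by rw [← pow_two, hz2])
  have hcomm : J * w ^ α * J⁻¹ = w ^ α := by
    rw [← conj_pow, hwinv, inv_pow, hzinv]
  refine mem_kleinZ.mpr ⟨hz2, hz1, ?_, (mul_inv_eq_iff_eq_mul.mp hcomm).symm⟩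
  intro hzJ
  have hc2 : J * w * J⁻¹ = w := by
    rw [← hzJ]
    have : Commute (w ^ α) w := (Commute.refl w).pow_left α
    rw [this.eq]
    group
  have hw2 : w⁻¹ = w := by rw [← hwinv, hc2]
  have hww : w ^ 2 = 1 := by
    rw [pow_two]
    nth_rewrite 1 [← hw2]
    exact inv_mul_cancel w
  obtain ⟨i, -, hi⟩ := (Nat.dvd_prime_pow Nat.prime_two (i := orderOf w) (m := 1)).mp
    (by rw [pow_one]; exact orderOf_dvd_of_pow_eq_one hww)
  have h3 := hα.pow_of_pPow hi
  rw [hzJ] at h3
  apply hu1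
  have h4 : u * J = J := h3.symm
  simpa using h4

theorem fiber_eq (hP : IsKleinFour (P : Subgroup G)) {J : G} (hJ2 : orderOf J = 2) {α : ℕ}
    (hα : IsPExp 2 G α) {z : G} (hz : z ∈ kleinZ J) {x : G} :
    (x ∈ kleinT J ∧ (x * J) ^ α = z) ↔ ∃ c ∈ Subgroup.centralizer ({z} : Set G), x = c * (z * J) * c⁻¹ := by
  obtain ⟨hz2, hz1, hzJ, hzc⟩ := mem_kleinZ.mp hz
  have hJsq : J ^ 2 = 1 := by rw [← hJ2]; exact pow_orderOf_eq_one J
  have hJJ : J * J = 1 := by rw [← pow_two, hJsq]
  have hzz : z * z = 1 := by rw [← pow_two, hz2]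
  have hJinv : J⁻¹ = J := inv_eq_of_mul_eq_one_left hJJ
  have hzinv : z⁻¹ = z := inv_eq_of_mul_eq_one_left hzz
  have hzord : orderOf z = 2 := orderOf_eq_prime hz2 hz1
  constructor
  · rintro ⟨hx, hxz⟩
    obtain ⟨hx2, hx1, hxd⟩ := mem_kleinT.mp hx
    obtain ⟨y, hy, hc, -, hyo⟩ := hα.isPPart (x * J)
    rw [hxz] at hy hc
    have hxx : x * x = 1 := by rw [← pow_two, hx2]
    have hzy : z * y = y * z := hc
    -- `x = z * y * J`
    have hxeq : x = z * y * J := by
      rw [hy, mul_assoc, hJJ, mul_one]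
    obtain ⟨t, ht⟩ : ∃ t, t = z * J := ⟨_, rfl⟩
    obtain ⟨y', hy'⟩ : ∃ y', y' = J * y * J⁻¹ := ⟨_, rfl⟩
    have hx' : x = t * y' := by
      rw [hxeq, ht, hy', hJinv]
      calc z * y * J = z * (J * J) * y * J := by rw [hJJ, mul_one]
        _ = z * J * (J * y * J) := by group
    have htt : t⁻¹ = t := by
      apply inv_eq_of_mul_eq_one_left
      calc t * t = z * (J * z) * J := by rw [ht]; group
        _ = z * (z * J) * J := by rw [hzc]
        _ = (z * z) * (J * J) := by group
        _ = 1 := by rw [hzz, hJJ, one_mul]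
    have hinv : t * y' * t⁻¹ = y'⁻¹ := by
      rw [htt]
      have h1 : t * y' * t * y' = 1 := by rw [mul_assoc (t * y'), ← hx']; exact hxx
      exact eq_inv_of_mul_eq_one_left h1
    have hy'o : ¬ 2 ∣ orderOf y' := by
      intro h
      apply hyo
      refine h.trans (orderOf_dvd_of_pow_eq_one ?_)
      rw [hy', conj_pow, pow_orderOf_eq_one]
      group
    obtain ⟨e, -, he⟩ := exists_conj_of_inverted hinv hy'o
    have hy'z : y' * z = z * y' := by
      rw [hy', hJinv]
      calc J * y * J * z = J * y * (J * z) := by group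
        _ = J * y * (z * J) := by rw [hzc]
        _ = J * (y * z) * J := by group
        _ = J * (z * y) * J := by rw [hzy]
        _ = (J * z) * y * J := by group
        _ = (z * J) * y * J := by rw [hzc]
        _ = z * (J * y * J) := by group
    refine ⟨(y' ^ e)⁻¹, ?_, ?_⟩
    · apply Subgroup.mem_centralizer_singleton_iff.mpr
      have h2 : Commute y' z := hy'z
      exact ((h2.pow_left e).inv_left).eq
    · rw [inv_inv, hx', ← ht, he]
  · rintro ⟨c, hc, rfl⟩
    have hcz : c * z = z * c := Subgroup.mem_centralizer_singleton_iff.mp hc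
    have hJC : J ∈ Subgroup.centralizer ({z} : Set G) :=
      Subgroup.mem_centralizer_singleton_iff.mpr hzc.symm
    have hwo := not_two_dvd_orderOf_commutator hP hzord hc hJC
    set w := c * J * c⁻¹ * J⁻¹ with hw
    have hJzJ : z * J ≠ 1 := by
      intro h
      apply hzJ
      have : z = z * J * J⁻¹ := by group
      rw [this, h, hJinv, one_mul]
    have hzJ2 : (z * J) ^ 2 = 1 := by
      rw [(show Commute z J from hzc).mul_pow, hz2, hJsq, one_mul]
    have hx2 : (c * (z * J) * c⁻¹) ^ 2 = 1 := by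
      rw [conj_pow, hzJ2]
      group
    have hx1 : c * (z * J) * c⁻¹ ≠ 1 := by
      intro h
      apply hJzJ
      have : z * J = c⁻¹ * (c * (z * J) * c⁻¹) * c := by group
      rw [this, h]
      group
    have hxJ : c * (z * J) * c⁻¹ * J = z * w := by
      rw [hw, hJinv]
      calc c * (z * J) * c⁻¹ * J = (c * z) * J * c⁻¹ * J := by group
        _ = (z * c) * J * c⁻¹ * J := by rw [hcz]
        _ = z * (c * J * c⁻¹ * J) := by group
    have hzw : Commute z w := by
      have h1 : Commute z c := hcz.symm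
      have h2 : Commute z J := hzc
      rw [hw]
      exact ((h1.mul_right h2).mul_right h1.inv_right).mul_right h2.inv_right
    have hpart : IsPPart 2 (c * (z * J) * c⁻¹ * J) z :=
      ⟨w, hxJ.symm, hzw, ⟨1, by simpa using hzord⟩, hwo⟩
    have h5 := hα.eq_of_isPPart hpart
    refine ⟨mem_kleinT.mpr ⟨hx2, hx1, ?_⟩, h5⟩
    by_contra h6
    rw [← hα.pow_eq_one_iff, h5] at h6
    exact hz1 h6

theorem card_fiber_mul (hP : IsKleinFour (P : Subgroup G))
    (hone : ∀ s t : G, orderOf s = 2 → orderOf t = 2 → IsConj s t) {J : G} (hJP : J ∈ (P : Subgroup G))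
    (hJ2 : orderOf J = 2) {α : ℕ}
    (hα : IsPExp 2 G α) {z : G} (hz : z ∈ kleinZ J) :
    open scoped Classical in
    ((kleinT J).filter (fun x => (x * J) ^ α = z)).card * Nat.card (Subgroup.centralizer ((P : Subgroup G) : Set G)) =
      Nat.card (Subgroup.centralizer ({J} : Set G)) := by
  classical
  obtain ⟨hz2, hz1, hzJ, hzc⟩ := mem_kleinZ.mp hz
  have hzord : orderOf z = 2 := orderOf_eq_prime hz2 hz1
  have hJ1 : J ≠ 1 := by
    rintro rfl
    simp at hJ2
  have h1 := card_conj_orbit_mul (Subgroup.centralizer ({z} : Set G)) (z * J)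
  have h2 : Nat.card {x : G // ∃ c ∈ Subgroup.centralizer ({z} : Set G), x = c * (z * J) * c⁻¹} =
      ((kleinT J).filter (fun x => (x * J) ^ α = z)).card := by
    rw [Nat.card_eq_fintype_card, Fintype.card_subtype]
    congr 1
    ext x
    simp only [Finset.mem_filter, Finset.mem_univ, true_and]
    exact (fiber_eq hP hJ2 hα hz).symm
  have h3 : Subgroup.centralizer ({z} : Set G) ⊓ Subgroup.centralizer ({z * J} : Set G) =
      Subgroup.centralizer ({J} : Set G) ⊓ Subgroup.centralizer ({z} : Set G) := by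
    ext x
    simp only [Subgroup.mem_inf, Subgroup.mem_centralizer_singleton_iff]
    constructor
    · rintro ⟨h4, h5⟩
      refine ⟨?_, h4⟩
      have h6 : Commute x (z * J) := h5
      have h7 : Commute x z := h4
      have h8 : Commute x (z⁻¹ * (z * J)) := h7.inv_right.mul_right h6
      rwa [inv_mul_cancel_left] at h8
    · rintro ⟨h4, h5⟩
      exact ⟨h5, (show Commute x z from h5).mul_right (show Commute x J from h4)⟩
  rw [h2, h3, card_inf_centralizer_of_commuting hP hJP hJ1 hzc hz2 hz1 hzJ,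
    card_centralizer_of_isConj (hone z J hzord hJ2)] at h1
  exact h1

theorem card_kleinZ_mul (hP : IsKleinFour (P : Subgroup G)) {J : G} (hJP : J ∈ (P : Subgroup G))
    (hJ2 : orderOf J = 2) :
    (kleinZ J).card * Nat.card (Subgroup.centralizer ((P : Subgroup G) : Set G)) =
      2 * Nat.card (Subgroup.centralizer ({J} : Set G)) := by
  classical
  obtain ⟨hsq, hcomm, hcard⟩ := sylow_klein_props P hP P
  have hJsq : J ^ 2 = 1 := hsq J hJP
  have hJJ : J * J = 1 := by rw [← pow_two, hJsq]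
  have hJ1 : J ≠ 1 := by
    rintro rfl
    simp at hJ2
  obtain ⟨a, haP, ha1, haJ⟩ : ∃ a ∈ (P : Subgroup G), a ≠ 1 ∧ a ≠ J := by
    by_contra hno
    push Not at hno
    have h1 : Nat.card (P : Subgroup G) ≤ 2 := by
      letI : Fintype (P : Subgroup G) := Fintype.ofFinite _
      rw [Nat.card_eq_fintype_card]
      have h2 : (Finset.univ : Finset (P : Subgroup G)) ⊆ {1, ⟨J, hJP⟩} := by
        intro x _
        by_cases hx : (x : G) = 1
        · simp [Subtype.ext_iff, hx]
        · simp [Subtype.ext_iff, hno x x.2 hx]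
      exact (Finset.card_le_card h2).trans Finset.card_le_two
    omega
  set b := a * J with hb
  have hbP : b ∈ (P : Subgroup G) := (P : Subgroup G).mul_mem haP hJP
  have hb1 : b ≠ 1 := by
    intro h
    apply haJ
    have h2 : a = b * J⁻¹ := by rw [hb]; group
    rw [h2, h, one_mul, inv_eq_of_mul_eq_one_left hJJ]
  have hbJ : b ≠ J := by
    intro h
    apply ha1
    have h2 : a = b * J⁻¹ := by rw [hb]; group
    rw [h2, h, mul_inv_cancel]
  have hcen : ∀ t ∈ (P : Subgroup G), t ≠ 1 → t ≠ J →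
      Subgroup.centralizer ({J} : Set G) ⊓ Subgroup.centralizer ({t} : Set G) =
        Subgroup.centralizer ((P : Subgroup G) : Set G) :=
    fun t ht ht1 htJ => centralizer_inf_eq hcard hJsq hJP ht hJ1 ht1 htJ
  -- the two orbits
  let O : G → Finset G := fun t => Finset.univ.filter
    (fun x => ∃ c ∈ Subgroup.centralizer ({J} : Set G), x = c * t * c⁻¹)
  have hO : ∀ t ∈ (P : Subgroup G), t ≠ 1 → t ≠ J → (O t).card * Nat.card (Subgroup.centralizer ((P : Subgroup G) : Set G)) =
      Nat.card (Subgroup.centralizer ({J} : Set G)) := by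
    intro t ht ht1 htJ
    have h1 := card_conj_orbit_mul (Subgroup.centralizer ({J} : Set G)) t
    rw [hcen t ht ht1 htJ, Nat.card_eq_fintype_card (α := {x : G // _}), Fintype.card_subtype] at h1
    exact h1
  have hZ : kleinZ J = O a ∪ O b := by
    ext z
    simp only [mem_kleinZ, Finset.mem_union, O, Finset.mem_filter, Finset.mem_univ, true_and]
    constructor
    · rintro ⟨hz2, hz1, hzJ, hzc⟩
      obtain ⟨c, hc, hcz⟩ := exists_conj_into_sylow hcomm hJP hzc hz2
      have hcm : c⁻¹ ∈ Subgroup.centralizer ({J} : Set G) :=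
        Subgroup.inv_mem _ (Subgroup.mem_centralizer_singleton_iff.mpr hc)
      have hz0 : z = c⁻¹ * (c * z * c⁻¹) * c⁻¹⁻¹ := by group
      rcases klein_mem_cases hcard hJsq hJP haP hJ1 ha1 haJ _ hcz with h | h | h | h
      · exfalso
        apply hz1
        have : z = c⁻¹ * (c * z * c⁻¹) * c := by group
        rw [this, h]
        group
      · exfalso
        apply hzJ
        have h2 : c * z = J * c := mul_inv_eq_iff_eq_mul.mp h
        rw [← hc] at h2
        exact mul_left_cancel h2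
      · exact Or.inl ⟨c⁻¹, hcm, by rw [← h]; exact hz0⟩
      · exact Or.inr ⟨c⁻¹, hcm, by rw [hb, ← h]; exact hz0⟩
    · have hcase : ∀ t ∈ (P : Subgroup G), t ≠ 1 → t ≠ J → (∃ c ∈ Subgroup.centralizer ({J} : Set G), z = c * t * c⁻¹) →
          z ^ 2 = 1 ∧ z ≠ 1 ∧ z ≠ J ∧ z * J = J * z := by
        rintro t ht ht1 htJ ⟨c, hc, rfl⟩
        have hcJ : c * J = J * c := Subgroup.mem_centralizer_singleton_iff.mp hc
        refine ⟨?_, ?_, ?_, ?_⟩
        · rw [conj_pow, hsq t ht]
          group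
        · intro h
          apply ht1
          have : t = c⁻¹ * (c * t * c⁻¹) * c := by group
          rw [this, h]
          group
        · intro h
          apply htJ
          have h2 : c * t = J * c := mul_inv_eq_iff_eq_mul.mp h
          rw [← hcJ] at h2
          exact mul_left_cancel h2
        · have h2 : Commute c J := hcJ
          have h3 : Commute t J := hcomm t ht J hJP
          exact ((h2.mul_left h3).mul_left h2.inv_left).eq
      rintro (h | h)
      · exact hcase a haP ha1 haJ h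
      · exact hcase b hbP hb1 hbJ h
  have hdisj : Disjoint (O a) (O b) := by
    rw [Finset.disjoint_left]
    intro x hx hx'
    simp only [O, Finset.mem_filter, Finset.mem_univ, true_and] at hx hx'
    obtain ⟨c, hc, rfl⟩ := hx
    obtain ⟨d, hd, hcd⟩ := hx'
    set g := d⁻¹ * c with hg
    have hgC : g ∈ Subgroup.centralizer ({J} : Set G) := Subgroup.mul_mem _ (Subgroup.inv_mem _ hd) hc
    have hgJ : g * J = J * g := Subgroup.mem_centralizer_singleton_iff.mp hgC
    have hgJ' : g * J * g⁻¹ = J := by rw [hgJ]; group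
    have hga : g * a * g⁻¹ = b := by
      rw [hg]
      calc d⁻¹ * c * a * (d⁻¹ * c)⁻¹ = d⁻¹ * (c * a * c⁻¹) * d := by group
        _ = d⁻¹ * (d * b * d⁻¹) * d := by rw [hcd]
        _ = b := by group
    have hgb : g * b * g⁻¹ = a := by
      calc g * b * g⁻¹ = (g * a * g⁻¹) * (g * J * g⁻¹) := by rw [hb]; group
        _ = a * J * J := by rw [hga, hgJ']
        _ = a := by rw [mul_assoc, hJJ, mul_one]
    have hgN : g ∈ Subgroup.normalizer ((P : Subgroup G) : Set G) := by
      apply Subgroup.mem_normalizer_fintype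
      intro n hn
      rcases klein_mem_cases hcard hJsq hJP haP hJ1 ha1 haJ n hn with rfl | rfl | rfl | rfl
      · simpa using (P : Subgroup G).one_mem
      · rw [hgJ']
        exact hJP
      · rw [hga]
        exact hbP
      · rw [hgb]
        exact haP
    have hg2 : g ^ 2 ∈ Subgroup.centralizer ((P : Subgroup G) : Set G) := by
      rw [← hcen a haP ha1 haJ]
      refine ⟨Subgroup.pow_mem _ hgC 2, Subgroup.mem_centralizer_singleton_iff.mpr (mul_inv_eq_iff_eq_mul.mp ?_)⟩
      calc g ^ 2 * a * (g ^ 2)⁻¹ = g * (g * a * g⁻¹) * g⁻¹ := by simp only [pow_two]; group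
        _ = g * b * g⁻¹ := by rw [hga]
        _ = a := hgb
    have h3 := mem_centralizer_of_sq_mem hcomm hgN hg2
    have h4 := Subgroup.mem_centralizer_iff.mp h3 a haP
    have h5 : g * a * g⁻¹ = a := by rw [← h4]; group
    rw [hga, hb] at h5
    apply hJ1
    have h6 : a * J = a * 1 := by rw [h5, mul_one]
    exact mul_left_cancel h6
  rw [hZ, Finset.card_union_of_disjoint hdisj, add_mul, hO a haP ha1 haJ, hO b hbP hb1 hbJ]
  ring

/-- The count of involutions `u` with `u * J` of even order. -/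
theorem card_kleinT_mul (hP : IsKleinFour (P : Subgroup G))
    (hone : ∀ s t : G, orderOf s = 2 → orderOf t = 2 → IsConj s t) {J : G} (hJP : J ∈ (P : Subgroup G))
    (hJ2 : orderOf J = 2) :
    (kleinT J).card * Nat.card (Subgroup.centralizer ((P : Subgroup G) : Set G)) ^ 2 =
      2 * Nat.card (Subgroup.centralizer ({J} : Set G)) ^ 2 := by
  classical
  obtain ⟨α, hα⟩ := exists_isPExp G 2
  have h1 := Finset.card_eq_sum_card_fiberwise (s := kleinT J) (t := kleinZ J) (f := fun u => (u * J) ^ α)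
    (fun u hu => pow_mem_kleinZ hP hJ2 hα hu)
  have h2 : (kleinT J).card * Nat.card (Subgroup.centralizer ((P : Subgroup G) : Set G)) =
      (kleinZ J).card * Nat.card (Subgroup.centralizer ({J} : Set G)) := by
    rw [h1, Finset.sum_mul, Finset.sum_congr rfl (fun z hz => card_fiber_mul hP hone hJP hJ2 hα hz),
      Finset.sum_const, smul_eq_mul]
  calc (kleinT J).card * Nat.card (Subgroup.centralizer ((P : Subgroup G) : Set G)) ^ 2
      = ((kleinT J).card * Nat.card (Subgroup.centralizer ((P : Subgroup G) : Set G))) *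
          Nat.card (Subgroup.centralizer ((P : Subgroup G) : Set G)) := by ring
    _ = ((kleinZ J).card * Nat.card (Subgroup.centralizer ((P : Subgroup G) : Set G))) *
          Nat.card (Subgroup.centralizer ({J} : Set G)) := by rw [h2]; ring
    _ = 2 * Nat.card (Subgroup.centralizer ({J} : Set G)) ^ 2 := by
        rw [card_kleinZ_mul hP hJP hJ2]; ring

end Main

end Cfsg.Agent.Lib.Blocks
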