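import Cfsg.Agent.Lib.Blocks.Extended
import Cfsg.Agent.Lib.Blocks.NormalCentral
import Cfsg.Agent.Lib.Blocks.Induced
import Cfsg.Agent.Lib.PGroups.Frobenius
import Cfsg.Agent.Lib.Char.DefectZero

/-!
# Knörr's theorem: a character vanishing on all elements of order `p` has defect zero
-/

set_option autoImplicit false
set_option linter.unusedSectionVars false

namespace Cfsg.Agent.Lib.Blocks

open Cfsg Cfsg.Agent.Lib.Char
open scoped ComplexConjugate

universe u

section Knorr

variable {G : Type u} [Group G] [Fintype G] {M : Ideal AlgInt} {p : ℕ} [hp : Fact p.Prime]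

/-- Summing the congruences of an induced block over all classes of elements of order `p`. -/
theorem memLocalIdeal_sum_orderOf [M.IsPrime] (H : Subgroup G) [Fintype H] {b : Set (IrrCharacter H)}
    {B : Set (IrrCharacter G)} (hind : IsInducedBlock M H b B) {χ : IrrCharacter G}
    {θ : IrrCharacter H} (hχ : χ ∈ B) (hθ : θ ∈ b)
    (hvan : ∀ g : G, orderOf g = p → (χ : G → ℂ) g = 0) :
    MemLocalIdeal M (∑ h ∈ Finset.univ.filter (fun h : H => orderOf h = p),
      (θ : H → ℂ) h / (θ : H → ℂ) 1) := by
  classical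
  set T := Finset.univ.filter (fun h : H => orderOf h = p) with hT
  rw [← Finset.sum_fiberwise_of_maps_to (s := T) (t := T.image (fun h : H => ConjClasses.mk (h : G)))
    (g := fun h : H => ConjClasses.mk (h : G)) (fun h hh => Finset.mem_image_of_mem _ hh)]
  apply MemLocalIdeal.sum
  intro c hc
  obtain ⟨h₀, hh₀, rfl⟩ := Finset.mem_image.mp hc
  have hord : orderOf (h₀ : G) = p := by
    rw [Subgroup.orderOf_coe]
    exact (Finset.mem_filter.mp hh₀).2
  have h1 := hind.2.2 θ hθ χ hχ (h₀ : G)
  rw [centralChar, hvan _ hord, mul_zero, zero_div, sub_zero, inducedCentralChar, finsum_mem_def,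
    finsum_eq_sum_of_fintype] at h1
  convert h1 using 1
  rw [Finset.sum_filter, hT, Finset.sum_filter]
  apply Finset.sum_congr rfl
  intro h _
  by_cases hh : IsConj (h₀ : G) (h : G)
  · have h2 : orderOf h = p := by
      obtain ⟨c, hc⟩ := isConj_iff.mp hh
      rw [← Subgroup.orderOf_coe, ← hc, ← MulAut.conj_apply,
        MulEquiv.orderOf_eq]
      exact hord
    rw [if_pos h2, if_pos (ConjClasses.mk_eq_mk_iff_isConj.mpr hh.symm), Set.indicator_of_mem]
    exact hh
  · rw [Set.indicator_of_notMem (by exact hh)]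
    by_cases h2 : orderOf h = p
    · rw [if_pos h2, if_neg]
      intro h3
      exact hh (ConjClasses.mk_eq_mk_iff_isConj.mp h3).symm
    · rw [if_neg h2]

/-- The sum in terms of a normal subgroup in the kernel, when the character has full defect. -/
theorem sum_orderOf_eq_card {P : Subgroup G} [P.Normal] {θ : IrrCharacter G}
    (hθ : P ≤ charKer (θ : G → ℂ))
    (hdeg : (Nat.card G).factorization p ≤
      (charDegree (θ : G → ℂ)).factorization p + (Nat.card P).factorization p) :
    ∑ h ∈ Finset.univ.filter (fun h : G => orderOf h = p), (θ : G → ℂ) h / (θ : G → ℂ) 1 =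
      (Nat.card {h : P // orderOf h = p} : ℂ) := by
  classical
  have hpp : p.Prime := hp.out
  have hne : (θ : G → ℂ) 1 ≠ 0 := irr_apply_one_ne_zero θ
  have hc := irr_isCharacter θ
  have h1 : ∀ h ∈ Finset.univ.filter (fun h : G => orderOf h = p),
      (θ : G → ℂ) h / (θ : G → ℂ) 1 = if h ∈ P then 1 else 0 := by
    intro h hh
    have hord := (Finset.mem_filter.mp hh).2
    by_cases hP : h ∈ P
    · rw [if_pos hP, (mem_charKer hc).mp (hθ hP), div_self hne]
    · rw [if_neg hP, irr_eq_zero_of_pPart_notMem hθ hdeg (z := h) ?_ hP, zero_div]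
      refine ⟨1, mul_one _, Commute.one_right _, ⟨1, by rw [pow_one, hord]⟩, ?_⟩
      rw [orderOf_one]
      exact hpp.not_dvd_one
  rw [Finset.sum_congr rfl h1, Finset.sum_boole, Nat.card_eq_fintype_card, Fintype.card_subtype]
  congr 1
  symm
  apply Finset.card_bij (fun (h : P) _ => (h : G))
  · intro h hh
    have h2 := (Finset.mem_filter.mp hh).2
    rw [Finset.mem_filter, Finset.mem_filter]
    refine ⟨⟨Finset.mem_univ _, ?_⟩, h.2⟩
    rw [Subgroup.orderOf_coe]
    exact h2
  · intro a _ b _ hab
    exact Subtype.ext hab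
  · intro y hy
    have h2 := Finset.mem_filter.mp hy
    have h3 := (Finset.mem_filter.mp h2.1).2
    refine ⟨⟨y, h2.2⟩, ?_, rfl⟩
    rw [Finset.mem_filter]
    refine ⟨Finset.mem_univ _, ?_⟩
    rw [← Subgroup.orderOf_coe]
    exact h3

/-- The count of elements of order `p` in a nontrivial `p`-group is prime to `p`. -/
theorem not_dvd_card_orderOf_eq {K : Type u} [Group K] [Finite K] (hK : IsPGroup p K)
    (hne : Nat.card K ≠ 1) : ¬ p ∣ Nat.card {h : K // orderOf h = p} := by
  classical
  have hpp : p.Prime := hp.out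
  letI : Fintype K := Fintype.ofFinite K
  obtain ⟨k, hk⟩ := (IsPGroup.iff_card.mp hK)
  have hk0 : k ≠ 0 := by
    rintro rfl
    exact hne (by simpa using hk)
  have hdvd : p ∣ Nat.card K := by
    rw [hk]
    exact dvd_pow_self p hk0
  have hfrob := Cfsg.Agent.Lib.PGroups.frobenius hdvd
  have heq : Nat.card {g : K // g ^ p = 1} = Nat.card {h : K // orderOf h = p} + 1 := by
    rw [Nat.card_eq_fintype_card, Nat.card_eq_fintype_card, Fintype.card_subtype, Fintype.card_subtype]
    have h1 : Finset.univ.filter (fun g : K => g ^ p = 1) =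
        insert 1 (Finset.univ.filter (fun h : K => orderOf h = p)) := by
      ext g
      simp only [Finset.mem_filter, Finset.mem_univ, true_and, Finset.mem_insert]
      constructor
      · intro hg
        rcases (Nat.dvd_prime hpp).mp (orderOf_dvd_of_pow_eq_one hg) with h2 | h2
        · left
          exact orderOf_eq_one_iff.mp h2
        · right
          exact h2
      · rintro (rfl | h2)
        · exact one_pow _
        · rw [← h2]
          exact pow_orderOf_eq_one g
    rw [h1, Finset.card_insert_of_notMem]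
    simp only [Finset.mem_filter, Finset.mem_univ, true_and, orderOf_one]
    exact hpp.one_lt.ne
  rw [heq] at hfrob
  intro h2
  exact hpp.not_dvd_one ((Nat.dvd_add_right h2).mp hfrob)

theorem sup_centralizer_subgroupOf_eq_top (D : Subgroup G) :
    D.subgroupOf (D ⊔ Subgroup.centralizer (D : Set G)) ⊔
      Subgroup.centralizer ((D.subgroupOf (D ⊔ Subgroup.centralizer (D : Set G)) :
        Subgroup (D ⊔ Subgroup.centralizer (D : Set G) : Subgroup G)) :
          Set (D ⊔ Subgroup.centralizer (D : Set G) : Subgroup G)) = ⊤ := by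
  have hPL : D ≤ D ⊔ Subgroup.centralizer (D : Set G) := le_sup_left
  have hCL : Subgroup.centralizer (D : Set G) ≤ D ⊔ Subgroup.centralizer (D : Set G) := le_sup_right
  set K := D.subgroupOf (D ⊔ Subgroup.centralizer (D : Set G)) ⊔
      Subgroup.centralizer ((D.subgroupOf (D ⊔ Subgroup.centralizer (D : Set G)) :
        Subgroup (D ⊔ Subgroup.centralizer (D : Set G) : Subgroup G)) :
          Set (D ⊔ Subgroup.centralizer (D : Set G) : Subgroup G)) with hK
  have hle : D ⊔ Subgroup.centralizer (D : Set G) ≤ K.map (D ⊔ Subgroup.centralizer (D : Set G)).subtype := by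
    apply sup_le
    · intro d hd
      exact ⟨⟨d, hPL hd⟩, Subgroup.mem_sup_left (Subgroup.mem_subgroupOf.mpr hd), rfl⟩
    · intro c hc
      exact ⟨⟨c, hCL hc⟩, Subgroup.mem_sup_right ((mem_centralizer_subgroupOf D hPL _).mpr hc), rfl⟩
  rw [eq_top_iff]
  rintro x -
  obtain ⟨y, hy, hyx⟩ := hle x.2
  have : y = x := Subtype.ext hyx
  exact this ▸ hy

/-- **Knörr's theorem.** -/
theorem knorr_main (χ : IrrCharacter G) (hvan : ∀ g : G, orderOf g = p → (χ : G → ℂ) g = 0) :
    (charDegree (χ : G → ℂ)).factorization p = (Nat.card G).factorization p := by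
  classical
  have hpp : p.Prime := hp.out
  obtain ⟨M, hM⟩ := exists_isPModular hpp
  haveI := isPrime_of_modular hM
  have hB : IsPBlock M (blockOf M (χ : G → ℂ)) := isPBlock_blockOf χ
  have hχ : χ ∈ blockOf M (χ : G → ℂ) := self_mem_blockOf χ
  obtain ⟨D, hD⟩ := IsPBlock.exists_isDefectGroup hM hB
  have hDp : IsPGroup p D := IsDefectGroup.isPGroup hD
  have hbot : Nat.card D = 1 := by
    by_contra hne
    obtain ⟨b, hbD, hind⟩ := extended_first_main_i hM hB hD
    have hPL : D ≤ D ⊔ Subgroup.centralizer (D : Set G) := le_sup_left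
    letI : Fintype (D ⊔ Subgroup.centralizer (D : Set G) : Subgroup G) := Fintype.ofFinite _
    have hP' : IsPGroup p (D.subgroupOf (D ⊔ Subgroup.centralizer (D : Set G))) := isPGroup_subgroupOf hDp _
    haveI hPn' : (D.subgroupOf (D ⊔ Subgroup.centralizer (D : Set G))).Normal :=
      (Subgroup.normal_subgroupOf_iff_le_normalizer hPL).mpr (sup_centralizer_le_normalizer D)
    letI : Fintype (D.subgroupOf (D ⊔ Subgroup.centralizer (D : Set G))) := Fintype.ofFinite _
    obtain ⟨θ, Ψ, hθ, hθker, -, -, -, -⟩ :=
      normal_central_block_struct hM hP' (sup_centralizer_subgroupOf_eq_top D) hind.1 hbD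
    have hval := val_degree_ge hM hbD hθ
    have hsum := memLocalIdeal_sum_orderOf _ hind hχ hθ hvan
    rw [sum_orderOf_eq_card hθker hval, natCast_memLocalIdeal_iff hM] at hsum
    refine not_dvd_card_orderOf_eq hP' ?_ hsum
    rw [card_subgroupOf_eq D hPL]
    exact hne
  have h1 := val_degree_ge hM hD hχ
  rw [hbot, Nat.factorization_one] at h1
  have h2 : (charDegree (χ : G → ℂ)).factorization p ≤ (Nat.card G).factorization p :=
    (Nat.factorization_le_iff_dvd (charDegree_pos χ.2).ne' Nat.card_pos.ne').mpr (charDegree_dvd_card χ.2) p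
  simp only [Finsupp.coe_zero, Pi.zero_apply, add_zero] at h1
  omega

end Knorr

end Cfsg.Agent.Lib.Blocks
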