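import Cfsg.Agent.Lib.Blocks.Closed

/-!
# Külshammer's formula for the principal block idempotent
-/

set_option autoImplicit false
set_option linter.unusedSectionVars false

namespace Cfsg.Agent.Lib.Blocks

open Cfsg Cfsg.Agent.Lib.Char
open scoped ComplexConjugate

universe u

variable {G : Type u} [Group G] [Fintype G] {p : ℕ} [hp : Fact p.Prime] {M : Ideal AlgInt}

/-- The indicator of the identity. -/
noncomputable def oneFun (G : Type u) [Group G] (x : G) : ℂ :=
  open scoped Classical in if x = 1 then 1 else 0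

theorem oneFun_isClassFunction : IsClassFunction G (oneFun G) := by
  classical
  intro g k
  simp only [oneFun, conj_eq_one_iff]

theorem oneFun_memLocalRing [M.IsPrime] (x : G) : MemLocalRing M (oneFun G x) := by
  classical
  by_cases h : x = 1
  · simp only [oneFun, if_pos h]; exact memLocalRing_one
  · simp only [oneFun, if_neg h]; exact memLocalRing_zero

theorem sum_mul_oneFun (f : G → ℂ) (z : G) : ∑ x, f x * oneFun G (x * z) = f z⁻¹ := by
  classical
  rw [Finset.sum_eq_single z⁻¹]
  · simp [oneFun]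
  · intro x _ hx
    have : x * z ≠ 1 := fun h => hx (eq_inv_of_mul_eq_one_left h)
    simp [oneFun, this]
  · simp

/-- The sequence of conjugates of `y` under `z`. -/
def conjSeq (z y : G) {L : ℕ} (hz : z ^ L = z) : TwSeq z L :=
  ⟨fun i => z ^ i * y * (z ^ i)⁻¹, by
    intro i
    have h1 : z ^ (i + (L : ℤ)) = z * z ^ i := by
      rw [zpow_add, zpow_natCast, hz, (Commute.refl z).zpow_right i |>.eq]
    simp only [h1]
    group⟩

@[simp] theorem conjSeq_apply (z y : G) {L : ℕ} (hz : z ^ L = z) (i : ℤ) :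
    (conjSeq z y hz).1 i = z ^ i * y * (z ^ i)⁻¹ := rfl

theorem twProd_conjSeq (z y : G) {L : ℕ} (hz : z ^ L = z) (s : ℕ) :
    twProd (conjSeq z y hz).1 s = (y * z) ^ s * (z ^ s)⁻¹ := by
  induction s with
  | zero => simp
  | succ s ih =>
    rw [twProd_succ, ih, conjSeq_apply, pow_succ (y * z) s, pow_succ z s]
    simp only [zpow_natCast]
    group

theorem eq_conjSeq_of_fixed {z : G} {L m : ℕ} (hz : z ^ L = z) (hm : z ^ m = 1) {t : ℕ}
    (hL : L = 1 + m * t) (u : TwSeq z L) (hu : ∀ i : ℤ, u.1 (i + m) = u.1 i) :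
    u = conjSeq z (u.1 0) hz := by
  have hmt : ∀ (k : ℕ) (i : ℤ), u.1 (i + (m * k : ℕ)) = u.1 i := by
    intro k
    induction k with
    | zero => simp
    | succ k ih =>
      intro i
      rw [show ((m * (k + 1) : ℕ) : ℤ) = (m * k : ℕ) + m by push_cast; ring, ← add_assoc, hu, ih]
  have hstep : ∀ i : ℤ, u.1 (i + 1) = z * u.1 i * z⁻¹ := by
    intro i
    have h1 := u.2 i
    rw [← h1]
    have h2 : i + (L : ℤ) = (i + 1) + (m * t : ℕ) := by rw [hL]; push_cast; ring
    rw [h2, hmt]
  apply TwSeq.ext'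
  intro i
  simp only [conjSeq_apply]
  induction i using Int.induction_on with
  | zero => simp
  | succ i ih =>
    rw [show ((i : ℤ) + 1) = (i : ℤ) + 1 from rfl, hstep, ih, zpow_add_one]
    group
  | pred i ih =>
    have h1 := hstep (-(i : ℤ) - 1)
    rw [show -(i : ℤ) - 1 + 1 = -(i : ℤ) by ring, ih] at h1
    have h2 : u.1 (-(i : ℤ) - 1) = z⁻¹ * (z ^ (-(i : ℤ)) * u.1 0 * (z ^ (-(i : ℤ)))⁻¹) * z := by
      rw [h1]; group
    rw [h2, zpow_sub_one]
    group

/-- Counting words modulo `p`: the fixed points of rotation. -/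
theorem coef_pow_eq_sum_add (hM : IsPModular p M) [M.IsPrime] {c : IrrCharacter G → ℂ} (hc : c ∈ zS M G)
    {n : ℕ} {z : G} (hz : z ^ (p ^ n) = z) :
    ∃ r, MemLocalRing M r ∧ coef (c ^ (p ^ n)) z⁻¹ =
      ∑ y, (coef c y) ^ (p ^ n) * oneFun G ((y * z) ^ (p ^ n)) + (p : ℂ) * r := by
  classical
  have hpp : p.Prime := hp.out
  set L := p ^ n with hLdef
  have hL : 0 < L := pow_pos hpp.pos n
  haveI := finite_twSeq z L hL
  letI := Fintype.ofFinite (TwSeq z L)
  set m := orderOf z with hm
  have hzm : z ^ m = 1 := pow_orderOf_eq_one z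
  have hdvd : m ∣ L - 1 := by
    apply orderOf_dvd_of_pow_eq_one
    have h1 : z ^ (L - 1) * z = z := by
      rw [← pow_succ, Nat.sub_add_cancel hL, hz]
    exact mul_eq_right.mp h1
  obtain ⟨t, ht⟩ := hdvd
  have hLt : L = 1 + m * t := by omega
  let σ : Equiv.Perm (TwSeq z L) := twShift z L (Multiplicative.ofAdd (m : ℤ))
  have hσL : σ ^ L = 1 := by
    apply Equiv.ext
    intro u
    have h1 : σ ^ L = twShift z L (Multiplicative.ofAdd (m : ℤ) ^ L) := by
      simp only [σ, map_pow]
    have h2 : Multiplicative.ofAdd (m : ℤ) ^ L = Multiplicative.ofAdd ((L * m : ℕ) : ℤ) := by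
      rw [← ofAdd_nsmul]
      simp
    rw [h1, h2]
    apply TwSeq.ext'
    intro i
    simp only [twShift_apply, toAdd_ofAdd, twShiftFun_apply, Equiv.Perm.coe_one, id_eq]
    rw [TwSeq.apply_add_mul, hzm]
    simp
  have hΓ : IsPGroup p (Subgroup.zpowers σ) := by
    have h1 : orderOf σ ∣ p ^ n := orderOf_dvd_of_pow_eq_one hσL
    obtain ⟨i, -, hi⟩ := (Nat.dvd_prime_pow hpp).mp h1
    apply IsPGroup.of_card (n := i)
    rw [Nat.card_zpowers, hi]
  let F : TwSeq z L → locRing M := fun u =>
    ⟨wtF (coef c) (oneFun G) u, wtF_memLocalRing hc oneFun_memLocalRing u⟩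
  have hFinv : ∀ (k : Multiplicative ℤ) u, F (twShift z L k u) = F u := by
    apply fun k u => twShift_induction F (fun u => Subtype.ext
      (wtF_shift (coef_isClassFunction c) oneFun_isClassFunction hL u)) k u
  obtain ⟨r, hr⟩ := exists_sum_sub_fixed hΓ (Subgroup.zpowers σ).subtype F (by
    rintro ⟨γ, k, rfl⟩ x
    show F ((σ ^ k) x) = F x
    have h1 : σ ^ k = twShift z L (Multiplicative.ofAdd (m : ℤ) ^ k) := by
      simp only [σ, map_zpow]
    rw [h1]
    exact hFinv _ x)
  have hfix : ∀ u : TwSeq z L, (∀ γ : Subgroup.zpowers σ, (Subgroup.zpowers σ).subtype γ u = u) ↔ σ u = u := by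
    intro u
    constructor
    · intro h
      exact h ⟨σ, Subgroup.mem_zpowers σ⟩
    · rintro h ⟨γ, k, rfl⟩
      show (σ ^ k) u = u
      have h1 : Function.IsFixedPt σ u := h
      exact (h1.perm_zpow k)
  have hfixed : ∀ u : TwSeq z L, σ u = u ↔ ∀ i : ℤ, u.1 (i + m) = u.1 i := by
    intro u
    constructor
    · intro h i
      have := congrArg (fun v : TwSeq z L => v.1 i) h
      simpa [σ] using this
    · intro h
      apply TwSeq.ext'
      intro i
      simpa [σ] using h i
  refine ⟨(r : ℂ), r.2, ?_⟩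
  have h1 := congrArg Subtype.val hr
  simp only [AddMemClass.coe_add, AddSubmonoidClass.coe_finsetSum, nsmul_eq_mul, Subring.coe_mul, Subring.coe_natCast, F] at h1
  rw [sum_wtF c (oneFun G) hL, sum_mul_oneFun] at h1
  rw [h1]
  congr 1
  -- the fixed points are the conjugate sequences
  refine Finset.sum_bij' (fun u _ => u.1 0) (fun y _ => conjSeq z y hz) ?_ ?_ ?_ ?_ ?_
  · intro u _
    exact Finset.mem_univ _
  · intro y _
    simp only [Finset.mem_filter, Finset.mem_univ, true_and]
    rw [hfix, hfixed]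
    intro i
    simp only [conjSeq_apply]
    rw [zpow_add, zpow_natCast, hzm, mul_one]
  · intro u hu
    simp only [Finset.mem_filter, Finset.mem_univ, true_and] at hu
    rw [hfix, hfixed] at hu
    exact (eq_conjSeq_of_fixed hz hzm hLt u hu).symm
  · intro y _
    simp [conjSeq_apply]
  · intro u hu
    simp only [Finset.mem_filter, Finset.mem_univ, true_and] at hu
    rw [hfix, hfixed] at hu
    have h2 := eq_conjSeq_of_fixed hz hzm hLt u hu
    set y := u.1 0 with hy
    rw [h2, wtF, twProd_conjSeq]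
    congr 1
    · have h3 : ∀ i ∈ Finset.range L, coef c ((conjSeq z y hz).1 i) = coef c y := by
        intro i _
        exact coef_isClassFunction c y _
      rw [Finset.prod_congr rfl h3, Finset.prod_const, Finset.card_range]
    · have h3 : (y * z) ^ L * (z ^ L)⁻¹ * z = (y * z) ^ L := by
        rw [hz]; group
      rw [h3]

/-- The Frobenius congruence in the local centre. -/
theorem coef_add_pow_congr (hM : IsPModular p M) [M.IsPrime] {x y : IrrCharacter G → ℂ} (hx : x ∈ zS M G)
    (hy : y ∈ zS M G) {N n : ℕ} (hN : ∀ t, MemLocalIdeal M (coef (y ^ N) t)) (hNn : N ≤ p ^ n) (t : G) :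
    MemLocalIdeal M (coef ((x + y) ^ (p ^ n)) t - coef (x ^ (p ^ n)) t) := by
  have hpp : p.Prime := hp.out
  set L := p ^ n with hL
  obtain ⟨r, hr⟩ := exists_add_pow_prime_pow_eq hpp (⟨x, hx⟩ : zS M G) ⟨y, hy⟩ n
  have h1 := congrArg Subtype.val hr
  simp only [AddMemClass.coe_add, SubmonoidClass.coe_pow, MulMemClass.coe_mul, SubringClass.coe_natCast] at h1
  rw [← hL] at h1
  have h2 : (p : IrrCharacter G → ℂ) * x * y * (r : IrrCharacter G → ℂ) =
      (p : ℂ) • (x * y * (r : IrrCharacter G → ℂ)) := by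
    funext χ
    simp [mul_assoc]
  rw [h1, h2, coef_add, coef_add, coef_smul]
  simp only [Pi.add_apply, Pi.smul_apply, smul_eq_mul]
  have h3 : coef (x ^ L) t + coef (y ^ L) t + (p : ℂ) * coef (x * y * (r : IrrCharacter G → ℂ)) t - coef (x ^ L) t =
      coef (y ^ L) t + (p : ℂ) * coef (x * y * (r : IrrCharacter G → ℂ)) t := by ring
  rw [h3]
  apply MemLocalIdeal.add
  · have h4 : y ^ L = y ^ N * y ^ (L - N) := by
      rw [← pow_add, Nat.add_sub_cancel' hNn]
    rw [h4, coef_mul, conv]
    refine MemLocalIdeal.sum _ fun s _ => MemLocalIdeal.mul_right (hN s) ?_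
    exact ((zS M G).pow_mem hy (L - N)) _
  · refine MemLocalIdeal.mul_right (p_memLocalIdeal hM) ?_
    exact (zS M G).mul_mem ((zS M G).mul_mem hx hy) r.2 t

/-- The count of factorizations. -/
noncomputable def kulCount (p : ℕ) (g : G) : ℕ :=
  open scoped Classical in
  (Finset.univ.filter fun y : G => ¬ p ∣ orderOf y ∧ ∃ k : ℕ, orderOf (y * g⁻¹) = p ^ k).card

theorem principal_coef_congr (hM : IsPModular p M) {g : G} (hg : ¬ p ∣ orderOf g) :
    MemLocalIdeal M ((regCount p G : ℂ) * coef (indic (principalBlock M G)) g - (kulCount p g : ℂ)) := by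
  classical
  have := isPrime_of_modular hM
  have hpp : p.Prime := hp.out
  set R := regCount p G with hR
  set e := indic (principalBlock M G) with he
  have hPB : IsPBlock M (principalBlock M G) := ⟨oneIrr G, rfl⟩
  have heS : e ∈ zS M G := indic_mem_zS hPB
  have hcS : spec (regFun p G) ∈ zS M G := spec_mem_zS regFun_isClassFunction regFun_memLocalRing
  have hcoefc : coef (spec (regFun p G)) = regFun p G := coef_spec _ regFun_isClassFunction
  set x : IrrCharacter G → ℂ := (R : ℂ) • e with hx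
  have hxS : x ∈ zS M G := by
    intro t
    rw [hx, coef_smul]
    exact MemLocalRing.mul (MemLocalRing.natCast R) (heS t)
  set y : IrrCharacter G → ℂ := spec (regFun p G) - x with hy
  have hyS : y ∈ zS M G := (zS M G).sub_mem hcS hxS
  have hxy : x + y = spec (regFun p G) := by rw [hy]; ring
  have hyI : ∀ χ, MemLocalIdeal M (y χ) := by
    intro χ
    simp only [hy, hx, Pi.sub_apply, Pi.smul_apply, smul_eq_mul]
    by_cases hχ : χ ∈ principalBlock M G
    · rw [he, indic_apply_of_mem hχ, mul_one]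
      have h1 := zS_apply_congr hPB hcS hχ (show oneIrr G ∈ principalBlock M G from self_mem_blockOf (oneIrr G))
      rw [spec_regFun_one] at h1
      exact h1
    · rw [he, indic_apply_of_notMem hχ, mul_zero, sub_zero, spec_regFun_eq_zero hM hχ]
      exact memLocalIdeal_zero
  obtain ⟨N, hN0, hN⟩ := exists_pow_coef_memLocalIdeal hM hyI
  -- the choice of exponent
  set m := orderOf g⁻¹ with hm
  have hmg : m = orderOf g := orderOf_inv g
  have hm0 : 0 < m := orderOf_pos _
  have hcop : Nat.Coprime p m := by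
    rw [hmg]
    exact (Nat.Prime.coprime_iff_not_dvd hpp).mpr hg
  set A := (Nat.card G).factorization p with hA
  set n := m.totient * (A + N + 1) with hn
  have htot : 0 < m.totient := Nat.totient_pos.mpr hm0
  have hnge : A + N + 1 ≤ n := by
    rw [hn]
    exact Nat.le_mul_of_pos_left _ htot
  have hpn : n < p ^ n := Nat.lt_pow_self hpp.one_lt
  have hmod : p ^ n ≡ 1 [MOD m] := by
    rw [hn, pow_mul]
    have := (Nat.ModEq.pow_totient hcop).pow (A + N + 1)
    simpa using this
  have hz : (g⁻¹) ^ (p ^ n) = g⁻¹ := by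
    have := (pow_eq_pow_iff_modEq (x := g⁻¹) (n := p ^ n) (m := 1)).mpr hmod
    simpa using this
  set L := p ^ n with hL
  obtain ⟨r, hr, h1⟩ := coef_pow_eq_sum_add hM hcS hz
  rw [inv_inv, hcoefc] at h1
  have h2 := coef_add_pow_congr hM hxS hyS hN (n := n) (by omega) g
  rw [hxy, ← hL] at h2
  -- the term `x ^ L`
  have h3 : x ^ L = ((R : ℂ) ^ L) • e := by
    rw [hx, smul_pow, pow_of_idem (indic_mul_self _) (pow_pos hpp.pos n)]
  rw [h3, coef_smul] at h2
  simp only [Pi.smul_apply, smul_eq_mul] at h2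
  -- the count
  have h4 : ∑ y : G, (regFun p G y) ^ L * oneFun G ((y * g⁻¹) ^ L) = (kulCount p g : ℂ) := by
    rw [kulCount, Finset.card_filter]
    push_cast
    refine Finset.sum_congr rfl fun y _ => ?_
    by_cases hyr : ¬ p ∣ orderOf y
    · have h5 : regFun p G y = 1 := by simp [regFun, hyr]
      rw [h5, one_pow, one_mul]
      by_cases hp1 : ∃ k : ℕ, orderOf (y * g⁻¹) = p ^ k
      · have h6 : (y * g⁻¹) ^ L = 1 := by
          obtain ⟨k, hk⟩ := hp1
          rw [← orderOf_dvd_iff_pow_eq_one, hk]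
          have h7 : p ^ k ∣ Nat.card G := hk ▸ orderOf_dvd_natCard _
          have h8 : k ≤ A := (hpp.pow_dvd_iff_le_factorization Nat.card_pos.ne').mp h7
          exact pow_dvd_pow p (by omega)
        rw [if_pos ⟨hyr, hp1⟩, oneFun, if_pos h6]
      · have h6 : (y * g⁻¹) ^ L ≠ 1 := by
          intro h7
          apply hp1
          have h8 := orderOf_dvd_of_pow_eq_one h7
          obtain ⟨k, -, hk⟩ := (Nat.dvd_prime_pow hpp).mp h8
          exact ⟨k, hk⟩
        rw [if_neg (fun h => hp1 h.2), oneFun, if_neg h6]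
    · have h5 : regFun p G y = 0 := by simp [regFun, hyr]
      rw [h5, zero_pow (pow_pos hpp.pos n).ne', zero_mul, if_neg (fun h => hyr h.1)]
  rw [h4] at h1
  rw [h1] at h2
  -- Fermat
  have h6 : MemLocalIdeal M ((R : ℂ) ^ L - (R : ℂ)) := by
    have h7 : ((R ^ L : ℕ) : ZMod p) = (R : ZMod p) := by
      push_cast
      exact ZMod.pow_card_pow _
    have h8 := (ZMod.natCast_eq_natCast_iff' _ _ _).mp h7
    have h9 : (p : ℤ) ∣ ((R ^ L : ℕ) : ℤ) - (R : ℤ) := by
      exact Nat.modEq_iff_dvd.mp h8.symm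
    obtain ⟨w, hw⟩ := h9
    have h10 : (R : ℂ) ^ L - (R : ℂ) = (p : ℂ) * (w : ℂ) := by
      have := congrArg (fun u : ℤ => (u : ℂ)) hw
      push_cast at this
      exact this
    rw [h10]
    exact MemLocalIdeal.mul_right (p_memLocalIdeal hM) (MemLocalRing.intCast w)
  have h7 : (R : ℂ) * coef e g - (kulCount p g : ℂ) =
      -(((kulCount p g : ℂ) + (p : ℂ) * r - (R : ℂ) ^ L * coef e g)) + (p : ℂ) * r -
        ((R : ℂ) ^ L - (R : ℂ)) * coef e g := by ring
  rw [h7]
  refine MemLocalIdeal.sub (MemLocalIdeal.add (MemLocalIdeal.neg h2) ?_) ?_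
  · exact MemLocalIdeal.mul_right (p_memLocalIdeal hM) hr
  · exact MemLocalIdeal.mul_right h6 (heS g)

/-- **Külshammer's formula.** -/
theorem kulshammer (hM : IsPModular p M) {g : G} (hg : ¬ p ∣ orderOf g) :
    MemLocalIdeal M (blockCoeff (principalBlock M G) g - (kulCount p g : ℂ) / (regCount p G : ℂ)) := by
  have := isPrime_of_modular hM
  have hR := regCount_not_dvd (p := p) (G := G)
  have hR0 : (regCount p G : ℂ) ≠ 0 := by
    intro h
    have : regCount p G = 0 := by exact_mod_cast h
    rw [this] at hR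
    exact hR (dvd_zero p)
  have h1 := principal_coef_congr (p := p) hM hg
  have h2 := MemLocalIdeal.mul_left (inv_natCast_memLocalRing hM hR) h1
  rw [blockCoeff_eq_coef]
  convert h2 using 1
  field_simp

end Cfsg.Agent.Lib.Blocks
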