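import Cfsg.Agent.Lib.Char.GalEquiv
import Cfsg.Agent.Lib.Blocks.BlockField
import Cfsg.Agent.Lib.Blocks.Height
import Cfsg.Agent.Lib.Blocks.Second

/-! # `p`-conjugate characters: Brauer's estimate for the number of conjugates -/

set_option autoImplicit false
set_option linter.unusedSectionVars false

namespace Cfsg.Agent.Lib.Blocks

open Cfsg Cfsg.Agent.Lib.Char
open scoped ComplexConjugate

universe u

section Arith

variable {q m : ℕ} [NeZero q] [NeZero m]

/-- The Chinese remainder lift of a unit modulo `q`. -/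
noncomputable def pcK (hc : q.Coprime m) (u : (ZMod q)ˣ) : ℕ :=
  (Nat.chineseRemainder hc (u : ZMod q).val 1 : ℕ)

theorem pcK_left (hc : q.Coprime m) (u : (ZMod q)ˣ) : pcK hc u ≡ (u : ZMod q).val [MOD q] :=
  (Nat.chineseRemainder hc (u : ZMod q).val 1).2.1

theorem pcK_right (hc : q.Coprime m) (u : (ZMod q)ˣ) : pcK hc u ≡ 1 [MOD m] :=
  (Nat.chineseRemainder hc (u : ZMod q).val 1).2.2

theorem pcK_coprime (hc : q.Coprime m) (u : (ZMod q)ˣ) : (pcK hc u).Coprime (q * m) := by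
  apply Nat.Coprime.mul_right
  · have h1 := (pcK_left hc u).gcd_eq
    rw [Nat.Coprime, h1]
    exact ZMod.val_coe_unit_coprime u
  · have h1 := (pcK_right hc u).gcd_eq
    rw [Nat.Coprime, h1]
    simp

theorem pcK_mul (hc : q.Coprime m) (u v : (ZMod q)ˣ) :
    pcK hc u * pcK hc v ≡ pcK hc (u * v) [MOD q * m] := by
  apply (Nat.modEq_and_modEq_iff_modEq_mul hc).mp
  constructor
  · have h1 := (pcK_left hc u).mul (pcK_left hc v)
    refine h1.trans ?_
    refine Nat.ModEq.symm ((pcK_left hc (u * v)).trans ?_)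
    rw [Units.val_mul, ZMod.val_mul]
    exact Nat.mod_modEq _ _
  · have h1 := (pcK_right hc u).mul (pcK_right hc v)
    exact h1.trans (pcK_right hc (u * v)).symm

theorem pcK_one (hc : q.Coprime m) : pcK hc (1 : (ZMod q)ˣ) ≡ 1 [MOD q * m] := by
  apply (Nat.modEq_and_modEq_iff_modEq_mul hc).mp
  constructor
  · refine (pcK_left hc 1).trans ?_
    rw [Units.val_one, ZMod.val_one_eq_one_mod]
    exact Nat.mod_modEq _ _
  · exact pcK_right hc 1

/-- Sums over units modulo a prime power. -/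
theorem pc_sum_units {p a : ℕ} (hp : p.Prime) (ha : a ≠ 0) (hq : q = p ^ a) (F : ℕ → ℂ) :
    ∑ u : (ZMod q)ˣ, F (u : ZMod q).val =
      ∑ j ∈ Finset.range q, F j - ∑ i ∈ Finset.range (p ^ (a - 1)), F (p * i) := by
  classical
  have hq1 : q = p * p ^ (a - 1) := by
    rw [hq, ← pow_succ']
    congr 1
    omega
  have hcop : ∀ j : ℕ, j.Coprime q ↔ ¬ p ∣ j := by
    intro j
    rw [hq, Nat.coprime_pow_right_iff (Nat.pos_of_ne_zero ha), Nat.coprime_comm,
      Nat.Prime.coprime_iff_not_dvd hp]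
  have h1 : ∑ j ∈ Finset.range q, F j = ∑ j ∈ (Finset.range q).filter (fun j => ¬ p ∣ j), F j +
      ∑ j ∈ (Finset.range q).filter (fun j => p ∣ j), F j := by
    rw [add_comm, Finset.sum_filter_add_sum_filter_not]
  have h2 : ∑ j ∈ (Finset.range q).filter (fun j => p ∣ j), F j =
      ∑ i ∈ Finset.range (p ^ (a - 1)), F (p * i) := by
    symm
    refine Finset.sum_bij (fun i _ => p * i) ?_ ?_ ?_ ?_
    · intro i hi
      rw [Finset.mem_filter, Finset.mem_range] at *
      refine ⟨?_, dvd_mul_right _ _⟩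
      rw [hq1]
      exact Nat.mul_lt_mul_of_pos_left hi hp.pos
    · intro i _ j _ h
      exact Nat.eq_of_mul_eq_mul_left hp.pos h
    · intro j hj
      rw [Finset.mem_filter, Finset.mem_range] at hj
      obtain ⟨hj1, c, rfl⟩ := hj
      refine ⟨c, ?_, rfl⟩
      rw [Finset.mem_range]
      rw [hq1] at hj1
      exact Nat.lt_of_mul_lt_mul_left hj1
    · intro _ _
      rfl
  have h3 : ∑ u : (ZMod q)ˣ, F (u : ZMod q).val =
      ∑ j ∈ (Finset.range q).filter (fun j => ¬ p ∣ j), F j := by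
    refine Finset.sum_bij (fun u _ => (u : ZMod q).val) ?_ ?_ ?_ ?_
    · intro u _
      rw [Finset.mem_filter, Finset.mem_range]
      exact ⟨ZMod.val_lt _, (hcop _).mp (ZMod.val_coe_unit_coprime u)⟩
    · intro u _ v _ h
      exact Units.ext (ZMod.val_injective q h)
    · intro j hj
      rw [Finset.mem_filter, Finset.mem_range] at hj
      refine ⟨ZMod.unitOfCoprime j ((hcop j).mpr hj.2), Finset.mem_univ _, ?_⟩
      rw [ZMod.coe_unitOfCoprime, ZMod.val_natCast, Nat.mod_eq_of_lt hj.1]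
    · intro _ _
      rfl
  rw [h1, h2, h3]
  ring

/-- The Ramanujan sum over the units modulo a prime power is divisible by `p ^ (a - 1)`. -/
theorem pc_sum_root {p a : ℕ} (hp : p.Prime) (ha : a ≠ 0) (hq : q = p ^ a) {η : ℂ} (hη : η ^ q = 1) :
    ∃ c : ℤ, ∑ u : (ZMod q)ˣ, η ^ (u : ZMod q).val = (p : ℂ) ^ (a - 1) * c := by
  classical
  rw [pc_sum_units hp ha hq (fun j => η ^ j)]
  have hq1 : q = p * p ^ (a - 1) := by
    rw [hq, ← pow_succ']
    congr 1
    omega
  have hA : ∃ c : ℤ, ∑ j ∈ Finset.range q, η ^ j = (p : ℂ) ^ (a - 1) * c := by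
    by_cases h1 : η = 1
    · refine ⟨p, ?_⟩
      rw [h1]
      simp only [one_pow, Finset.sum_const, Finset.card_range, nsmul_eq_mul, mul_one]
      rw [hq1]
      push_cast
      ring
    · refine ⟨0, ?_⟩
      rw [geom_sum_eq h1, hη]
      simp
  have hB : ∃ c : ℤ, ∑ i ∈ Finset.range (p ^ (a - 1)), η ^ (p * i) = (p : ℂ) ^ (a - 1) * c := by
    simp only [pow_mul]
    by_cases h1 : η ^ p = 1
    · refine ⟨1, ?_⟩
      rw [h1]
      simp
    · refine ⟨0, ?_⟩
      rw [geom_sum_eq h1, ← pow_mul, ← hq1, hη]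
      simp
  obtain ⟨c₁, hc₁⟩ := hA
  obtain ⟨c₂, hc₂⟩ := hB
  refine ⟨c₁ - c₂, ?_⟩
  rw [hc₁, hc₂]
  push_cast
  ring

/-- Sums of a root of unity over the lifts of the units. -/
theorem pc_sum_pcK {p a : ℕ} (hp : p.Prime) (ha : a ≠ 0) (hq : q = p ^ a) (hc : q.Coprime m)
    {ζ : ℂ} (hζ : ζ ^ (q * m) = 1) :
    ∃ z : ℂ, IsIntegral ℤ z ∧ ∑ u : (ZMod q)ˣ, ζ ^ pcK hc u = (p : ℂ) ^ (a - 1) * z := by
  classical
  -- the idempotents
  let e : ℕ := (Nat.chineseRemainder hc 0 1 : ℕ)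
  let f : ℕ := (Nat.chineseRemainder hc 1 0 : ℕ)
  have he1 : e ≡ 0 [MOD q] := (Nat.chineseRemainder hc 0 1).2.1
  have he2 : e ≡ 1 [MOD m] := (Nat.chineseRemainder hc 0 1).2.2
  have hf1 : f ≡ 1 [MOD q] := (Nat.chineseRemainder hc 1 0).2.1
  have hf2 : f ≡ 0 [MOD m] := (Nat.chineseRemainder hc 1 0).2.2
  have hη : (ζ ^ f) ^ q = 1 := by
    obtain ⟨d, hd⟩ := (Nat.modEq_zero_iff_dvd.mp hf2)
    rw [← pow_mul, hd, show m * d * q = (q * m) * d by ring, pow_mul, hζ, one_pow]
  have hmain : ∀ u : (ZMod q)ˣ, ζ ^ pcK hc u = ζ ^ e * (ζ ^ f) ^ (u : ZMod q).val := by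
    intro u
    rw [← pow_mul, ← pow_add]
    have hmod : pcK hc u ≡ e + f * (u : ZMod q).val [MOD q * m] := by
      apply (Nat.modEq_and_modEq_iff_modEq_mul hc).mp
      constructor
      · refine (pcK_left hc u).trans ?_
        have h1 := he1.add (hf1.mul_right (u : ZMod q).val)
        simpa using h1.symm
      · refine (pcK_right hc u).trans ?_
        have h1 := he2.add (hf2.mul_right (u : ZMod q).val)
        simpa using h1.symm
    rw [pow_eq_pow_mod _ hζ, hmod, ← pow_eq_pow_mod _ hζ]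
  obtain ⟨c, hcc⟩ := pc_sum_root hp ha hq hη
  refine ⟨ζ ^ e * c, ?_, ?_⟩
  · apply IsIntegral.mul
    · apply IsIntegral.pow
      refine IsIntegral.of_pow (n := q * m) (Nat.mul_pos (NeZero.pos q) (NeZero.pos m)) ?_
      rw [hζ]
      exact isIntegral_one
    · exact isIntegral_algebraMap (R := ℤ) (x := c)
  · simp only [hmain]
    rw [← Finset.mul_sum, hcc]
    ring

end Arith

section Act

variable {G : Type u} [Group G] [Fintype G] {q m : ℕ} [NeZero q] [NeZero m]

/-- The coprimality needed for the power map. -/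
theorem pcK_coprime_card (hn : Nat.card G = q * m) (hc : q.Coprime m) (u : (ZMod q)ˣ) :
    (pcK hc u).Coprime (Nat.card G) := by
  rw [hn]
  exact pcK_coprime hc u

/-- The action of the units on irreducible characters. -/
noncomputable def pcA (hn : Nat.card G = q * m) (hc : q.Coprime m) (u : (ZMod q)ˣ) (χ : IrrCharacter G) :
    IrrCharacter G :=
  powIrrG (pcK_coprime_card hn hc u) χ

@[simp] theorem pcA_apply (hn : Nat.card G = q * m) (hc : q.Coprime m) (u : (ZMod q)ˣ) (χ : IrrCharacter G)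
    (g : G) : (pcA hn hc u χ : G → ℂ) g = (χ : G → ℂ) (g ^ pcK hc u) := rfl

theorem pc_pow_modEq (hn : Nat.card G = q * m) (g : G) {a b : ℕ} (h : a ≡ b [MOD q * m]) : g ^ a = g ^ b := by
  apply pow_eq_pow_iff_modEq.mpr
  refine h.of_dvd ?_
  rw [← hn]
  exact orderOf_dvd_natCard g

theorem pcA_mul (hn : Nat.card G = q * m) (hc : q.Coprime m) (u v : (ZMod q)ˣ) (χ : IrrCharacter G) :
    pcA hn hc (u * v) χ = pcA hn hc u (pcA hn hc v χ) := by
  apply Subtype.ext
  funext g
  simp only [pcA_apply]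
  rw [← pow_mul]
  exact congrArg _ (pc_pow_modEq hn g (pcK_mul hc u v)).symm

theorem pcA_one (hn : Nat.card G = q * m) (hc : q.Coprime m) (χ : IrrCharacter G) :
    pcA hn hc 1 χ = χ := by
  apply Subtype.ext
  funext g
  simp only [pcA_apply]
  have := pc_pow_modEq hn g (pcK_one hc)
  rw [this, pow_one]

/-- The action. -/
noncomputable def pcAct (hn : Nat.card G = q * m) (hc : q.Coprime m) : MulAction (ZMod q)ˣ (IrrCharacter G) where
  smul u χ := pcA hn hc u χ
  one_smul χ := pcA_one hn hc χ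
  mul_smul u v χ := pcA_mul hn hc u v χ

/-- The stabilizer. -/
def pcStab (hn : Nat.card G = q * m) (hc : q.Coprime m) (χ : IrrCharacter G) : Subgroup (ZMod q)ˣ where
  carrier := {u | pcA hn hc u χ = χ}
  mul_mem' := by
    intro u v hu hv
    show pcA hn hc (u * v) χ = χ
    rw [pcA_mul, show pcA hn hc v χ = χ from hv, show pcA hn hc u χ = χ from hu]
  one_mem' := pcA_one hn hc χ
  inv_mem' := by
    intro u hu
    show pcA hn hc u⁻¹ χ = χ
    have h1 : pcA hn hc u⁻¹ (pcA hn hc u χ) = χ := by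
      rw [← pcA_mul, inv_mul_cancel, pcA_one]
    rwa [show pcA hn hc u χ = χ from hu] at h1

/-- Orbit-stabilizer. -/
theorem pc_orbit_stab (hn : Nat.card G = q * m) (hc : q.Coprime m) (χ : IrrCharacter G) :
    Nat.card {ψ : IrrCharacter G // ∃ u, pcA hn hc u χ = ψ} * Nat.card (pcStab hn hc χ) = Nat.card (ZMod q)ˣ := by
  classical
  letI := pcAct (G := G) hn hc
  have h1 : pcStab hn hc χ = MulAction.stabilizer (ZMod q)ˣ χ := rfl
  have h2 := MulAction.index_stabilizer (ZMod q)ˣ χ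
  have h3 := Subgroup.card_mul_index (MulAction.stabilizer (ZMod q)ˣ χ)
  have h4 : Nat.card {ψ : IrrCharacter G // ∃ u, pcA hn hc u χ = ψ} = (MulAction.orbit (ZMod q)ˣ χ).ncard := rfl
  rw [h1, h4, ← h2, mul_comm]
  exact h3

/-- The number of `u` sending `χ` to `ψ`, and orthogonality. -/
theorem pc_sum_inner (hn : Nat.card G = q * m) (hc : q.Coprime m) (χ ψ : IrrCharacter G) :
    ∑ x : G, (∑ u : (ZMod q)ˣ, (pcA hn hc u χ : G → ℂ) x⁻¹) * (ψ : G → ℂ) x =
      (Nat.card G : ℂ) * ((Finset.univ.filter fun u : (ZMod q)ˣ => pcA hn hc u χ = ψ).card : ℂ) := by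
  classical
  have h1 : ∀ x : G, (∑ u : (ZMod q)ˣ, (pcA hn hc u χ : G → ℂ) x⁻¹) * (ψ : G → ℂ) x =
      ∑ u : (ZMod q)ˣ, (ψ : G → ℂ) x * conj ((pcA hn hc u χ : G → ℂ) x) := by
    intro x
    rw [Finset.sum_mul]
    refine Finset.sum_congr rfl fun u _ => ?_
    rw [irr_apply_inv, mul_comm]
  simp only [h1]
  rw [Finset.sum_comm]
  have hc0 : (Nat.card G : ℂ) ≠ 0 := by exact_mod_cast Nat.card_pos.ne'
  have h2 : ∀ u : (ZMod q)ˣ, ∑ x : G, (ψ : G → ℂ) x * conj ((pcA hn hc u χ : G → ℂ) x) =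
      (Nat.card G : ℂ) * (if pcA hn hc u χ = ψ then 1 else 0) := by
    intro u
    have h3 := classInner_irr ψ.2 (pcA hn hc u χ).2
    rw [classInner] at h3
    have h4 : (if (ψ : G → ℂ) = (pcA hn hc u χ : G → ℂ) then (1 : ℂ) else 0) = if pcA hn hc u χ = ψ then 1 else 0 := by
      by_cases h : pcA hn hc u χ = ψ
      · rw [if_pos h, if_pos (congrArg Subtype.val h.symm)]
      · rw [if_neg h, if_neg (fun h5 => h (Subtype.ext h5.symm))]
    rw [h4] at h3
    rw [← h3, ← mul_assoc, mul_inv_cancel₀ hc0, one_mul]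
  simp only [h2]
  rw [← Finset.mul_sum]
  congr 1
  rw [Finset.sum_boole]

end Act

section Main

variable {G : Type u} [Group G] [Fintype G] {q m : ℕ} [NeZero q] [NeZero m]

/-- The integral class function attached to the orbit. -/
noncomputable def pcW (hn : Nat.card G = q * m) (hc : q.Coprime m) (p a : ℕ) (χ : IrrCharacter G) : G → ℂ :=
  fun x => ((p : ℂ) ^ (a - 1))⁻¹ * ∑ u : (ZMod q)ˣ, (pcA hn hc u χ : G → ℂ) x⁻¹

theorem pcW_class (hn : Nat.card G = q * m) (hc : q.Coprime m) (p a : ℕ) (χ : IrrCharacter G) :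
    IsClassFunction G (pcW hn hc p a χ) := by
  intro g h
  simp only [pcW]
  congr 1
  refine Finset.sum_congr rfl fun u _ => ?_
  have h1 : (h * g * h⁻¹)⁻¹ = h * g⁻¹ * h⁻¹ := by group
  rw [h1]
  exact irr_isClassFunction _ _ _

theorem pcW_integral {p a : ℕ} (hp : p.Prime) (ha : a ≠ 0) (hq : q = p ^ a)
    (hn : Nat.card G = q * m) (hc : q.Coprime m) (χ : IrrCharacter G) (x : G) :
    IsIntegral ℤ (pcW hn hc p a χ x) := by
  classical
  obtain ⟨n, ρ, hρ⟩ := irr_isCharacter χ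
  obtain ⟨μ, h1, h2⟩ := character_pow_eq_sum_eigen ρ x⁻¹
  have h3 : ∀ i, μ i ^ (q * m) = 1 := by
    intro i
    obtain ⟨d, hd⟩ := orderOf_dvd_natCard x⁻¹
    rw [hn] at hd
    rw [hd, pow_mul, h1, one_pow]
  have h4 := fun i => pc_sum_pcK (m := m) hp ha hq hc (h3 i)
  choose z hz1 hz2 using h4
  have hp0 : (p : ℂ) ^ (a - 1) ≠ 0 := pow_ne_zero _ (by exact_mod_cast hp.ne_zero)
  have h5 : pcW hn hc p a χ x = ∑ i, z i := by
    simp only [pcW, pcA_apply]
    have h6 : ∀ u : (ZMod q)ˣ, (χ : G → ℂ) (x⁻¹ ^ pcK hc u) = ∑ i, μ i ^ pcK hc u := by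
      intro u
      rw [← h2, hρ]
    simp only [h6]
    rw [Finset.sum_comm]
    simp only [hz2]
    rw [← Finset.mul_sum, ← mul_assoc, inv_mul_cancel₀ hp0, one_mul]
  rw [h5]
  exact IsIntegral.sum _ fun i _ => hz1 i

/-- The value of the central character. -/
theorem pc_spec (hn : Nat.card G = q * m) (hc : q.Coprime m) (p a : ℕ) (χ ψ : IrrCharacter G) :
    spec (pcW hn hc p a χ) ψ = (Nat.card G : ℂ) * ((Finset.univ.filter fun u : (ZMod q)ˣ => pcA hn hc u χ = ψ).card : ℂ) /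
      ((p : ℂ) ^ (a - 1) * (ψ : G → ℂ) 1) := by
  classical
  rw [spec]
  have h1 : ∑ x : G, pcW hn hc p a χ x * (ψ : G → ℂ) x =
      ((p : ℂ) ^ (a - 1))⁻¹ * ∑ x : G, (∑ u : (ZMod q)ˣ, (pcA hn hc u χ : G → ℂ) x⁻¹) * (ψ : G → ℂ) x := by
    rw [Finset.mul_sum]
    refine Finset.sum_congr rfl fun x _ => ?_
    simp only [pcW]
    ring
  rw [h1, pc_sum_inner, div_eq_mul_inv, div_eq_mul_inv, mul_inv]
  ring

/-- Local rational numbers. -/
theorem pc_local_le {p : ℕ} [hp : Fact p.Prime] {M : Ideal AlgInt} (hM : IsPModular p M) {A B : ℕ} (hA : A ≠ 0) (hB : B ≠ 0)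
    (hz : MemLocalRing M ((A : ℂ) / (B : ℂ))) : B.factorization p ≤ A.factorization p := by
  have := isPrime_of_modular hM
  by_contra hlt
  push Not at hlt
  have hpp := hp.out
  obtain ⟨A₁, hA₁, hA₂⟩ : ∃ A₁, ¬ p ∣ A₁ ∧ A = p ^ A.factorization p * A₁ :=
    ⟨A / p ^ A.factorization p, Nat.not_dvd_ordCompl hpp hA, (Nat.ordProj_mul_ordCompl_eq_self A p).symm⟩
  obtain ⟨B₁, hB₁, hB₂⟩ : ∃ B₁, ¬ p ∣ B₁ ∧ B = p ^ B.factorization p * B₁ :=
    ⟨B / p ^ B.factorization p, Nat.not_dvd_ordCompl hpp hB, (Nat.ordProj_mul_ordCompl_eq_self B p).symm⟩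
  set x := A.factorization p
  set y := B.factorization p
  have hB₁0 : (B₁ : ℂ) ≠ 0 := by
    have : B₁ ≠ 0 := by
      rintro rfl
      simp at hB₁
    exact_mod_cast this
  have hp0 : (p : ℂ) ≠ 0 := by exact_mod_cast hpp.ne_zero
  have h1 : ((A : ℂ) / (B : ℂ)) * ((p ^ (y - x) * B₁ : ℕ) : ℂ) = (A₁ : ℂ) := by
    rw [hA₂, hB₂]
    push_cast
    have h2 : (p : ℂ) ^ y = (p : ℂ) ^ x * (p : ℂ) ^ (y - x) := by
      rw [← pow_add]
      congr 1
      omega
    rw [h2]
    field_simp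
  have h3 : MemLocalIdeal M ((p ^ (y - x) * B₁ : ℕ) : ℂ) := by
    rw [natCast_memLocalIdeal_iff hM]
    exact Dvd.dvd.mul_right (dvd_pow_self p (by omega)) _
  have h4 := MemLocalIdeal.mul_left hz h3
  rw [h1] at h4
  exact natCast_not_memLocalIdeal hM hA₁ h4

theorem pc_local_unit {p : ℕ} [hp : Fact p.Prime] {M : Ideal AlgInt} (hM : IsPModular p M) {A B : ℕ} (hA : A ≠ 0) (hB : B ≠ 0)
    (hAB : B.factorization p = A.factorization p) : ¬ MemLocalIdeal M ((A : ℂ) / (B : ℂ)) := by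
  have := isPrime_of_modular hM
  intro hz
  have hpp := hp.out
  obtain ⟨A₁, hA₁, hA₂⟩ : ∃ A₁, ¬ p ∣ A₁ ∧ A = p ^ A.factorization p * A₁ :=
    ⟨A / p ^ A.factorization p, Nat.not_dvd_ordCompl hpp hA, (Nat.ordProj_mul_ordCompl_eq_self A p).symm⟩
  obtain ⟨B₁, hB₁, hB₂⟩ : ∃ B₁, ¬ p ∣ B₁ ∧ B = p ^ B.factorization p * B₁ :=
    ⟨B / p ^ B.factorization p, Nat.not_dvd_ordCompl hpp hB, (Nat.ordProj_mul_ordCompl_eq_self B p).symm⟩
  rw [hAB] at hB₂
  set x := A.factorization p
  have hB₁0 : (B₁ : ℂ) ≠ 0 := by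
    have : B₁ ≠ 0 := by
      rintro rfl
      simp at hB₁
    exact_mod_cast this
  have hp0 : (p : ℂ) ≠ 0 := by exact_mod_cast hpp.ne_zero
  have h1 : ((A : ℂ) / (B : ℂ)) * (B₁ : ℂ) = (A₁ : ℂ) := by
    rw [hA₂, hB₂]
    push_cast
    field_simp
  have h4 := MemLocalIdeal.mul_right hz (MemLocalRing.natCast (M := M) B₁)
  rw [h1] at h4
  exact natCast_not_memLocalIdeal hM hA₁ h4

/-- The count of units fixing `χ` is the order of the stabilizer. -/
theorem pc_filter_card (hn : Nat.card G = q * m) (hc : q.Coprime m) (χ : IrrCharacter G) :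
    (Finset.univ.filter fun u : (ZMod q)ˣ => pcA hn hc u χ = χ).card = Nat.card (pcStab hn hc χ) := by
  classical
  rw [Nat.card_eq_fintype_card, Fintype.card_subtype]
  exact congrArg Finset.card (Finset.filter_congr fun u _ => Iff.rfl)

/-- The Galois description of the orbit. -/
theorem pc_orbit_iff (hn : Nat.card G = q * m) (hc : q.Coprime m) (χ ψ : IrrCharacter G) :
    (∃ σ : ℂ ≃+* ℂ, σ (Complex.exp (2 * Real.pi * Complex.I / (m : ℂ))) = Complex.exp (2 * Real.pi * Complex.I / (m : ℂ)) ∧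
      (ψ : G → ℂ) = fun g => σ ((χ : G → ℂ) g)) ↔ ∃ u, pcA hn hc u χ = ψ := by
  classical
  have hn0 : 0 < Nat.card G := Nat.card_pos
  haveI : NeZero (Nat.card G) := ⟨hn0.ne'⟩
  have hε : IsPrimitiveRoot (Complex.exp (2 * Real.pi * Complex.I / (m : ℂ))) m :=
    Complex.isPrimitiveRoot_exp m (NeZero.ne m)
  set ε := Complex.exp (2 * Real.pi * Complex.I / (m : ℂ)) with hεdef
  have hεn : ε ^ Nat.card G = 1 := by
    rw [hn, mul_comm, pow_mul, hε.pow_eq_one, one_pow]
  constructor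
  · rintro ⟨σ, hσε, hψ⟩
    have hζ := isPrimitiveRoot_zetaC (Nat.card G)
    set ζ := zetaC (Nat.card G) with hζdef
    have h1 : (σ ζ) ^ Nat.card G = 1 := by
      rw [← map_pow, hζ.pow_eq_one, map_one]
    obtain ⟨k, -, hk⟩ := hζ.eq_pow_of_pow_eq_one h1
    have hprim : IsPrimitiveRoot (σ ζ) (Nat.card G) := hζ.map_of_injective (f := (σ : ℂ →+* ℂ)) σ.injective
    have hkc : k.Coprime (Nat.card G) := by
      rw [← hk] at hprim
      exact (hζ.pow_iff_coprime hn0 k).mp hprim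
    have hσ : ∀ e : ℂ, e ^ Nat.card G = 1 → (σ : ℂ →+* ℂ) e = e ^ k := by
      intro e he
      obtain ⟨j, -, rfl⟩ := hζ.eq_pow_of_pow_eq_one he
      show σ (ζ ^ j) = _
      rw [map_pow, ← hk, ← pow_mul, ← pow_mul, mul_comm]
    have h2 : ε ^ k = ε := by
      have := hσ ε hεn
      rw [← this]
      exact hσε
    have hkm : k ≡ 1 [MOD m] := by
      rcases Nat.eq_zero_or_pos k with rfl | hk0
      · have h3 : Nat.card G = 1 := by simpa using hkc
        have h4 : m = 1 := by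
          rw [hn] at h3
          exact Nat.eq_one_of_mul_eq_one_left h3
        rw [h4]
        exact Nat.modEq_one
      · have h3 : ε ^ (k - 1) = 1 := by
          have h4 : ε ≠ 0 := hε.ne_zero (NeZero.ne m)
          have h5 : ε ^ (k - 1) * ε = 1 * ε := by
            rw [← pow_succ, Nat.sub_add_cancel hk0, h2, one_mul]
          exact mul_right_cancel₀ h4 h5
        have h4 := hε.dvd_of_pow_eq_one _ h3
        exact ((Nat.modEq_iff_dvd' hk0).mpr h4).symm
    have hkq : k.Coprime q := by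
      rw [hn] at hkc
      exact Nat.Coprime.coprime_mul_right_right hkc
    refine ⟨ZMod.unitOfCoprime k hkq, ?_⟩
    apply Subtype.ext
    funext g
    rw [pcA_apply, hψ]
    show _ = (σ : ℂ →+* ℂ) ((χ : G → ℂ) g)
    rw [sigma_character (irr_isCharacter χ) (σ : ℂ →+* ℂ) k hσ g]
    apply congrArg
    apply pc_pow_modEq hn
    apply (Nat.modEq_and_modEq_iff_modEq_mul hc).mp
    constructor
    · refine (pcK_left hc _).trans ?_
      rw [ZMod.coe_unitOfCoprime, ZMod.val_natCast]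
      exact Nat.mod_modEq _ _
    · exact (pcK_right hc _).trans hkm.symm
  · rintro ⟨u, rfl⟩
    set k := pcK hc u with hkdef
    obtain ⟨σ, hσ⟩ := pc_exists_sigma (Nat.card G) k (pcK_coprime_card hn hc u)
    refine ⟨σ, ?_, ?_⟩
    · rw [hσ ε hεn, pow_eq_pow_mod k hε.pow_eq_one, (pcK_right hc u : k % m = 1 % m), ← pow_eq_pow_mod 1 hε.pow_eq_one, pow_one]
    · funext g
      rw [pcA_apply]
      exact (sigma_character (irr_isCharacter χ) (σ : ℂ →+* ℂ) k hσ g).symm

/-- The block step: if the central character of `pcW` is a unit at `χ`, then the units congruent to `1`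
modulo the defect fix `χ`. -/
theorem pc_block_step {p a : ℕ} [hp : Fact p.Prime] {M : Ideal AlgInt} (hM : IsPModular p M)
    (hq : q = p ^ a) (hn : Nat.card G = q * m) (hc : q.Coprime m) (ha : a ≠ 0) (hafac : (Nat.card G).factorization p = a)
    (χ : IrrCharacter G) (hu : ¬ MemLocalIdeal M (spec (pcW hn hc p a χ) χ))
    (k : ℕ) (hk : (charDegree (χ : G → ℂ)).factorization p + k = a) (u : (ZMod q)ˣ)
    (hu1 : (u : ZMod q).val ≡ 1 [MOD p ^ k]) : pcA hn hc u χ = χ := by
  classical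
  have hMp := isPrime_of_modular hM
  have hpp := hp.out
  set B₀ := blockOf M (χ : G → ℂ) with hB₀
  have hBb : IsPBlock M B₀ := ⟨χ, rfl⟩
  have hχB : χ ∈ B₀ := self_mem_blockOf χ
  have hcs := pcW_class hn hc p a χ
  have hloc : ∀ x, MemLocalRing M (pcW hn hc p a χ x) := fun x =>
    memLocalRing_of_isIntegral (pcW_integral hpp ha hq hn hc χ x)
  have hzS := spec_mem_zS hcs hloc
  -- the block lies in the orbit
  have horb : ∀ ψ ∈ B₀, ∃ v, pcA hn hc v χ = ψ := by
    intro ψ hψ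
    by_contra hno
    have h1 := zS_apply_congr hBb hzS hχB hψ
    have h2 : spec (pcW hn hc p a χ) ψ = 0 := by
      rw [pc_spec]
      have h3 : (Finset.univ.filter fun v : (ZMod q)ˣ => pcA hn hc v χ = ψ) = ∅ := by
        rw [Finset.filter_eq_empty_iff]
        intro v _ hv
        exact hno ⟨v, hv⟩
      rw [h3]
      simp
    rw [h2, sub_zero] at h1
    exact hu h1
  have hdeg : ∀ ψ ∈ B₀, charDegree (ψ : G → ℂ) = charDegree (χ : G → ℂ) := by
    intro ψ hψ
    obtain ⟨v, rfl⟩ := horb ψ hψ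
    rw [charDegree, charDegree, pcA_apply, one_pow]
  have hdef : blockDefect p B₀ = k := by
    rw [blockDefect, hafac]
    have h1 : (fun ψ : IrrCharacter G => (charDegree (ψ : G → ℂ)).factorization p) '' B₀ =
        {(charDegree (χ : G → ℂ)).factorization p} := by
      ext n
      constructor
      · rintro ⟨ψ, hψ, rfl⟩
        simp only [Set.mem_singleton_iff]
        rw [hdeg ψ hψ]
      · intro hn'
        rw [Set.mem_singleton_iff] at hn'
        exact ⟨χ, hχB, hn'.symm⟩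
    rw [h1, csInf_singleton]
    omega
  apply Subtype.ext
  funext g
  rw [pcA_apply]
  set K := pcK hc u with hKdef
  have hKc : K.Coprime (Nat.card G) := pcK_coprime_card hn hc u
  by_cases hg : (χ : G → ℂ) g = 0
  · rw [hg]
    exact (apply_pow_eq_zero_iff (irr_isCharacter χ) hKc g).mpr hg
  · obtain ⟨α, hα⟩ := exists_isPExp G p
    have hpart := hα.isPPart g
    have hex : ∃ D : Subgroup G, IsDefectGroup p M (blockOf M (χ : G → ℂ)) D ∧ g ^ α ∈ D := by
      by_contra hno
      push Not at hno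
      exact hg (irr_eq_zero_of_forall_not_mem_defect hM χ hpart hno)
    obtain ⟨D, hD, hxD⟩ := hex
    have hcD := card_defectGroup hM hBb hD
    rw [hdef] at hcD
    obtain ⟨y, hxy, hcomm, -, hyo⟩ := hpart
    set x := g ^ α with hxdef
    have hxk : x ^ p ^ k = 1 := by
      have h1 : orderOf x ∣ p ^ k := by
        rw [← hcD]
        have := Subgroup.orderOf_dvd_natCard D hxD
        exact this
      exact orderOf_dvd_iff_pow_eq_one.mp h1
    have hym : y ^ m = 1 := by
      have h1 : orderOf y ∣ q * m := by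
        rw [← hn]
        exact orderOf_dvd_natCard y
      have h2 : Nat.Coprime (orderOf y) q := by
        rw [hq]
        exact Nat.Coprime.pow_right _ ((Nat.Prime.coprime_iff_not_dvd hpp).mpr hyo).symm
      exact orderOf_dvd_iff_pow_eq_one.mp (h2.dvd_of_dvd_mul_left h1)
    have hKp : K ≡ 1 [MOD p ^ k] := by
      have h1 : p ^ k ∣ q := by
        rw [hq]
        exact pow_dvd_pow _ (by omega)
      exact ((pcK_left hc u).of_dvd h1).trans hu1
    have hKm : K ≡ 1 [MOD m] := pcK_right hc u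
    have hx1 : x ^ K = x := by
      rw [pow_eq_pow_mod K hxk, (hKp : K % p ^ k = 1 % p ^ k), ← pow_eq_pow_mod 1 hxk, pow_one]
    have hy1 : y ^ K = y := by
      rw [pow_eq_pow_mod K hym, (hKm : K % m = 1 % m), ← pow_eq_pow_mod 1 hym, pow_one]
    have h3 : g ^ K = g := by
      rw [← hxy, hcomm.mul_pow, hx1, hy1]
    rw [h3]

/-- The size of the congruence subgroup. -/
theorem pc_card_congr {p a k : ℕ} (hp : p.Prime) (hq : q = p ^ a) (hk : k ≠ 0) (hka : k ≤ a) :
    p ^ (a - k) ∣ Nat.card {u : (ZMod q)ˣ // (u : ZMod q).val ≡ 1 [MOD p ^ k]} := by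
  classical
  have hd : p ^ k ∣ q := by
    rw [hq]
    exact pow_dvd_pow _ hka
  haveI : NeZero (p ^ k) := ⟨pow_ne_zero _ hp.ne_zero⟩
  set f := ZMod.unitsMap hd with hf
  have hfs : Function.Surjective f := ZMod.unitsMap_surjective hd
  have hmem : ∀ u : (ZMod q)ˣ, u ∈ f.ker ↔ (u : ZMod q).val ≡ 1 [MOD p ^ k] := by
    intro u
    rw [MonoidHom.mem_ker, Units.ext_iff, ZMod.unitsMap_val, Units.val_one]
    rw [← ZMod.natCast_val, ← Nat.cast_one (R := ZMod (p ^ k)), ZMod.natCast_eq_natCast_iff]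
  have hcard : Nat.card {u : (ZMod q)ˣ // (u : ZMod q).val ≡ 1 [MOD p ^ k]} = Nat.card f.ker :=
    Nat.card_congr (Equiv.subtypeEquivRight fun u => (hmem u).symm)
  rw [hcard]
  have h1 : f.ker.index = Nat.card (ZMod (p ^ k))ˣ := by
    rw [Subgroup.index_ker, MonoidHom.range_eq_top.mpr hfs]
    exact Nat.card_congr Subgroup.topEquiv.toEquiv
  have h2 := Subgroup.card_mul_index f.ker
  have ht : q.totient = p ^ (a - 1) * (p - 1) := by
    rw [hq, Nat.totient_prime_pow hp (by omega)]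
  rw [h1, Nat.card_eq_fintype_card (α := (ZMod q)ˣ), Nat.card_eq_fintype_card (α := (ZMod (p ^ k))ˣ),
    ZMod.card_units_eq_totient, ZMod.card_units_eq_totient, ht,
    Nat.totient_prime_pow hp (by omega)] at h2
  have h3 : p ^ (a - 1) = p ^ (a - k) * p ^ (k - 1) := by
    rw [← pow_add]
    congr 1
    omega
  rw [h3] at h2
  have h4 : 0 < p ^ (k - 1) * (p - 1) := Nat.mul_pos (pow_pos hp.pos _) (Nat.sub_pos_of_lt hp.one_lt)
  have h5 : Nat.card f.ker * (p ^ (k - 1) * (p - 1)) = p ^ (a - k) * (p ^ (k - 1) * (p - 1)) := by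
    rw [h2]
    ring
  rw [Nat.eq_of_mul_eq_mul_right h4 h5]

/-- **Brauer's estimate.** -/
theorem pc_main {p : ℕ} [hp : Fact p.Prime] (χ : IrrCharacter G) (hG : Nat.card G = p ^ (Nat.card G).factorization p * m)
    (hc : (p ^ (Nat.card G).factorization p).Coprime m)
    [NeZero (p ^ (Nat.card G).factorization p)] {M : Ideal AlgInt} (hM : IsPModular p M) {r : ℕ}
    (hr : Nat.card {ψ : IrrCharacter G // ∃ u, pcA hG hc u χ = ψ} = r) :
    (r * charDegree (χ : G → ℂ)).factorization p ≤ (Nat.card G).factorization p ∧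
      (p ^ (Nat.card G).factorization p ∣ r * charDegree (χ : G → ℂ) →
        p ^ (Nat.card G).factorization p ∣ charDegree (χ : G → ℂ)) := by
  classical
  have hpp := hp.out
  set a := (Nat.card G).factorization p with ha
  set q := p ^ a with hq
  have hcard0 : Nat.card G ≠ 0 := Nat.card_pos.ne'
  have hdeg0 : charDegree (χ : G → ℂ) ≠ 0 := (charDegree_pos χ.2).ne'
  have hos := pc_orbit_stab hG hc χ
  rw [hr] at hos
  have hr0 : r ≠ 0 := by
    rintro rfl
    rw [zero_mul] at hos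
    have : 0 < Nat.card (ZMod q)ˣ := Nat.card_pos
    omega
  have hH0 : Nat.card (pcStab hG hc χ) ≠ 0 := Nat.card_pos.ne'
  by_cases ha0 : a = 0
  · -- the case of a `p'`-group
    have hq1 : q = 1 := by rw [hq, ha0, pow_zero]
    have hr1 : r = 1 := by
      have h1 : Nat.card (ZMod q)ˣ = 1 := by
        rw [Nat.card_eq_fintype_card, ZMod.card_units_eq_totient, hq1, Nat.totient_one]
      rw [h1] at hos
      exact Nat.eq_one_of_mul_eq_one_right hos
    rw [hr1, one_mul]
    constructor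
    · have h1 : charDegree (χ : G → ℂ) ∣ Nat.card G := charDegree_dvd_card χ.2
      exact (Nat.factorization_le_iff_dvd hdeg0 hcard0).mpr h1 p
    · intro _
      rw [hq1]
      exact one_dvd _
  have hfac : ∀ {X Y : ℕ}, X ≠ 0 → Y ≠ 0 → (X * Y).factorization p = X.factorization p + Y.factorization p := by
    intro X Y hX hY
    rw [Nat.factorization_mul hX hY]
    rfl
  -- the arithmetic of the orbit
  have hφ : r * Nat.card (pcStab hG hc χ) = p ^ (a - 1) * (p - 1) := by
    rw [hos, Nat.card_eq_fintype_card, ZMod.card_units_eq_totient, hq, Nat.totient_prime_pow hpp (Nat.pos_of_ne_zero ha0)]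
  have hp1 : (p - 1).factorization p = 0 := by
    apply Nat.factorization_eq_zero_of_not_dvd
    intro h
    have h1 := Nat.le_of_dvd (Nat.sub_pos_of_lt hpp.one_lt) h
    have h2 := hpp.one_lt
    omega
  have hν1 : r.factorization p + (Nat.card (pcStab hG hc χ)).factorization p = a - 1 := by
    rw [← hfac hr0 hH0, hφ, hfac (pow_ne_zero _ hpp.ne_zero) (Nat.sub_pos_of_lt hpp.one_lt).ne', hp1, add_zero,
      Nat.Prime.factorization_pow hpp]
    simp
  have hB0 : p ^ (a - 1) * charDegree (χ : G → ℂ) ≠ 0 := mul_ne_zero (pow_ne_zero _ hpp.ne_zero) hdeg0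
  have hA0 : Nat.card G * Nat.card (pcStab hG hc χ) ≠ 0 := mul_ne_zero hcard0 hH0
  have hνB : (p ^ (a - 1) * charDegree (χ : G → ℂ)).factorization p = a - 1 + (charDegree (χ : G → ℂ)).factorization p := by
    rw [hfac (pow_ne_zero _ hpp.ne_zero) hdeg0, Nat.Prime.factorization_pow hpp]
    simp
  have hνA : (Nat.card G * Nat.card (pcStab hG hc χ)).factorization p = a + (Nat.card (pcStab hG hc χ)).factorization p := by
    rw [hfac hcard0 hH0]
  have hspec : spec (pcW hG hc p a χ) χ =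
      ((Nat.card G * Nat.card (pcStab hG hc χ) : ℕ) : ℂ) / ((p ^ (a - 1) * charDegree (χ : G → ℂ) : ℕ) : ℂ) := by
    rw [pc_spec, pc_filter_card, apply_one_eq_charDegree (irr_isCharacter χ)]
    push_cast
    rfl
  have hMp := isPrime_of_modular hM
  have hloc : MemLocalRing M (spec (pcW hG hc p a χ) χ) :=
    spec_memLocalRing (pcW_class hG hc p a χ)
      (fun x => memLocalRing_of_isIntegral (pcW_integral hpp ha0 hq hG hc χ x)) χ
  have hle := pc_local_le hM hA0 hB0 (hspec ▸ hloc)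
  rw [hνA, hνB] at hle
  have hmain : (r * charDegree (χ : G → ℂ)).factorization p = r.factorization p + (charDegree (χ : G → ℂ)).factorization p :=
    hfac hr0 hdeg0
  refine ⟨by rw [hmain]; omega, ?_⟩
  intro hdvd
  by_contra hnd
  have hrd : r * charDegree (χ : G → ℂ) ≠ 0 := mul_ne_zero hr0 hdeg0
  have h1 : a ≤ (r * charDegree (χ : G → ℂ)).factorization p :=
    (hpp.pow_dvd_iff_le_factorization hrd).mp hdvd
  have h2 : ¬ a ≤ (charDegree (χ : G → ℂ)).factorization p := fun h =>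
    hnd ((hpp.pow_dvd_iff_le_factorization hdeg0).mpr h)
  rw [hmain] at h1
  set v := (charDegree (χ : G → ℂ)).factorization p with hv
  set k := r.factorization p with hk
  have hka : v + k = a := by omega
  have hunit : ¬ MemLocalIdeal M (spec (pcW hG hc p a χ) χ) := by
    rw [hspec]
    apply pc_local_unit hM hA0 hB0
    rw [hνA, hνB]
    omega
  have hstep := fun u hu => pc_block_step hM hq hG hc ha0 ha.symm χ hunit k hka u hu
  have hcong := pc_card_congr (a := a) (k := k) hpp hq (by omega) (by omega)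
  have hle2 : Nat.card {u : (ZMod q)ˣ // (u : ZMod q).val ≡ 1 [MOD p ^ k]} ∣ Nat.card (pcStab hG hc χ) := by
    -- the congruence subgroup lies in the stabilizer
    have hd : p ^ k ∣ q := by
      rw [hq]
      exact pow_dvd_pow _ (by omega)
    haveI : NeZero (p ^ k) := ⟨pow_ne_zero _ hpp.ne_zero⟩
    set f := ZMod.unitsMap hd with hf
    have hmem : ∀ u : (ZMod q)ˣ, u ∈ f.ker ↔ (u : ZMod q).val ≡ 1 [MOD p ^ k] := by
      intro u
      rw [MonoidHom.mem_ker, Units.ext_iff, ZMod.unitsMap_val, Units.val_one]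
      rw [← ZMod.natCast_val, ← Nat.cast_one (R := ZMod (p ^ k)), ZMod.natCast_eq_natCast_iff]
    have hcard : Nat.card {u : (ZMod q)ˣ // (u : ZMod q).val ≡ 1 [MOD p ^ k]} = Nat.card f.ker :=
      Nat.card_congr (Equiv.subtypeEquivRight fun u => (hmem u).symm)
    rw [hcard]
    apply Subgroup.card_dvd_of_le
    intro u hu
    exact hstep u ((hmem u).mp hu)
  have h3 := hcong.trans hle2
  have h4 := (hpp.pow_dvd_iff_le_factorization hH0).mp h3
  omega

end Main

end Cfsg.Agent.Lib.Blocks
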