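import Cfsg.Agent.Lib.Blocks.PConstrained
import Cfsg.Agent.Lib.H8Group.Subsection

set_option autoImplicit false
set_option linter.unusedSectionVars false

namespace Cfsg.Agent.Lib.Blocks

open Cfsg Cfsg.Agent.Lib.Char Cfsg.Agent.Lib.H8Group
open scoped ComplexConjugate

universe u

section Main

variable {G : Type u} [Group G] [Fintype G] {p : ℕ} [hp : Fact p.Prime] {M : Ideal AlgInt}

/-- A block with a coefficient outside the ideal on `C_G(R)` is induced from `C_G(R)`. -/
theorem exists_induced_cent_of_coeff (hM : IsPModular p M) {R : Subgroup G} (hR : IsPGroup p R)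
    [Fintype (Subgroup.centralizer (R : Set G))] {B : Set (IrrCharacter G)} (hB : IsPBlock M B)
    {t : G} (htR : t ∈ Subgroup.centralizer (R : Set G)) (ht : ¬ MemLocalIdeal M (blockCoeff B t)) :
    ∃ f, IsInducedBlock M (Subgroup.centralizer (R : Set G)) f B := by
  classical
  have := isPrime_of_modular hM
  have hi := indic_mem_zS hB
  have hT : ∀ a : G → ℂ, brT (Subgroup.centralizer (R : Set G)) R a =
      Blocks.resFun (Subgroup.centralizer (R : Set G)) a := by
    intro a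
    funext h
    rw [brT_of_mem _ _ _ h.2]
    rfl
  have hNC : (Subgroup.centralizer (R : Set G)) ≤ Subgroup.normalizer (R : Set G) :=
    Subgroup.centralizer_le_normalizer _
  have hex : ∃ ξ : IrrCharacter (Subgroup.centralizer (R : Set G)),
      ¬ MemLocalIdeal M (brPhi (Subgroup.centralizer (R : Set G)) R ξ (indic B)) := by
    by_contra hcon
    push Not at hcon
    obtain ⟨N, hN, hNt⟩ := exists_pow_coef_memLocalIdeal hM
      (c := spec (brT (Subgroup.centralizer (R : Set G)) R (coef (indic B)))) hcon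
    have h1 := brT_coef_pow_congr (Subgroup.centralizer (R : Set G)) hM hR le_rfl hNC hi
      (indic_mul_self B) hN ⟨t, htR⟩
    have h2 := MemLocalIdeal.sub (hNt ⟨t, htR⟩) h1
    simp only [sub_sub_cancel] at h2
    rw [brT_of_mem _ R _ (by exact htR), ← blockCoeff_eq_coef] at h2
    exact ht h2
  obtain ⟨ξ, hξ⟩ := hex
  obtain ⟨B', hB'⟩ := exists_isInducedBlock_cent hM hR (isPBlock_blockOf ξ)
  obtain ⟨χ, hχ⟩ := IsPBlock.nonempty hB'.2.1
  have h1 := IsInducedBlock.resPhi_congr _ hB' (self_mem_blockOf ξ) hχ hi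
  have hχB : χ ∈ B := by
    by_contra hne
    apply hξ
    rw [indic_apply_of_notMem hne, sub_zero] at h1
    rwa [brPhi, hT, ← resPhi]
  have hBeq : B' = B := by
    rw [blockOf_eq_of_mem hB'.2.1 hχ, blockOf_eq_of_mem hB hχB]
  rw [hBeq] at hB'
  exact ⟨_, hB'⟩

variable (K : Subgroup G) [hK : K.Normal] [Fintype K] (C : Subgroup G)

/-- The inclusion of `K ∩ C` in `K`. -/
def inK : K.subgroupOf C →* K where
  toFun y := ⟨((y : C) : G), Subgroup.mem_subgroupOf.mp y.2⟩
  map_one' := rfl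
  map_mul' _ _ := rfl

@[simp] theorem inK_coe (y : K.subgroupOf C) : (inK K C y : G) = ((y : C) : G) := rfl

theorem inK_injective : Function.Injective (inK K C) := by
  intro y y' h
  apply Subtype.ext
  apply Subtype.ext
  exact congrArg (fun z : K => (z : G)) h

theorem not_dvd_card_inter (hKp : ¬ p ∣ Nat.card K) : ¬ p ∣ Nat.card (K.subgroupOf C) :=
  fun h => hKp (h.trans (Subgroup.card_dvd_of_injective (inK K C) (inK_injective K C)))

variable {K}

theorem conv_res_congr (hM : IsPModular p M) {R : Subgroup G} (hR : IsPGroup p R)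
    [Fintype (K.subgroupOf (Subgroup.centralizer (R : Set G)))] {a b : K → ℂ}
    (haR : ∀ (r : R) (n : K), a ⟨(r : G) * n * (r : G)⁻¹, hK.conj_mem n n.2 r⟩ = a n)
    (hbR : ∀ (r : R) (n : K), b ⟨(r : G) * n * (r : G)⁻¹, hK.conj_mem n n.2 r⟩ = b n)
    (haL : ∀ x, MemLocalRing M (a x)) (hbL : ∀ x, MemLocalRing M (b x))
    (y : K.subgroupOf (Subgroup.centralizer (R : Set G))) :
    MemLocalIdeal M (conv a b (inK K _ y) -
      conv (a ∘ inK K (Subgroup.centralizer (R : Set G))) (b ∘ inK K (Subgroup.centralizer (R : Set G))) y) := by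
  classical
  have := isPrime_of_modular hM
  set ι := inK K (Subgroup.centralizer (R : Set G)) with hι
  set F : G → ℂ := extendByZero K (fun n => a n * b (n⁻¹ * ι y)) with hFdef
  have hFS : ∀ x, MemLocalRing M (F x) :=
    extendByZero_memLocalRing K (fun n => MemLocalRing.mul (haL n) (hbL _))
  have hF : ∀ (s : R) (x : G), F ((s : G) * x * (s : G)⁻¹) = F x := by
    intro s x
    by_cases hx : x ∈ K
    · have hx' := hK.conj_mem x hx s
      rw [hFdef, extendByZero_of_mem K _ hx', extendByZero_of_mem K _ hx]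
      have h1 := haR s ⟨x, hx⟩
      have hys : (s : G) * (ι y : G) = (ι y : G) * (s : G) := ((y : Subgroup.centralizer (R : Set G)).2 s s.2)
      have h2 : (⟨(s : G) * x * (s : G)⁻¹, hx'⟩ : K)⁻¹ * ι y =
          ⟨(s : G) * (((⟨x, hx⟩ : K)⁻¹ * ι y : K) : G) * (s : G)⁻¹,
            hK.conj_mem _ (((⟨x, hx⟩ : K)⁻¹ * ι y : K)).2 s⟩ := by
        apply Subtype.ext
        simp only [Subgroup.coe_mul, InvMemClass.coe_inv]
        have h3 : (ι y : G) = (s : G) * (ι y : G) * (s : G)⁻¹ := by rw [hys]; group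
        calc ((s : G) * x * (s : G)⁻¹)⁻¹ * (ι y : G)
            = ((s : G) * x * (s : G)⁻¹)⁻¹ * ((s : G) * (ι y : G) * (s : G)⁻¹) := by rw [← h3]
          _ = (s : G) * (x⁻¹ * (ι y : G)) * (s : G)⁻¹ := by group
      have h4 := hbR s ((⟨x, hx⟩ : K)⁻¹ * ι y)
      rw [h1, h2, h4]
    · have hx' : (s : G) * x * (s : G)⁻¹ ∉ K := by
        intro h
        apply hx
        have := hK.conj_mem _ h (s : G)⁻¹
        have h2 : (s : G)⁻¹ * ((s : G) * x * (s : G)⁻¹) * (s : G)⁻¹⁻¹ = x := by group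
        rwa [h2] at this
      rw [hFdef, extendByZero_of_notMem K _ hx', extendByZero_of_notMem K _ hx]
  obtain ⟨r, hr, hsum⟩ := exists_sum_eq_sum_centralizer hM hR F hFS hF
  have h1 : ∑ x, F x = conv a b (ι y) := by
    have h2 := sum_extendByZero_mul K (fun n => a n * b (n⁻¹ * ι y)) (fun _ => 1)
    simp only [mul_one] at h2
    rw [hFdef, h2]
    rfl
  have h2 : ∑ x ∈ Finset.univ.filter (fun x => x ∈ Subgroup.centralizer (R : Set G)), F x =
      conv (a ∘ ι) (b ∘ ι) y := by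
    set T : Finset G := (Finset.univ : Finset (K.subgroupOf (Subgroup.centralizer (R : Set G)))).map
      ⟨fun w => (ι w : G), fun w w' h => inK_injective K _ (Subtype.ext h)⟩ with hT
    have hsub : T ⊆ Finset.univ.filter (fun x => x ∈ Subgroup.centralizer (R : Set G)) := by
      intro x hx
      rw [hT, Finset.mem_map] at hx
      obtain ⟨w, -, rfl⟩ := hx
      simp only [Finset.mem_filter, Finset.mem_univ, true_and]
      exact (w : Subgroup.centralizer (R : Set G)).2
    have hzero : ∀ x ∈ Finset.univ.filter (fun x => x ∈ Subgroup.centralizer (R : Set G)), x ∉ T → F x = 0 := by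
      intro x hx hxT
      simp only [Finset.mem_filter, Finset.mem_univ, true_and] at hx
      have hxK : x ∉ K := by
        intro hxK
        apply hxT
        rw [hT, Finset.mem_map]
        exact ⟨⟨⟨x, hx⟩, Subgroup.mem_subgroupOf.mpr hxK⟩, Finset.mem_univ _, rfl⟩
      exact extendByZero_of_notMem K _ hxK
    rw [← Finset.sum_subset hsub hzero, hT, Finset.sum_map]
    refine Finset.sum_congr rfl fun w _ => ?_
    show F (ι w : G) = a (ι w) * b (ι (w⁻¹ * y))
    rw [hFdef, extendByZero_coe, map_mul, map_inv]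
  rw [← h1, ← h2, hsum, add_comm, add_sub_cancel_right]
  exact MemLocalIdeal.mul_right (p_memLocalIdeal hM) hr

variable (K) in
/-- Extension of a function on `K ∩ C` to the class function on `K`. -/
noncomputable def zFun (e : K.subgroupOf C → ℂ) : K → ℂ := by
  classical
  exact fun k => if h : ∃ y : K.subgroupOf C, IsConj k (inK K C y) then e h.choose else 0

theorem zFun_apply {e : K.subgroupOf C → ℂ}
    (hfus : ∀ y y' : K.subgroupOf C, IsConj (inK K C y) (inK K C y') → IsConj y y')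
    (he : IsClassFunction (K.subgroupOf C) e) {k : K} {y : K.subgroupOf C}
    (h : IsConj k (inK K C y)) : zFun K C e k = e y := by
  classical
  have hex : ∃ y : K.subgroupOf C, IsConj k (inK K C y) := ⟨y, h⟩
  have h1 : zFun K C e k = e hex.choose := dif_pos hex
  rw [h1]
  exact IsClassFunction.congr_isConj he (hfus _ _ (hex.choose_spec.symm.trans h))

theorem zFun_of_not {e : K.subgroupOf C → ℂ} {k : K}
    (h : ¬ ∃ y : K.subgroupOf C, IsConj k (inK K C y)) : zFun K C e k = 0 := dif_neg h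

theorem zFun_isClassFunction {e : K.subgroupOf C → ℂ}
    (hfus : ∀ y y' : K.subgroupOf C, IsConj (inK K C y) (inK K C y') → IsConj y y')
    (he : IsClassFunction (K.subgroupOf C) e) : IsClassFunction K (zFun K C e) := by
  intro k n
  have hc : IsConj (n * k * n⁻¹) k := (isConj_iff.mpr ⟨n, rfl⟩).symm
  by_cases h : ∃ y : K.subgroupOf C, IsConj k (inK K C y)
  · obtain ⟨y, hy⟩ := h
    rw [zFun_apply C hfus he hy, zFun_apply C hfus he (hc.trans hy)]
  · rw [zFun_of_not C h, zFun_of_not C]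
    rintro ⟨y, hy⟩
    exact h ⟨y, hc.symm.trans hy⟩

theorem zFun_res {e : K.subgroupOf C → ℂ}
    (hfus : ∀ y y' : K.subgroupOf C, IsConj (inK K C y) (inK K C y') → IsConj y y')
    (he : IsClassFunction (K.subgroupOf C) e) : zFun K C e ∘ inK K C = e := by
  funext y
  exact zFun_apply C hfus he (IsConj.refl _)

theorem zFun_memLocalRing [M.IsPrime] {e : K.subgroupOf C → ℂ} (hl : ∀ y, MemLocalRing M (e y)) (k : K) :
    MemLocalRing M (zFun K C e k) := by
  classical
  by_cases h : ∃ y : K.subgroupOf C, IsConj k (inK K C y)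
  · have h1 : zFun K C e k = e h.choose := dif_pos h
    rw [h1]
    exact hl _
  · rw [zFun_of_not C h]
    exact memLocalRing_zero

/-- **Glauberman's lemma**, in the form used here: a `K`-conjugacy between elements of `C_K(R)` can
be realised in `C_K(R)`. -/
theorem fusion_inK (hKp : ¬ p ∣ Nat.card K) {R : Subgroup G} (hR : IsPGroup p R)
    (y y' : K.subgroupOf (Subgroup.centralizer (R : Set G)))
    (h : IsConj (inK K _ y) (inK K _ y')) : IsConj y y' := by
  obtain ⟨c, hc⟩ := isConj_iff.mp h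
  have hc' : (c : G) * ((y : Subgroup.centralizer (R : Set G)) : G) * (c : G)⁻¹ =
      ((y' : Subgroup.centralizer (R : Set G)) : G) := congrArg (fun z : K => (z : G)) hc
  obtain ⟨w, hwK, hwC, hw⟩ := exists_conj_in_centralizer hKp hR
    (y : Subgroup.centralizer (R : Set G)).2 (y' : Subgroup.centralizer (R : Set G)).2 c.2 hc'
  refine isConj_iff.mpr ⟨⟨⟨w, hwC⟩, Subgroup.mem_subgroupOf.mpr hwK⟩, ?_⟩
  apply Subtype.ext
  apply Subtype.ext
  exact hw

/-- Uniqueness of the Glauberman correspondent. -/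
theorem theta_unique (hM : IsPModular p M) (hKp : ¬ p ∣ Nat.card K) {R : Subgroup G} (hR : IsPGroup p R)
    [Fintype (K.subgroupOf (Subgroup.centralizer (R : Set G)))] (θ : IrrCharacter K)
    (hinv : ∀ g : G, conjIrr K g θ = θ)
    (θ₁ θ₂ : IrrCharacter (K.subgroupOf (Subgroup.centralizer (R : Set G))))
    (h₁ : ¬ MemLocalIdeal M (spec (coef (indic {θ}) ∘ inK K (Subgroup.centralizer (R : Set G))) θ₁))
    (h₂ : ¬ MemLocalIdeal M (spec (coef (indic {θ}) ∘ inK K (Subgroup.centralizer (R : Set G))) θ₂)) :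
    θ₁ = θ₂ := by
  classical
  have := isPrime_of_modular hM
  by_contra hne
  set ι := inK K (Subgroup.centralizer (R : Set G)) with hι
  set u : K → ℂ := coef (indic {θ}) with hu
  have hucl : IsClassFunction K u := coef_isClassFunction _
  have hbθ : IsPBlock M ({θ} : Set (IrrCharacter K)) := by
    rw [← blockOf_singleton_of_coprime hM hKp θ]
    exact isPBlock_blockOf θ
  have huL : ∀ x, MemLocalRing M (u x) := indic_mem_zS hbθ
  have hinvS : ∀ (g : G) θ', θ' ∈ ({θ} : Set (IrrCharacter K)) → conjIrr K g θ' ∈ ({θ} : Set (IrrCharacter K)) := by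
    intro g θ' h
    rw [Set.mem_singleton_iff] at h ⊢
    rw [h, hinv]
  have huG : ∀ (g : G) (n : K), u ⟨g * n * g⁻¹, hK.conj_mem n n.2 g⟩ = u n := by
    intro g n
    have h1 : Cfsg.Agent.Lib.Char.conjFun K g⁻¹ u n = u n := congrFun (conjFun_coef_indic K hinvS g⁻¹) n
    rw [conjFun_apply] at h1
    rw [← h1]
    exact congrArg _ (Subtype.ext (by simp))
  set a₁ := u ∘ ι with ha₁
  have ha₁cl : IsClassFunction _ a₁ := by
    intro y n
    show u (ι (n * y * n⁻¹)) = u (ι y)
    rw [map_mul, map_mul, map_inv]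
    exact hucl _ _
  have ha₁L : ∀ x, MemLocalRing M (a₁ x) := fun x => huL _
  set e₁ : K.subgroupOf (Subgroup.centralizer (R : Set G)) → ℂ := coef (indic {θ₁}) with he₁
  have he₁cl : IsClassFunction _ e₁ := coef_isClassFunction _
  have hbθ₁ : IsPBlock M ({θ₁} : Set (IrrCharacter (K.subgroupOf (Subgroup.centralizer (R : Set G))))) := by
    rw [← blockOf_singleton_of_coprime hM (not_dvd_card_inter K _ hKp) θ₁]
    exact isPBlock_blockOf θ₁
  have he₁L : ∀ x, MemLocalRing M (e₁ x) := indic_mem_zS hbθ₁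
  have hfus := fusion_inK (K := K) hKp hR
  set z := zFun K (Subgroup.centralizer (R : Set G)) e₁ with hz
  have hzcl : IsClassFunction K z := zFun_isClassFunction _ hfus he₁cl
  have hzL : ∀ x, MemLocalRing M (z x) := zFun_memLocalRing _ he₁L
  have hzres : z ∘ ι = e₁ := zFun_res _ hfus he₁cl
  have hzR : ∀ (r : R) (n : K), z ⟨(r : G) * n * (r : G)⁻¹, hK.conj_mem n n.2 r⟩ = z n := by
    intro r n
    have hkey : ∀ (r : R) (n : K) (y : K.subgroupOf (Subgroup.centralizer (R : Set G))), IsConj n (ι y) →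
        IsConj (⟨(r : G) * n * (r : G)⁻¹, hK.conj_mem n n.2 r⟩ : K) (ι y) := by
      intro r n y hy
      obtain ⟨c, hc⟩ := isConj_iff.mp hy.symm
      have hc' : (c : G) * (ι y : G) * (c : G)⁻¹ = n := congrArg (fun z : K => (z : G)) hc
      refine (isConj_iff.mpr ⟨⟨(r : G) * c * (r : G)⁻¹, hK.conj_mem c c.2 r⟩, Subtype.ext ?_⟩).symm
      have hys : (r : G) * (ι y : G) = (ι y : G) * (r : G) :=
        ((y : Subgroup.centralizer (R : Set G)).2 r r.2)
      simp only [Subgroup.coe_mul, InvMemClass.coe_inv]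
      rw [← hc']
      have h3 : (ι y : G) = (r : G) * (ι y : G) * (r : G)⁻¹ := by rw [hys]; group
      calc (r : G) * c * (r : G)⁻¹ * (ι y : G) * ((r : G) * c * (r : G)⁻¹)⁻¹
          = (r : G) * c * (r : G)⁻¹ * ((r : G) * (ι y : G) * (r : G)⁻¹) * ((r : G) * c * (r : G)⁻¹)⁻¹ := by
            rw [← h3]
        _ = (r : G) * ((c : G) * (ι y : G) * (c : G)⁻¹) * (r : G)⁻¹ := by group
    by_cases h : ∃ y : K.subgroupOf (Subgroup.centralizer (R : Set G)), IsConj n (ι y)
    · obtain ⟨y, hy⟩ := h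
      rw [hz, zFun_apply _ hfus he₁cl hy, zFun_apply _ hfus he₁cl (hkey r n y hy)]
    · rw [hz, zFun_of_not _ h, zFun_of_not]
      rintro ⟨y, hy⟩
      apply h
      refine ⟨y, ?_⟩
      have h2 := hkey r⁻¹ _ y hy
      convert h2 using 1
      apply Subtype.ext
      simp only [InvMemClass.coe_inv]
      group
  -- the eigenvalue
  set ω := spec z θ with hω
  have hωL : MemLocalRing M ω := zS_apply_mem (spec_mem_zS hzcl hzL) θ
  have hconv : conv z u = ω • u := by
    have h1 : spec (conv z u) = ω • (indic ({θ} : Set (IrrCharacter K))) := by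
      rw [spec_conv z u hzcl, hu, spec_coef]
      funext θ'
      by_cases hθ' : θ' = θ
      · subst hθ'
        simp [hω]
      · simp [indic_apply_of_notMem (show θ' ∉ ({θ} : Set _) from hθ')]
    have h2 := coef_spec _ (conv_isClassFunction hzcl hucl)
    rw [← h2, h1, coef_smul]
  have hcong : ∀ y, MemLocalIdeal M ((ω • a₁ - conv e₁ a₁) y) := by
    intro y
    have h1 := conv_res_congr hM hR (a := z) (b := u) hzR
      (fun r n => huG r n) hzL huL y
    rw [hconv, hzres] at h1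
    exact h1
  have hcl : IsClassFunction _ (ω • a₁ - conv e₁ a₁) :=
    IsClassFunction.sub (IsClassFunction.smul ω ha₁cl) (conv_isClassFunction he₁cl ha₁cl)
  have hspec : ∀ ξ, MemLocalIdeal M ((ω - indic {θ₁} ξ) * spec a₁ ξ) := by
    intro ξ
    have h1 := spec_memLocalIdeal hcl hcong ξ
    rw [spec_sub, spec_smul, spec_conv e₁ a₁ he₁cl, he₁, spec_coef] at h1
    simp only [Pi.sub_apply, Pi.smul_apply, Pi.mul_apply, smul_eq_mul] at h1
    rwa [sub_mul]
  have hvL : ∀ ξ, MemLocalRing M (spec a₁ ξ) := fun ξ => zS_apply_mem (spec_mem_zS ha₁cl ha₁L) ξ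
  have h1 : MemLocalIdeal M (ω - 1) := by
    have h2 := hspec θ₁
    rw [indic_apply_of_mem (show θ₁ ∈ ({θ₁} : Set _) from rfl)] at h2
    rcases MemLocalIdeal.of_mul (MemLocalRing.sub hωL memLocalRing_one) (hvL θ₁) h2 with h3 | h3
    · exact h3
    · exact absurd h3 h₁
  have h2 : MemLocalIdeal M ω := by
    have h2 := hspec θ₂
    rw [indic_apply_of_notMem (show θ₂ ∉ ({θ₁} : Set _) from fun h => hne h.symm), sub_zero] at h2
    rcases MemLocalIdeal.of_mul hωL (hvL θ₂) h2 with h3 | h3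
    · exact h3
    · exact absurd h3 h₂
  have h3 := MemLocalIdeal.sub h2 h1
  rw [sub_sub_cancel] at h3
  exact not_memLocalIdeal_one h3

/-- **Blocks of principal type**: one block of `C_G(R)` induces a block of maximal defect lying over
an invariant character of a normal `p'`-subgroup. -/
theorem principal_type (hM : IsPModular p M) (hKp : ¬ p ∣ Nat.card K) (L : Subgroup G) [hL : L.Normal]
    (hKL : K ≤ L) {k : ℕ} (hidx : K.relIndex L = p ^ k) {Q : Subgroup G} (hQL : Q ≤ L)
    (hQp : IsPGroup p Q) (hQS : ¬ p ∣ Q.relIndex L) (hCQ : Subgroup.centralizer (Q : Set G) ≤ L)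
    (θ : IrrCharacter K)
    (hinv : ∀ (g : G) (n : K), (θ : K → ℂ) ⟨g * n * g⁻¹, hK.conj_mem n n.2 g⟩ = (θ : K → ℂ) n)
    {B : Set (IrrCharacter G)} (hB : IsPBlock M B)
    (hBdef : ∀ χ : IrrCharacter G, χ ∈ B ↔ classInner (fun n : K => (χ : G → ℂ) n) (θ : K → ℂ) ≠ 0)
    (hdc : IsDefectClass M B 1) {R : Subgroup G} (hR : IsPGroup p R)
    [Fintype (Subgroup.centralizer (R : Set G))]
    [Fintype (K.subgroupOf (Subgroup.centralizer (R : Set G)))] :
    ∃! f, IsInducedBlock M (Subgroup.centralizer (R : Set G)) f B := by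
  classical
  have := isPrime_of_modular hM
  have hex := exists_induced_cent_of_coeff hM hR hB (Subgroup.one_mem _) hdc.2.1
  -- the data
  have hinv' : ∀ g : G, conjIrr K g θ = θ := by
    intro g
    apply Subtype.ext
    funext n
    rw [conjIrr_coe, conjFun_apply]
    have h1 := hinv g⁻¹ n
    rw [← h1]
    exact congrArg _ (Subtype.ext (by simp))
  have hinvS : ∀ (g : G) θ', θ' ∈ ({θ} : Set (IrrCharacter K)) → conjIrr K g θ' ∈ ({θ} : Set (IrrCharacter K)) := by
    intro g θ' h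
    rw [Set.mem_singleton_iff] at h ⊢
    rw [h, hinv']
  have hBeq : B = covSet K ({θ} : Set (IrrCharacter K)) := by
    ext χ
    rw [hBdef]
    constructor
    · intro h
      exact ⟨θ, rfl, h⟩
    · rintro ⟨θ', h1, h2⟩
      rwa [Set.mem_singleton_iff.mp h1] at h2
  have hU : coef (indic B) = extendByZero K (coef (indic ({θ} : Set (IrrCharacter K)))) := by
    rw [hBeq, coef_indic_covSet K hinvS]
    rfl
  set C := Subgroup.centralizer (R : Set G) with hC
  set ι := inK K C with hι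
  set u : K → ℂ := coef (indic {θ}) with hu
  have huG : ∀ (g : G) (n : K), u ⟨g * n * g⁻¹, hK.conj_mem n n.2 g⟩ = u n := by
    intro g n
    have h1 : Cfsg.Agent.Lib.Char.conjFun K g⁻¹ u n = u n := congrFun (conjFun_coef_indic K hinvS g⁻¹) n
    rw [conjFun_apply] at h1
    rw [← h1]
    exact congrArg _ (Subtype.ext (by simp))
  haveI hWn : (K.subgroupOf C).Normal := Subgroup.normal_subgroupOf
  set a₁ := u ∘ ι with ha₁
  have ha₁inv : ∀ c : C, Cfsg.Agent.Lib.Char.conjFun (K.subgroupOf C) c a₁ = a₁ := by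
    intro c
    funext n
    rw [conjFun_apply]
    show u (ι _) = u (ι n)
    have h1 := huG ((c : G)⁻¹) (ι n)
    rw [← h1]
    exact congrArg _ (Subtype.ext (by simp [hι]))
  have hV : Blocks.resFun C (coef (indic B)) = extendByZero (K.subgroupOf C) a₁ := by
    funext c
    rw [Blocks.resFun_apply, hU]
    by_cases hc : (c : G) ∈ K
    · have hc' : c ∈ K.subgroupOf C := Subgroup.mem_subgroupOf.mpr hc
      rw [extendByZero_of_mem K _ hc, extendByZero_of_mem (K.subgroupOf C) _ hc']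
      rfl
    · have hc' : c ∉ K.subgroupOf C := fun h => hc (Subgroup.mem_subgroupOf.mp h)
      rw [extendByZero_of_notMem K _ hc, extendByZero_of_notMem (K.subgroupOf C) _ hc']
  have hphi : ∀ (ξ : IrrCharacter C) (θ' : IrrCharacter (K.subgroupOf C)),
      classInner (fun n : K.subgroupOf C => (ξ : C → ℂ) n) (θ' : K.subgroupOf C → ℂ) ≠ 0 →
      resPhi C ξ (indic B) = spec a₁ θ' := by
    intro ξ θ' h
    rw [resPhi, hV]
    exact spec_extendByZero (K.subgroupOf C) ha₁inv h
  have hnot : ∀ (f : Set (IrrCharacter C)), IsInducedBlock M C f B → ∀ ξ ∈ f,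
      ¬ MemLocalIdeal M (resPhi C ξ (indic B)) := by
    intro f hf ξ hξ h
    obtain ⟨χ, hχ⟩ := IsPBlock.nonempty hB
    have h1 := IsInducedBlock.resPhi_congr _ hf hξ hχ (indic_mem_zS hB)
    rw [indic_apply_of_mem hχ] at h1
    have h2 := MemLocalIdeal.sub h h1
    rw [sub_sub_cancel] at h2
    exact not_memLocalIdeal_one h2
  obtain ⟨f₀, hf₀⟩ := hex
  refine ⟨f₀, hf₀, ?_⟩
  intro f₁ hf₁
  obtain ⟨ξ₀, hξ₀⟩ := IsPBlock.nonempty hf₀.1
  obtain ⟨ξ₁, hξ₁⟩ := IsPBlock.nonempty hf₁.1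
  obtain ⟨θ₀, hθ₀⟩ := exists_constituent (K.subgroupOf C) ξ₀
  obtain ⟨θ₁, hθ₁⟩ := exists_constituent (K.subgroupOf C) ξ₁
  have hv₀ : ¬ MemLocalIdeal M (spec a₁ θ₀) := by
    rw [← hphi ξ₀ θ₀ hθ₀]
    exact hnot f₀ hf₀ ξ₀ hξ₀
  have hv₁ : ¬ MemLocalIdeal M (spec a₁ θ₁) := by
    rw [← hphi ξ₁ θ₁ hθ₁]
    exact hnot f₁ hf₁ ξ₁ hξ₁
  have huniq := theta_unique hM hKp hR θ hinv'
  have h01 : θ₀ = θ₁ := huniq θ₀ θ₁ hv₀ hv₁
  subst h01
  have hinv₀ : ∀ c : C, conjIrr (K.subgroupOf C) c θ₀ = θ₀ := by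
    intro c
    apply huniq _ _ _ hv₀
    have h1 := classInner_conjIrr (K.subgroupOf C) (χ := ξ₀) c θ₀
    have h2 : classInner (fun n : K.subgroupOf C => (ξ₀ : C → ℂ) n)
        ((conjIrr (K.subgroupOf C) c θ₀ : IrrCharacter _) : K.subgroupOf C → ℂ) ≠ 0 := by
      rw [h1]
      exact hθ₀
    rw [← hphi ξ₀ _ h2]
    exact hnot f₀ hf₀ ξ₀ hξ₀
  have hinv₀' : ∀ (c : C) (n : K.subgroupOf C),
      (θ₀ : K.subgroupOf C → ℂ) ⟨c * n * c⁻¹, hWn.conj_mem n n.2 c⟩ = (θ₀ : K.subgroupOf C → ℂ) n := by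
    intro c n
    have h1 := congrFun (congrArg Subtype.val (hinv₀ c⁻¹)) n
    rw [conjIrr_coe, conjFun_apply] at h1
    rw [← h1]
    exact congrArg _ (Subtype.ext (by simp))
  obtain ⟨L₁, Q₁, k₁, hL₁n, hK₁L₁, hk₁, hQ₁L₁, hQ₁p, hCQ₁⟩ :=
    exists_pConstrained_centralizer (R := R) hKp hKL hidx hQL hQp hQS hCQ hR
  letI : Fintype L₁ := Fintype.ofFinite _
  haveI := hL₁n
  obtain ⟨B₁, hB₁, hB₁def, -⟩ := fong_general (K.subgroupOf C) hM (not_dvd_card_inter K C hKp) L₁ hK₁L₁ hk₁
    hQ₁L₁ hQ₁p hCQ₁ θ₀ hinv₀'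
  have h₀ : ξ₀ ∈ B₁ := (hB₁def ξ₀).mpr hθ₀
  have h₁ : ξ₁ ∈ B₁ := (hB₁def ξ₁).mpr hθ₁
  rw [blockOf_eq_of_mem hf₁.1 hξ₁, blockOf_eq_of_mem hf₀.1 hξ₀, ← blockOf_eq_of_mem hB₁ h₀,
    ← blockOf_eq_of_mem hB₁ h₁]

end Main

end Cfsg.Agent.Lib.Blocks
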