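import Cfsg.Agent.Lib.Blocks.Homocyclic

/-! # Sylow 2-subgroups quaternion of order 8: fusion -/

set_option autoImplicit false

namespace Cfsg.Agent.Lib.Blocks.Q8

open Subgroup Cfsg.Agent.Lib.Blocks.Homocyclic

abbrev H8 := QuaternionGroup 2

open QuaternionGroup in
theorem h8_pow4 : ∀ y : H8, y ^ 4 = 1 := by decide

open QuaternionGroup in
theorem h8_inv : ∀ u v : H8, u ≠ 1 → v ≠ 1 → u * u = 1 → v * v = 1 → u = v := by decide

open QuaternionGroup in
theorem h8_six : ∀ y : H8, y * y ≠ 1 → y = a 1 ∨ y = a 3 ∨ y = xa 0 ∨ y = xa 2 ∨ y = xa 1 ∨ y = xa 3 := by decide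

open QuaternionGroup in
theorem h8_invs : ((a 3 : H8) = (a 1 : H8)⁻¹) ∧ ((xa 2 : H8) = (xa 0 : H8)⁻¹) ∧ ((xa 3 : H8) = (xa 1 : H8)⁻¹) := by decide

open QuaternionGroup in
theorem h8_squares : ∀ y : H8, y * y = 1 → y = 1 ∨ y = a 2 := by decide

theorem mem_zpowers_fin {X : Type*} [Group X] [Finite X] {y x : X} (h4 : y ^ 4 = 1) (hx : x ∈ zpowers y) :
    ∃ k : Fin 4, x = y ^ (k : ℕ) := by
  rw [← mem_powers_iff_mem_zpowers] at hx
  obtain ⟨n, rfl⟩ := hx
  refine ⟨⟨n % 4, Nat.mod_lt _ (by norm_num)⟩, ?_⟩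
  exact pow_eq_pow_mod n h4

theorem orderOf_eq_four {X : Type*} [Group X] {y : X} (h4 : y ^ 4 = 1) (h2 : y * y ≠ 1) : orderOf y = 4 := by
  have := orderOf_eq_prime_pow (p := 2) (n := 1) (x := y) (by rw [pow_one, pow_two]; exact h2) (by simpa using h4)
  simpa using this

open QuaternionGroup in
theorem h8_sub (X : Subgroup H8) (hX : Nat.card X = 4) :
    X = zpowers (a 1 : H8) ∨ X = zpowers (xa 0 : H8) ∨ X = zpowers (xa 1 : H8) := by
  classical
  have hex : ∃ y ∈ X, y * y ≠ 1 := by
    by_contra hcon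
    push Not at hcon
    have h1 : (X : Set H8) ⊆ (({1, a 2} : Finset H8) : Set H8) := by
      intro y hy
      have := h8_squares y (hcon y hy)
      simpa using this
    have h2 : Nat.card X ≤ 2 := by
      have h3 := Set.ncard_le_ncard h1 (Finset.finite_toSet _)
      rw [Set.ncard_coe_finset] at h3
      have h4 : Nat.card X = (X : Set H8).ncard := by
        rw [← Nat.card_coe_set_eq]
        rfl
      rw [h4]
      refine h3.trans ?_
      exact Finset.card_le_two
    omega
  obtain ⟨y, hyX, hy⟩ := hex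
  have hy4 := h8_pow4 y
  have hord := orderOf_eq_four hy4 hy
  have hXy : X = zpowers y := by
    symm
    apply Subgroup.eq_of_le_of_card_ge
    · rw [zpowers_le]
      exact hyX
    · rw [Nat.card_zpowers, hord, hX]
  rw [hXy]
  obtain ⟨h1, h2, h3⟩ := h8_invs
  rcases h8_six y hy with h | h | h | h | h | h
  · left; rw [h]
  · left; rw [h, h1, zpowers_inv]
  · right; left; rw [h]
  · right; left; rw [h, h2, zpowers_inv]
  · right; right; rw [h]
  · right; right; rw [h, h3, zpowers_inv]

open QuaternionGroup in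
theorem h8_cards : Nat.card (zpowers (a 1 : H8)) = 4 ∧ Nat.card (zpowers (xa 0 : H8)) = 4 ∧ Nat.card (zpowers (xa 1 : H8)) = 4 := by
  have h1 : ∀ y : H8, y * y ≠ 1 → Nat.card (zpowers y) = 4 := fun y hy => by
    rw [Nat.card_zpowers, orderOf_eq_four (h8_pow4 y) hy]
  exact ⟨h1 _ (by decide), h1 _ (by decide), h1 _ (by decide)⟩

open QuaternionGroup in
theorem h8_distinct : zpowers (a 1 : H8) ≠ zpowers (xa 0 : H8) ∧ zpowers (a 1 : H8) ≠ zpowers (xa 1 : H8) ∧
    zpowers (xa 0 : H8) ≠ zpowers (xa 1 : H8) := by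
  refine ⟨fun h => ?_, fun h => ?_, fun h => ?_⟩
  · have h1 : (xa 0 : H8) ∈ zpowers (a 1 : H8) := by rw [h]; exact mem_zpowers _
    obtain ⟨k, hk⟩ := mem_zpowers_fin (h8_pow4 _) h1
    revert k
    decide
  · have h1 : (xa 1 : H8) ∈ zpowers (a 1 : H8) := by rw [h]; exact mem_zpowers _
    obtain ⟨k, hk⟩ := mem_zpowers_fin (h8_pow4 _) h1
    revert k
    decide
  · have h1 : (xa 1 : H8) ∈ zpowers (xa 0 : H8) := by rw [h]; exact mem_zpowers _
    obtain ⟨k, hk⟩ := mem_zpowers_fin (h8_pow4 _) h1
    revert k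
    decide

open QuaternionGroup in
theorem card_sub4 : Nat.card {X : Subgroup H8 // Nat.card X = 4} = 3 := by
  classical
  let S : Finset (Subgroup H8) := {zpowers (a 1 : H8), zpowers (xa 0 : H8), zpowers (xa 1 : H8)}
  have hS : ∀ X, X ∈ S ↔ Nat.card X = 4 := by
    intro X
    simp only [S, Finset.mem_insert, Finset.mem_singleton]
    constructor
    · obtain ⟨h1, h2, h3⟩ := h8_cards
      rintro (rfl | rfl | rfl)
      · exact h1
      · exact h2
      · exact h3
    · exact h8_sub X
  have h1 : Nat.card {X : Subgroup H8 // Nat.card X = 4} = Nat.card S :=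
    Nat.card_congr (Equiv.subtypeEquivRight (fun a => (hS a).symm))
  rw [h1, Nat.card_eq_fintype_card, Fintype.card_coe]
  obtain ⟨h2, h3, h4⟩ := h8_distinct
  simp only [S]
  rw [Finset.card_insert_of_notMem, Finset.card_insert_of_notMem, Finset.card_singleton]
  · simpa using h4
  · simp only [Finset.mem_insert, Finset.mem_singleton, not_or]
    exact ⟨h2, h3⟩

variable {G : Type*} [Group G]

section Action

variable (S : Subgroup G)

/-- The subgroups of order 4. -/
abbrev Sub4 : Type _ := {X : Subgroup G // X ≤ S ∧ Nat.card X = 4}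

/-- The action of the normalizer on them. -/
noncomputable def actSub : normalizer (S : Set G) →* Equiv.Perm (Sub4 S) where
  toFun g :=
    { toFun := fun X => ⟨X.1.map (MulAut.conj (g : G)).toMonoidHom, by
          rintro _ ⟨x, hx, rfl⟩
          exact (Subgroup.mem_normalizer_iff.mp g.2 x).mp (X.2.1 hx), by
          rw [Subgroup.card_map_of_injective (MulAut.conj (g : G)).injective]
          exact X.2.2⟩
      invFun := fun X => ⟨X.1.map (MulAut.conj (g : G)⁻¹).toMonoidHom, by
          rintro _ ⟨x, hx, rfl⟩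
          have h1 := (Subgroup.mem_normalizer_iff.mp g.2 ((g : G)⁻¹ * x * (g : G))).mpr
          have h3 : (MulAut.conj (g : G)⁻¹).toMonoidHom x = (g : G)⁻¹ * x * g := by
            simp [MulAut.conj_apply]
          rw [h3]
          apply h1
          have h2 : (g : G) * ((g : G)⁻¹ * x * g) * (g : G)⁻¹ = x := by group
          rw [h2]
          exact X.2.1 hx, by
          rw [Subgroup.card_map_of_injective (MulAut.conj (g : G)⁻¹).injective]
          exact X.2.2⟩
      left_inv := fun X => by
        apply Subtype.ext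
        ext x
        simp [Subgroup.mem_map, MulAut.conj_apply, mul_assoc]
      right_inv := fun X => by
        apply Subtype.ext
        ext x
        simp [Subgroup.mem_map, MulAut.conj_apply, mul_assoc] }
  map_one' := by
    ext X x
    simp [Subgroup.mem_map, MulAut.conj_apply]
  map_mul' a b := by
    ext X x
    simp [Subgroup.mem_map, MulAut.conj_apply, mul_assoc]

theorem actSub_coe (g : normalizer (S : Set G)) (X : Sub4 S) :
    ((actSub S g X : Sub4 S) : Subgroup G) = X.1.map (MulAut.conj (g : G)).toMonoidHom := rfl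

end Action

section Main

variable [Finite G]

theorem card_sub4_G (S : Subgroup G) (e : S ≃* H8) : Nat.card (Sub4 S) = 3 := by
  rw [← card_sub4]
  refine Nat.card_congr
    { toFun := fun X => ⟨(X.1.subgroupOf S).map e.toMonoidHom, ?_⟩
      invFun := fun Y => ⟨(Y.1.map e.symm.toMonoidHom).map S.subtype, ?_, ?_⟩
      left_inv := fun X => ?_
      right_inv := fun Y => ?_ }
  · rw [Subgroup.card_map_of_injective e.injective]
    have h1 : (X.1.subgroupOf S) ≃* X.1 := Subgroup.subgroupOfEquivOfLe X.2.1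
    rw [Nat.card_congr h1.toEquiv]
    exact X.2.2
  · exact Subgroup.map_subtype_le _
  · rw [Subgroup.card_map_of_injective S.subtype_injective, Subgroup.card_map_of_injective e.symm.injective]
    exact Y.2
  · apply Subtype.ext
    ext x
    simp only [Subgroup.mem_map, Subgroup.mem_subgroupOf]
    constructor
    · rintro ⟨y, ⟨u, ⟨v, hv, rfl⟩, rfl⟩, rfl⟩
      simpa using hv
    · intro hx
      refine ⟨⟨x, X.2.1 hx⟩, ⟨e ⟨x, X.2.1 hx⟩, ⟨⟨x, X.2.1 hx⟩, hx, rfl⟩, ?_⟩, rfl⟩
      simp
  · apply Subtype.ext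
    ext x
    simp only [Subgroup.mem_map, Subgroup.mem_subgroupOf]
    constructor
    · rintro ⟨y, hy, rfl⟩
      obtain ⟨u, ⟨v, hv, rfl⟩, hu⟩ := hy
      have h2 : e.symm v = y := Subtype.ext hu
      rw [← h2]
      simpa using hv
    · intro hx
      refine ⟨e.symm x, ?_, by simp⟩
      exact ⟨(e.symm x : S), ⟨x, hx, rfl⟩, rfl⟩


theorem conj_of_inv {g y : G} (hodd : Nat.Coprime (orderOf g) 2)
    (h : g * y * g⁻¹ = y ∨ g * y * g⁻¹ = y⁻¹) : g * y * g⁻¹ = y := by
  rcases h with h | h
  · exact h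
  have h1 : ∀ k : ℕ, (g ^ k * y * (g ^ k)⁻¹ = y ∧ Even k) ∨ (g ^ k * y * (g ^ k)⁻¹ = y⁻¹ ∧ Odd k) := by
    intro k
    induction k with
    | zero => left; simp
    | succ k ih =>
      have h2 : ∀ z : G, g ^ (k + 1) * z * (g ^ (k + 1))⁻¹ = g ^ k * (g * z * g⁻¹) * (g ^ k)⁻¹ := by
        intro z; rw [pow_succ]; group
      rcases ih with ⟨ih, hk⟩ | ⟨ih, hk⟩
      · right
        rw [h2, h]
        refine ⟨?_, hk.add_one⟩
        have h3 : g ^ k * y⁻¹ * (g ^ k)⁻¹ = (g ^ k * y * (g ^ k)⁻¹)⁻¹ := by group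
        rw [h3, ih]
      · left
        rw [h2, h]
        refine ⟨?_, hk.add_one⟩
        have h3 : g ^ k * y⁻¹ * (g ^ k)⁻¹ = (g ^ k * y * (g ^ k)⁻¹)⁻¹ := by group
        rw [h3, ih, inv_inv]
  have h3 : Odd (orderOf g) := by
    rw [← Nat.not_even_iff_odd]
    intro hev
    have h4 : 2 ∣ orderOf g := hev.two_dvd
    have h5 := Nat.dvd_gcd h4 (dvd_refl 2)
    rw [Nat.Coprime.gcd_eq_one hodd] at h5
    omega
  rcases h1 (orderOf g) with ⟨_, hk⟩ | ⟨hk, _⟩
  · exact absurd hk (Nat.not_even_iff_odd.mpr h3)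
  · rw [pow_orderOf_eq_one] at hk
    simp only [one_mul, inv_one, mul_one] at hk
    rw [h]
    exact hk.symm

theorem actSub_pow (S : Subgroup G) (g : normalizer (S : Set G)) (k : ℕ) (X : Sub4 S) :
    (((actSub S g ^ k) X : Sub4 S) : Subgroup G) = X.1.map (MulAut.conj ((g : G) ^ k)).toMonoidHom := by
  rw [← map_pow, actSub_coe]
  simp

theorem q8_cube (S : Subgroup G) (e : S ≃* H8) (g : normalizer (S : Set G))
    (hodd : Nat.Coprime (orderOf (g : G)) 2) : actSub S g ^ 3 = 1 := by
  classical
  set σ := actSub S g with hσ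
  have h1 : σ ^ (orderOf (g : G)) = 1 := by
    rw [hσ, ← map_pow]
    have : g ^ orderOf (g : G) = 1 := by
      apply Subtype.ext
      simp [pow_orderOf_eq_one]
    rw [this, map_one]
  have h2 : σ ^ 6 = 1 := by
    have h3 : Nat.card (Equiv.Perm (Sub4 S)) = 6 := by
      rw [Nat.card_perm, card_sub4_G S e]
      rfl
    have h4 := pow_card_eq_one' (x := σ)
    rwa [h3] at h4
  have h3 : orderOf σ ∣ 3 := by
    have h4 : orderOf σ ∣ orderOf (g : G) := orderOf_dvd_of_pow_eq_one h1
    have h5 : orderOf σ ∣ 6 := orderOf_dvd_of_pow_eq_one h2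
    have h6 : Nat.Coprime (orderOf σ) 2 := Nat.Coprime.coprime_dvd_left h4 hodd
    have h7 : orderOf σ ∣ 2 * 3 := h5
    exact h6.dvd_of_dvd_mul_left h7
  exact orderOf_dvd_iff_pow_eq_one.mp h3

theorem mem_sylow_card (S : Subgroup G) (e : S ≃* H8) : Nat.card S = 8 := by
  rw [Nat.card_congr e.toEquiv]
  rw [Nat.card_eq_fintype_card, QuaternionGroup.card]

theorem q8_transitive (S : Sylow 2 G) (e : (S : Subgroup G) ≃* H8)
    (hnc : ∀ N : Subgroup G, N.Normal → ¬ Subgroup.IsComplement' N (S : Subgroup G))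
    (A B : Subgroup G) (hA : A ≤ S) (hB : B ≤ S) (hA4 : Nat.card A = 4) (hB4 : Nat.card B = 4) :
    ∃ n ∈ Subgroup.normalizer ((S : Subgroup G) : Set G), B = A.map (MulAut.conj n).toMonoidHom := by
  classical
  by_contra hnot
  haveI : Fact (Nat.Prime 2) := ⟨Nat.prime_two⟩
  have hst : Cfsg.Agent.Lib.Transfer.FrobeniusStable 2 G := by
    refine Cfsg.Agent.Lib.Transfer.frobeniusStable_of_sylow S (fun Q hQ g hg hodd => ?_)
    rw [Subgroup.mem_centralizer_iff]
    intro y hy
    have hy : y ∈ Q := hy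
    have hyS : y ∈ (S : Subgroup G) := hQ hy
    have hy' : g * y * g⁻¹ ∈ Q := (Subgroup.mem_normalizer_iff.mp hg y).mp hy
    have hy'S : g * y * g⁻¹ ∈ (S : Subgroup G) := hQ hy'
    -- transported facts
    have h4 : ∀ x ∈ (S : Subgroup G), x ^ 4 = 1 := by
      intro x hx
      have h1 := h8_pow4 (e ⟨x, hx⟩)
      rw [← map_pow, ← map_one e] at h1
      have h2 := e.injective h1
      simpa [Subtype.ext_iff] using h2
    have hinv : ∀ u ∈ (S : Subgroup G), ∀ v ∈ (S : Subgroup G), u ≠ 1 → v ≠ 1 → u * u = 1 → v * v = 1 → u = v := by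
      intro u hu v hv hu1 hv1 hu2 hv2
      have h1 : (⟨u, hu⟩ : (S : Subgroup G)) ≠ 1 := fun h => hu1 (congrArg Subtype.val h)
      have h2 : (⟨v, hv⟩ : (S : Subgroup G)) ≠ 1 := fun h => hv1 (congrArg Subtype.val h)
      have h3 : e ⟨u, hu⟩ = e ⟨v, hv⟩ := by
        apply h8_inv
        · rw [Ne, map_eq_one_iff e e.injective]; exact h1
        · rw [Ne, map_eq_one_iff e e.injective]; exact h2
        · rw [← map_mul, map_eq_one_iff e e.injective]; exact Subtype.ext hu2
        · rw [← map_mul, map_eq_one_iff e e.injective]; exact Subtype.ext hv2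
      exact congrArg Subtype.val (e.injective h3)
    have hsq : (g * y * g⁻¹) * (g * y * g⁻¹) = g * (y * y) * g⁻¹ := by group
    suffices hmain : g * y * g⁻¹ = y by
      exact (mul_inv_eq_iff_eq_mul.mp hmain).symm
    by_cases hy2 : y * y = 1
    · by_cases hy1 : y = 1
      · rw [hy1]; simp
      · refine (hinv y hyS _ hy'S hy1 ?_ hy2 ?_).symm
        · intro h
          apply hy1
          have h2 : y = g⁻¹ * (g * y * g⁻¹) * g := by group
          rw [h2, h]; group
        · rw [hsq, hy2]; group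
    · have hord : orderOf y = 4 := orderOf_eq_four (h4 y hyS) hy2
      have hy'2 : (g * y * g⁻¹) * (g * y * g⁻¹) ≠ 1 := by
        rw [hsq]
        intro h
        apply hy2
        have h2 : y * y = g⁻¹ * (g * (y * y) * g⁻¹) * g := by group
        rw [h2, h]; group
      have hclaim : g * y * g⁻¹ ∈ zpowers y := by
        by_cases hQS : Q = S
        · -- the normalizer case
          subst hQS
          have hg' : g ∈ normalizer (((S : Subgroup G)) : Set G) := hg
          have hcube := q8_cube (S : Subgroup G) e ⟨g, hg'⟩ hodd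
          by_cases hσ : actSub (S : Subgroup G) ⟨g, hg'⟩ = 1
          · have hcard : Nat.card (zpowers y) = 4 := by rw [Nat.card_zpowers, hord]
            have hle : zpowers y ≤ (S : Subgroup G) := by rw [zpowers_le]; exact hyS
            let X : Sub4 (S : Subgroup G) := ⟨zpowers y, hle, hcard⟩
            have h1 := actSub_coe (S : Subgroup G) ⟨g, hg'⟩ X
            rw [hσ] at h1
            have h2 : (zpowers y).map (MulAut.conj g).toMonoidHom = zpowers y := h1.symm
            rw [← h2]
            exact ⟨y, mem_zpowers y, rfl⟩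
          · exfalso
            apply hnot
            let A' : Sub4 (S : Subgroup G) := ⟨A, hA, hA4⟩
            let B' : Sub4 (S : Subgroup G) := ⟨B, hB, hB4⟩
            obtain ⟨k, hk⟩ := Cfsg.Agent.Lib.Blocks.Homocyclic.perm3 (card_sub4_G (S : Subgroup G) e) _ hcube hσ A' B'
            refine ⟨g ^ k, Subgroup.pow_mem _ hg' k, ?_⟩
            have h1 := actSub_pow (S : Subgroup G) ⟨g, hg'⟩ k A'
            rw [hk] at h1
            exact h1
        · have h8 : Nat.card (S : Subgroup G) = 8 := mem_sylow_card _ e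
          have hQd : Nat.card Q ∣ 8 := by
            rw [← h8]
            exact Subgroup.card_dvd_of_le hQ
          have hzle : zpowers y ≤ Q := by rw [zpowers_le]; exact hy
          have hz4 : 4 ∣ Nat.card Q := by
            have := Subgroup.card_dvd_of_le hzle
            rwa [Nat.card_zpowers, hord] at this
          have hQ4 : Nat.card Q = 4 := by
            have h3 : Nat.card Q ≠ 8 := by
              intro h
              apply hQS
              apply Subgroup.eq_of_le_of_card_ge hQ
              rw [h, h8]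
            have h5 : Nat.card Q ≤ 8 := Nat.le_of_dvd (by norm_num) hQd
            interval_cases hq : Nat.card Q <;> omega
          have hQz : zpowers y = Q := by
            apply Subgroup.eq_of_le_of_card_ge hzle
            rw [hQ4, Nat.card_zpowers, hord]
          rw [hQz]
          exact hy'
      obtain ⟨k, hk⟩ := mem_zpowers_fin (h4 y hyS) hclaim
      apply conj_of_inv hodd
      fin_cases k
      · exfalso; apply hy'2; rw [hk]; simp
      · left; rw [hk]; simp
      · exfalso; apply hy'2; rw [hk]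
        have h5 := h4 y hyS
        calc _ = y ^ 4 := by simp; group
          _ = 1 := h5
      · right; rw [hk]
        have h5 := h4 y hyS
        rw [eq_inv_iff_mul_eq_one]
        calc _ = y ^ 4 := by simp; group
          _ = 1 := h5
  have hc := Cfsg.Agent.Lib.Transfer.hasNormalPComplement_of_stable hst
  obtain ⟨N, hN, hN2⟩ := Cfsg.Agent.Lib.Transfer.exists_normal_isComplement'_of_hasNormalPComplement hc S
  exact hnc N hN hN2

end Main

end Cfsg.Agent.Lib.Blocks.Q8
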