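import Cfsg.Agent.Lib.Blocks.Q8Core
import Cfsg.Agent.Lib.Blocks.Q8Fusion
import Cfsg.Agent.Lib.Blocks.KleinFour
import Cfsg.Agent.Lib.Char.Kernel
import Cfsg.Agent.S0201

/-!
# The principal `2`-block when the Sylow `2`-subgroup is quaternion of order `8`
-/

set_option autoImplicit false
set_option linter.unusedSectionVars false

namespace Cfsg.Agent.Lib.Blocks.Q8Block

open Cfsg Cfsg.Agent.Lib.Char Cfsg.Agent.Lib.Blocks Cfsg.Agent.Lib.Blocks.Q8Core
open scoped ComplexConjugate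

universe u

section Reg

variable {G : Type u} [Group G] [Fintype G] {M : Ideal AlgInt} {p : ℕ} [hp : Fact p.Prime]

/-- Blocks are determined on the regular classes. -/
theorem sameBlock_of_regular (hM : IsPModular p M) {χ ψ : IrrCharacter G}
    (h : ∀ y : G, ¬ p ∣ orderOf y →
      MemLocalIdeal M (centralChar (χ : G → ℂ) y - centralChar (ψ : G → ℂ) y)) :
    SameBlock M (χ : G → ℂ) (ψ : G → ℂ) := by
  classical
  haveI := isPrime_of_modular hM
  by_contra hne
  have hB : IsPBlock M (blockOf M (χ : G → ℂ)) := ⟨χ, rfl⟩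
  have h1 : indic (blockOf M (χ : G → ℂ)) χ = 1 := indic_apply_of_mem (self_mem_blockOf χ)
  have h2 : indic (blockOf M (χ : G → ℂ)) ψ = 0 := indic_apply_of_notMem hne
  have h3 : MemLocalIdeal M (indic (blockOf M (χ : G → ℂ)) χ - indic (blockOf M (χ : G → ℂ)) ψ) := by
    rw [zS_apply_eq (indic (blockOf M (χ : G → ℂ))) χ, zS_apply_eq (indic (blockOf M (χ : G → ℂ))) ψ,
      ← Finset.sum_sub_distrib]
    refine MemLocalIdeal.sum _ fun K _ => ?_
    rw [← mul_sub]
    by_cases hK : p ∣ orderOf (clsRep K)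
    · have h4 : coef (indic (blockOf M (χ : G → ℂ))) (clsRep K) = 0 := by
        rw [← blockCoeff_eq_coef, blockCoeff]
        have h5 := weak_block_orthogonality hM hB (x := 1) (y := clsRep K)
          (by rw [orderOf_one]; exact hp.out.not_dvd_one) hK
        rw [h5, mul_zero]
      rw [h4, zero_mul]
      exact memLocalIdeal_zero
    · exact MemLocalIdeal.mul_left (indic_mem_zS hB _) (h _ hK)
  rw [h1, h2, sub_zero] at h3
  exact not_memLocalIdeal_one h3

end Reg

section KleinPart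

variable {G : Type u} [Group G] [Fintype G] {M : Ideal AlgInt}

/-- In a group with Klein four Sylow subgroups, characters of the principal block have the value at
the `2`-part of a singular element. -/
theorem klein_apply_two_part (hM : IsPModular 2 M) (P : Sylow 2 G) (hP : IsKleinFour (P : Subgroup G))
    {g : G} (hg : 2 ∣ orderOf g) :
    ∃ z : G, orderOf z = 2 ∧ ∀ χ ∈ principalBlock M G, (χ : G → ℂ) g = (χ : G → ℂ) z := by
  classical
  obtain ⟨α, hα⟩ := exists_isPExp G 2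
  obtain ⟨y, huy, hc, ⟨k, hk⟩, hy⟩ := hα.isPPart g
  have hu1 : g ^ α ≠ 1 := by
    intro h
    rw [h, one_mul] at huy
    rw [huy] at hy
    exact hy hg
  have huord : orderOf (g ^ α) = 2 := orderOf_eq_prime (pow_two_eq_one_of_two_element P hP hk) hu1
  refine ⟨g ^ α, huord, fun χ hχ => ?_⟩
  obtain ⟨⟨m, hm⟩, -⟩ := exists_index_core_centralizer P hP huord
  letI : Fintype (Subgroup.centralizer ({g ^ α} : Set G)) := Fintype.ofFinite _
  have hyC : y ∈ Subgroup.centralizer ({g ^ α} : Set G) := mem_centralizer_singleton_of_commute hc.symm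
  have hyreg : ¬ 2 ∣ orderOf (⟨y, hyC⟩ : Subgroup.centralizer ({g ^ α} : Set G)) := by
    rwa [Subgroup.orderOf_mk]
  have hv : y ∈ centralizerPPrimeCore 2 (g ^ α) :=
    ⟨⟨y, hyC⟩, mem_of_regular_of_index hm hyreg, rfl⟩
  have h1 := principal_apply_mul_core hM ⟨k, hk⟩ hv hχ
  rw [huy] at h1
  exact h1

end KleinPart

section H8

open QuaternionGroup in
theorem h8_sq : ∀ y : QuaternionGroup 2, y * y = 1 ∨ y * y = a 2 := by decide

open QuaternionGroup in
theorem h8_inv' : ∀ y : QuaternionGroup 2, y ≠ 1 → y ≠ a 2 → y * y = a 2 ∧ ∃ t, t * y * t⁻¹ = a 2 * y := by decide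

open QuaternionGroup in
theorem h8_invol : ∀ y : QuaternionGroup 2, y * y = 1 → y ≠ 1 → y = a 2 := by decide

end H8

section Struct

variable {G : Type u} [Group G] [Fintype G]

/-- The central involution. -/
theorem exists_central_involution (hZ2 : Nat.card (Subgroup.center G) = 2) :
    ∃ u : G, u ∈ Subgroup.center G ∧ orderOf u = 2 ∧ ∀ z ∈ Subgroup.center G, z = 1 ∨ z = u := by
  classical
  obtain ⟨⟨u, hu⟩, hu1, huniq⟩ := (Nat.card_eq_two_iff' (1 : Subgroup.center G)).mp hZ2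
  have hu1' : u ≠ 1 := fun h => hu1 (Subtype.ext h)
  refine ⟨u, hu, ?_, ?_⟩
  · have h1 : orderOf (⟨u, hu⟩ : Subgroup.center G) ∣ 2 := by
      rw [← hZ2]
      exact orderOf_dvd_natCard _
    rw [Subgroup.orderOf_mk] at h1
    rcases (Nat.dvd_prime Nat.prime_two).mp h1 with h2 | h2
    · exact absurd (orderOf_eq_one_iff.mp h2) hu1'
    · exact h2
  · intro z hz
    by_cases hz1 : z = 1
    · exact Or.inl hz1
    · right
      have h2 := huniq ⟨z, hz⟩ (fun h => hz1 (congrArg Subtype.val h))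
      exact congrArg Subtype.val h2

/-- No normal complement. -/
theorem no_complement (S : Sylow 2 G) (hO : ∀ N : Subgroup G, N.Normal → Odd (Nat.card N) → N = ⊥)
    (hG : (S : Subgroup G) ≠ ⊤) (N : Subgroup G) (hN : N.Normal) :
    ¬ Subgroup.IsComplement' N (S : Subgroup G) := by
  intro hc
  haveI : Fact (Nat.Prime 2) := ⟨Nat.prime_two⟩
  have h1 := hc.card_mul_card
  have hodd : Odd (Nat.card N) := by
    have h2 : ¬ 2 ∣ (S : Subgroup G).index := S.not_dvd_index
    have h3 : Nat.card N = (S : Subgroup G).index := by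
      have h4 := (S : Subgroup G).index_mul_card
      have h5 : 0 < Nat.card (S : Subgroup G) := Nat.card_pos
      exact Nat.eq_of_mul_eq_mul_right h5 (h1.trans h4.symm)
    rw [h3]
    exact Nat.odd_iff.mpr (by omega)
  have h2 := hO N hN hodd
  apply hG
  rw [h2] at h1
  simp only [Subgroup.card_bot, one_mul] at h1
  exact Subgroup.eq_top_of_card_eq _ h1

/-- Properties of the Sylow subgroup. -/
theorem sylow_props (S : Sylow 2 G) (e : (S : Subgroup G) ≃* QuaternionGroup 2) {u : G}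
    (hu : u ∈ Subgroup.center G) (hu2 : orderOf u = 2) :
    u ∈ (S : Subgroup G) ∧ (∀ s ∈ (S : Subgroup G), s * s = 1 ∨ s * s = u) ∧
      (∀ s ∈ (S : Subgroup G), s ≠ 1 → s ≠ u → s * s = u ∧ ∃ t ∈ (S : Subgroup G), t * s * t⁻¹ = u * s) := by
  classical
  haveI : Fact (Nat.Prime 2) := ⟨Nat.prime_two⟩
  have huS : u ∈ (S : Subgroup G) := by
    have hp : IsPGroup 2 (Subgroup.zpowers u) := isPGroup_zpowers (p := 2) ⟨1, by simpa using hu2⟩
    have h1 : u ∈ Subgroup.zpowers u ⊓ Subgroup.normalizer (S : Set G) := by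
      refine Subgroup.mem_inf.mpr ⟨Subgroup.mem_zpowers u, Subgroup.mem_normalizer_iff.mpr ?_⟩
      intro h
      have h2 : u * h * u⁻¹ = h := by
        rw [(Subgroup.mem_center_iff.mp hu h).symm]
        group
      rw [h2]
    rw [hp.inf_normalizer_sylow S] at h1
    exact (Subgroup.mem_inf.mp h1).2
  have huu : u * u = 1 := by
    rw [← pow_two, ← hu2]
    exact pow_orderOf_eq_one u
  have hu1 : u ≠ 1 := by
    rintro rfl
    simp at hu2
  let ub : (S : Subgroup G) := ⟨u, huS⟩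
  have hub : e ub = QuaternionGroup.a 2 := by
    apply h8_invol
    · rw [← map_mul]
      have : ub * ub = 1 := Subtype.ext huu
      rw [this, map_one]
    · intro h
      have : ub = 1 := by
        apply e.injective
        rw [h, map_one]
      exact hu1 (congrArg Subtype.val this)
  refine ⟨huS, ?_, ?_⟩
  · intro s hs
    let sb : (S : Subgroup G) := ⟨s, hs⟩
    rcases h8_sq (e sb) with h | h
    · left
      rw [← map_mul] at h
      have h2 : sb * sb = 1 := by
        apply e.injective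
        rw [h, map_one]
      exact congrArg Subtype.val h2
    · right
      rw [← map_mul, ← hub] at h
      exact congrArg Subtype.val (e.injective h)
  · intro s hs hs1 hsu
    let sb : (S : Subgroup G) := ⟨s, hs⟩
    have h1 : e sb ≠ 1 := by
      intro h
      have : sb = 1 := by
        apply e.injective
        rw [h, map_one]
      exact hs1 (congrArg Subtype.val this)
    have h2 : e sb ≠ QuaternionGroup.a 2 := by
      intro h
      rw [← hub] at h
      exact hsu (congrArg Subtype.val (e.injective h))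
    obtain ⟨h3, t, ht⟩ := h8_inv' (e sb) h1 h2
    rw [← map_mul, ← hub] at h3
    refine ⟨congrArg Subtype.val (e.injective h3), (e.symm t : (S : Subgroup G)), (e.symm t).2, ?_⟩
    have h4 : e.symm t * sb * (e.symm t)⁻¹ = ub * sb := by
      apply e.injective
      rw [map_mul, map_mul, map_mul, map_inv, e.apply_symm_apply, hub, ht]
    exact congrArg Subtype.val h4

/-- Characters faithful on the central involution have even degree. -/
theorem even_degree (S : Sylow 2 G) (e : (S : Subgroup G) ≃* QuaternionGroup 2) {u : G}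
    (hu : u ∈ Subgroup.center G) (hu2 : orderOf u = 2) (χ : IrrCharacter G)
    (hχ : ∀ g, (χ : G → ℂ) (u * g) = - (χ : G → ℂ) g) : 2 ∣ charDegree (χ : G → ℂ) := by
  classical
  haveI : Fact (Nat.Prime 2) := ⟨Nat.prime_two⟩
  obtain ⟨huS, -, hinv⟩ := sylow_props S e hu hu2
  letI : Fintype (S : Subgroup G) := Fintype.ofFinite _
  have hchar : IsCharacter (S : Subgroup G) (fun s : (S : Subgroup G) => (χ : G → ℂ) s) :=
    IsCharacter.comp (IsIrrCharacter.isCharacter χ.2) (S : Subgroup G).subtype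
  obtain ⟨n, hn⟩ := IsCharacter.classInner_nat hchar hchar
  have hu1 : u ≠ 1 := by
    rintro rfl
    simp at hu2
  let ub : (S : Subgroup G) := ⟨u, huS⟩
  have hub1 : (1 : (S : Subgroup G)) ≠ ub := fun h => hu1 (congrArg Subtype.val h).symm
  have hvan : ∀ s : (S : Subgroup G), s ≠ 1 ∧ s ≠ ub → (χ : G → ℂ) s = 0 := by
    rintro s ⟨h1, h2⟩
    obtain ⟨-, t, -, ht⟩ := hinv s s.2 (fun h => h1 (Subtype.ext h)) (fun h => h2 (Subtype.ext h))
    have h3 := irr_isClassFunction χ (s : G) t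
    rw [ht, hχ] at h3
    have h4 : (2 : ℂ) * (χ : G → ℂ) s = 0 := by linear_combination -h3
    simpa using h4
  have h0 : (χ : G → ℂ) u = - (χ : G → ℂ) 1 := by
    have := hχ 1
    rwa [mul_one] at this
  have hdeg := apply_one_eq_charDegree (IsIrrCharacter.isCharacter χ.2)
  have hreal : conj ((χ : G → ℂ) 1) = (χ : G → ℂ) 1 := by
    rw [hdeg]
    exact Complex.conj_natCast _
  have hsum : ∑ s : (S : Subgroup G), (χ : G → ℂ) s * conj ((χ : G → ℂ) s) =
      2 * ((χ : G → ℂ) 1) ^ 2 := by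
    rw [Finset.sum_eq_add (1 : (S : Subgroup G)) ub hub1 (fun c _ hc => by rw [hvan c hc, zero_mul])
      (by simp) (by simp)]
    show (χ : G → ℂ) 1 * conj ((χ : G → ℂ) 1) + (χ : G → ℂ) u * conj ((χ : G → ℂ) u) = _
    rw [h0, map_neg, hreal]
    ring
  have hcard : (Nat.card (S : Subgroup G) : ℂ) = 8 := by
    rw [Cfsg.Agent.Lib.Blocks.Q8.mem_sylow_card (S : Subgroup G) e]
    norm_num
  rw [classInner, hsum, hcard, hdeg] at hn
  have h1 : (charDegree (χ : G → ℂ) : ℂ) ^ 2 = 4 * (n : ℂ) := by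
    linear_combination 4 * hn
  have h2 : charDegree (χ : G → ℂ) ^ 2 = 4 * n := by
    exact_mod_cast h1
  have h3 : 2 ∣ charDegree (χ : G → ℂ) ^ 2 := by
    rw [h2]
    exact ⟨2 * n, by ring⟩
  exact Nat.Prime.dvd_of_dvd_pow Nat.prime_two h3

end Struct

section Quot

variable {G : Type u} [Group G] [Fintype G]

local notation "𝐙" => Subgroup.center G
local notation "𝐐" => G ⧸ Subgroup.center G

theorem quot_klein (S : Sylow 2 G) (e : (S : Subgroup G) ≃* QuaternionGroup 2) {u : G}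
    (hu : u ∈ 𝐙) (hu2 : orderOf u = 2) (hZ2 : Nat.card 𝐙 = 2) :
    IsKleinFour ((S.mapSurjective (QuotientGroup.mk'_surjective 𝐙) : Sylow 2 𝐐) : Subgroup 𝐐) := by
  classical
  haveI : Fact (Nat.Prime 2) := ⟨Nat.prime_two⟩
  obtain ⟨huS, hsq, -⟩ := sylow_props S e hu hu2
  have hcoe : ((S.mapSurjective (QuotientGroup.mk'_surjective 𝐙) : Sylow 2 𝐐) : Subgroup 𝐐) =
      (S : Subgroup G).map (QuotientGroup.mk' 𝐙) := rfl
  have h8 : Nat.card (S : Subgroup G) = 8 := Cfsg.Agent.Lib.Blocks.Q8.mem_sylow_card _ e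
  have hf : (Nat.card G).factorization 2 = 3 := by
    have h1 := Sylow.card_eq_multiplicity S
    rw [h8] at h1
    have h2 : (2 : ℕ) ^ 3 = 2 ^ (Nat.card G).factorization 2 := by simpa using h1
    exact (Nat.pow_right_injective (le_refl 2) h2).symm
  have hQ : Nat.card G = 2 * Nat.card 𝐐 := by
    rw [← hZ2, ← Subgroup.index_eq_card]
    exact (Subgroup.card_mul_index 𝐙).symm
  have hfQ : (Nat.card 𝐐).factorization 2 = 2 := by
    rw [hQ, Nat.factorization_mul two_ne_zero Nat.card_pos.ne', Finsupp.add_apply,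
      Nat.prime_two.factorization_self] at hf
    omega
  have hcard : Nat.card ((S.mapSurjective (QuotientGroup.mk'_surjective 𝐙) : Sylow 2 𝐐) : Subgroup 𝐐) = 4 := by
    rw [Sylow.card_eq_multiplicity, hfQ]
    norm_num
  refine ⟨hcard, ?_⟩
  have hexp : ∀ x : ((S.mapSurjective (QuotientGroup.mk'_surjective 𝐙) : Sylow 2 𝐐) : Subgroup 𝐐), x ^ 2 = 1 := by
    rintro ⟨x, s, hs, rfl⟩
    apply Subtype.ext
    show (QuotientGroup.mk' 𝐙 s) ^ 2 = 1
    rw [← map_pow, pow_two]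
    rcases hsq s hs with h | h
    · rw [h, map_one]
    · rw [h]
      exact (QuotientGroup.eq_one_iff u).mpr hu
  have h1 : Monoid.exponent ((S.mapSurjective (QuotientGroup.mk'_surjective 𝐙) : Sylow 2 𝐐) : Subgroup 𝐐) ∣ 2 :=
    Monoid.exponent_dvd_of_forall_pow_eq_one hexp
  rcases (Nat.dvd_prime Nat.prime_two).mp h1 with h2 | h2
  · rw [Monoid.exp_eq_one_iff] at h2
    have h3 := Nat.card_of_subsingleton (1 : ((S.mapSurjective (QuotientGroup.mk'_surjective 𝐙) : Sylow 2 𝐐) : Subgroup 𝐐))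
    omega
  · exact h2

theorem quot_lift (S : Sylow 2 G) {u : G} (hu : u ∈ 𝐙) (x : 𝐐) (hx : orderOf x = 2) :
    ∃ s ∈ (S : Subgroup G), s ≠ 1 ∧ s ≠ u ∧ IsConj x (s : 𝐐) := by
  classical
  haveI : Fact (Nat.Prime 2) := ⟨Nat.prime_two⟩
  obtain ⟨s₀, rfl⟩ := QuotientGroup.mk_surjective x
  obtain ⟨k, m, hm, hk⟩ := Nat.exists_eq_two_pow_mul_odd (orderOf_pos s₀).ne'
  have hx2 : ((s₀ : 𝐐)) ^ 2 = 1 := by
    rw [← hx]
    exact pow_orderOf_eq_one _
  have h1 : ((s₀ ^ m : G) : 𝐐) = (s₀ : 𝐐) := by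
    obtain ⟨c, rfl⟩ := hm
    rw [QuotientGroup.mk_pow, pow_succ, pow_mul, hx2, one_pow, one_mul]
  have h2 : (s₀ ^ m) ^ (2 ^ k) = 1 := by
    rw [← pow_mul, mul_comm, ← hk]
    exact pow_orderOf_eq_one s₀
  obtain ⟨j, -, hj⟩ := (Nat.dvd_prime_pow Nat.prime_two).mp (orderOf_dvd_of_pow_eq_one h2)
  obtain ⟨T, hT⟩ := IsPGroup.exists_le_sylow (isPGroup_zpowers (p := 2) ⟨j, hj⟩)
  obtain ⟨a, ha⟩ := MulAction.exists_smul_eq G T S
  have h3 := Cfsg.Agent.Lib.Transfer.conj_mem_smul_sylow (g := a) (hT (Subgroup.mem_zpowers (s₀ ^ m)))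
  rw [ha] at h3
  have hs1 : (s₀ : 𝐐) ≠ 1 := by
    intro h
    rw [h, orderOf_one] at hx
    norm_num at hx
  have hconj : IsConj (s₀ : 𝐐) ((a * s₀ ^ m * a⁻¹ : G) : 𝐐) := by
    refine isConj_iff.mpr ⟨(a : 𝐐), ?_⟩
    rw [QuotientGroup.mk_mul, QuotientGroup.mk_mul, QuotientGroup.mk_inv, h1]
  have hne : ((a * s₀ ^ m * a⁻¹ : G) : 𝐐) ≠ 1 := by
    intro h
    rw [h] at hconj
    exact hs1 (isConj_one_right.mp hconj.symm)
  refine ⟨a * s₀ ^ m * a⁻¹, h3, ?_, ?_, hconj⟩
  · intro h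
    rw [h] at hne
    exact hne rfl
  · intro h
    rw [h] at hne
    exact hne ((QuotientGroup.eq_one_iff u).mpr hu)

theorem quot_hone (S : Sylow 2 G) (e : (S : Subgroup G) ≃* QuaternionGroup 2)
    (hO : ∀ N : Subgroup G, N.Normal → Odd (Nat.card N) → N = ⊥) (hG : (S : Subgroup G) ≠ ⊤) {u : G}
    (hu : u ∈ 𝐙) (hu2 : orderOf u = 2) (hZ : ∀ z ∈ 𝐙, z = 1 ∨ z = u) :
    ∀ s t : 𝐐, orderOf s = 2 → orderOf t = 2 → IsConj s t := by
  classical
  haveI : Fact (Nat.Prime 2) := ⟨Nat.prime_two⟩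
  intro x y hx hy
  obtain ⟨s, hs, hs1, hsu, hxs⟩ := quot_lift S hu x hx
  obtain ⟨t, ht, ht1, htu, hyt⟩ := quot_lift S hu y hy
  refine hxs.trans (IsConj.trans ?_ hyt.symm)
  obtain ⟨-, -, hinv⟩ := sylow_props S e hu hu2
  have hss := (hinv s hs hs1 hsu).1
  have htt := (hinv t ht ht1 htu).1
  have huu : u * u = 1 := by
    rw [← pow_two, ← hu2]
    exact pow_orderOf_eq_one u
  have hu1 : u ≠ 1 := by
    rintro rfl
    simp at hu2
  have hord : ∀ w : G, w * w = u → orderOf w = 4 := by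
    intro w hw
    have h1 : w ^ 2 ^ 1 ≠ 1 := by
      rw [pow_one, pow_two, hw]
      exact hu1
    have h2 : w ^ 2 ^ (1 + 1) = 1 := by
      have : w ^ 2 ^ (1 + 1) = (w * w) * (w * w) := by
        rw [show 2 ^ (1 + 1) = 2 + 2 from rfl, pow_add, pow_two]
      rw [this, hw, huu]
    have h3 := orderOf_eq_prime_pow h1 h2
    simpa using h3
  obtain ⟨n, hn, hmap⟩ := Cfsg.Agent.Lib.Blocks.Q8.q8_transitive S e
    (fun N hN => no_complement S hO hG N hN) (Subgroup.zpowers s) (Subgroup.zpowers t)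
    ((Subgroup.zpowers_le).mpr hs) ((Subgroup.zpowers_le).mpr ht)
    (by rw [Nat.card_zpowers, hord s hss]) (by rw [Nat.card_zpowers, hord t htt])
  have ht' : t ∈ (Subgroup.zpowers s).map (MulAut.conj n).toMonoidHom := by
    rw [← hmap]
    exact Subgroup.mem_zpowers t
  obtain ⟨w, hw, hwt⟩ := ht'
  obtain ⟨k, rfl⟩ := Subgroup.mem_zpowers_iff.mp hw
  have hwt' : n * s ^ k * n⁻¹ = t := hwt
  have hsQ : (s : 𝐐) ^ 2 = 1 := by
    rw [← QuotientGroup.mk_pow, pow_two, hss]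
    exact (QuotientGroup.eq_one_iff u).mpr hu
  have htQ : (t : 𝐐) ≠ 1 := by
    intro h
    rcases hZ t ((QuotientGroup.eq_one_iff t).mp h) with h1 | h1
    · exact ht1 h1
    · exact htu h1
  have hval : (t : 𝐐) = (n : 𝐐) * (s : 𝐐) ^ k * (n : 𝐐)⁻¹ := by
    rw [← hwt', QuotientGroup.mk_mul, QuotientGroup.mk_mul, QuotientGroup.mk_inv, QuotientGroup.mk_zpow]
  rcases Int.even_or_odd' k with ⟨c, rfl | rfl⟩
  · exfalso
    apply htQ
    rw [hval, zpow_mul, zpow_two]
    have : (s : 𝐐) * (s : 𝐐) = 1 := by rw [← pow_two, hsQ]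
    rw [this, one_zpow, mul_one, mul_inv_cancel]
  · refine isConj_iff.mpr ⟨(n : 𝐐), ?_⟩
    rw [hval, zpow_add, zpow_mul, zpow_two]
    have : (s : 𝐐) * (s : 𝐐) = 1 := by rw [← pow_two, hsQ]
    rw [this, one_zpow, one_mul, zpow_one]

/-- Comparing centralizers with the quotient. -/
theorem index_centralizer_mk (g : G) :
    ∃ s : ℕ, (Subgroup.centralizer ({g} : Set G)).index =
      s * (Subgroup.centralizer ({(g : 𝐐)} : Set 𝐐)).index := by
  have hle : Subgroup.centralizer ({g} : Set G) ≤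
      (Subgroup.centralizer ({(g : 𝐐)} : Set 𝐐)).comap (QuotientGroup.mk' 𝐙) := by
    intro x hx
    rw [Subgroup.mem_comap, Subgroup.mem_centralizer_singleton_iff]
    have h1 := Subgroup.mem_centralizer_singleton_iff.mp hx
    show (x : 𝐐) * (g : 𝐐) = (g : 𝐐) * (x : 𝐐)
    rw [← QuotientGroup.mk_mul, ← QuotientGroup.mk_mul, h1]
  refine ⟨(Subgroup.centralizer ({g} : Set G)).relIndex
    ((Subgroup.centralizer ({(g : 𝐐)} : Set 𝐐)).comap (QuotientGroup.mk' 𝐙)), ?_⟩
  rw [← Subgroup.relIndex_mul_index hle,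
    Subgroup.index_comap_of_surjective _ (QuotientGroup.mk'_surjective 𝐙)]

theorem index_centralizer_regular {u : G} (hu : u ∈ 𝐙) (hu2 : orderOf u = 2)
    (hZ : ∀ z ∈ 𝐙, z = 1 ∨ z = u) {y : G} (hy : ¬ 2 ∣ orderOf y) :
    (Subgroup.centralizer ({y} : Set G)).index =
      (Subgroup.centralizer ({(y : 𝐐)} : Set 𝐐)).index := by
  have heq : Subgroup.centralizer ({y} : Set G) =
      (Subgroup.centralizer ({(y : 𝐐)} : Set 𝐐)).comap (QuotientGroup.mk' 𝐙) := by
    ext x
    rw [Subgroup.mem_comap, Subgroup.mem_centralizer_singleton_iff, Subgroup.mem_centralizer_singleton_iff]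
    constructor
    · intro h1
      show (x : 𝐐) * (y : 𝐐) = (y : 𝐐) * (x : 𝐐)
      rw [← QuotientGroup.mk_mul, ← QuotientGroup.mk_mul, h1]
    · intro h1
      have h2 : (x : 𝐐) * (y : 𝐐) = (y : 𝐐) * (x : 𝐐) := h1
      rw [← QuotientGroup.mk_mul, ← QuotientGroup.mk_mul, QuotientGroup.eq] at h2
      rcases hZ _ h2 with h3 | h3
      · have h4 : x * y = y * x := by
          have := h3
          rw [mul_inv_rev] at this
          have h5 : y⁻¹ * x⁻¹ * (y * x) = 1 := this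
          calc x * y = x * y * 1 := by rw [mul_one]
            _ = x * y * (y⁻¹ * x⁻¹ * (y * x)) := by rw [h5]
            _ = y * x := by group
        exact h4
      · exfalso
        have hc : y⁻¹ * x⁻¹ * (y * x) = u := by
          rw [← h3, mul_inv_rev]
        have h4 : x⁻¹ * (y * x) = y * u := by
          rw [← hc]
          group
        have h5 : orderOf (x⁻¹ * y * x) = orderOf y := by
          have h6 := orderOf_conj' x⁻¹ y
          simpa using h6
        have h6 := two_dvd_orderOf_mul hu hu2 hy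
        have h7 : u * y = x⁻¹ * y * x := by
          rw [mul_assoc, h4]
          exact (Subgroup.mem_center_iff.mp hu y).symm
        rw [h7, h5] at h6
        exact hy h6
  rw [heq, Subgroup.index_comap_of_surjective _ (QuotientGroup.mk'_surjective 𝐙)]

theorem exists_regular_lift {u : G} (hu2 : orderOf u = 2) (hZ : ∀ z ∈ 𝐙, z = 1 ∨ z = u) (x : 𝐐)
    (hx : ¬ 2 ∣ orderOf x) : ∃ y : G, ¬ 2 ∣ orderOf y ∧ (y : 𝐐) = x := by
  obtain ⟨y₀, rfl⟩ := QuotientGroup.mk_surjective x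
  set m := orderOf (y₀ : 𝐐) with hm
  have huu : u ^ 2 = 1 := by
    rw [← hu2]
    exact pow_orderOf_eq_one u
  have h1 : (y₀ ^ m : G) ∈ 𝐙 := by
    rw [← QuotientGroup.eq_one_iff, QuotientGroup.mk_pow, hm]
    exact pow_orderOf_eq_one _
  have h2 : (y₀ ^ m) ^ 2 = 1 := by
    rcases hZ _ h1 with h3 | h3
    · rw [h3, one_pow]
    · rw [h3, huu]
  obtain ⟨c, hc⟩ : ∃ c, m + 1 = 2 * c := by
    have : m % 2 = 1 := by
      have := Nat.mod_two_eq_zero_or_one m
      rcases this with h | h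
      · exact absurd (Nat.dvd_of_mod_eq_zero h) hx
      · exact h
    exact ⟨(m + 1) / 2, by omega⟩
  refine ⟨y₀ ^ (m + 1), ?_, ?_⟩
  · have h3 : (y₀ ^ (m + 1)) ^ m = 1 := by
      rw [hc, ← pow_mul, show 2 * c * m = m * 2 * c by ring, pow_mul, pow_mul, h2, one_pow]
    intro h4
    exact hx (h4.trans (orderOf_dvd_of_pow_eq_one h3))
  · rw [QuotientGroup.mk_pow, pow_succ, hm, pow_orderOf_eq_one, one_mul]

variable {M : Ideal AlgInt}

theorem inflate_mem_principal (hM : IsPModular 2 M) {β : IrrCharacter 𝐐} (hβ : β ∈ principalBlock M 𝐐)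
    {χ : IrrCharacter G} (hχ : ∀ g : G, (χ : G → ℂ) g = (β : 𝐐 → ℂ) (g : 𝐐)) : χ ∈ principalBlock M G := by
  haveI := isPrime_of_modular hM
  intro g
  obtain ⟨s, hs⟩ := index_centralizer_mk g
  have h1 : MemLocalIdeal M (centralChar (fun _ : 𝐐 => (1 : ℂ)) (g : 𝐐) - centralChar (β : 𝐐 → ℂ) (g : 𝐐)) := hβ (g : 𝐐)
  have h2 : centralChar (fun _ : G => (1 : ℂ)) g - centralChar (χ : G → ℂ) g =
      (s : ℂ) * (centralChar (fun _ : 𝐐 => (1 : ℂ)) (g : 𝐐) - centralChar (β : 𝐐 → ℂ) (g : 𝐐)) := by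
    have h3 : (χ : G → ℂ) 1 = (β : 𝐐 → ℂ) 1 := hχ 1
    simp only [centralChar]
    rw [hs, hχ g, h3]
    push_cast
    ring
  rw [h2]
  exact MemLocalIdeal.mul_left (MemLocalRing.natCast s) h1

theorem mem_principal_of_inflate (hM : IsPModular 2 M) {u : G} (hu : u ∈ 𝐙) (hu2 : orderOf u = 2)
    (hZ : ∀ z ∈ 𝐙, z = 1 ∨ z = u) {β : IrrCharacter 𝐐} {χ : IrrCharacter G}
    (hχ : ∀ g : G, (χ : G → ℂ) g = (β : 𝐐 → ℂ) (g : 𝐐)) (hmem : χ ∈ principalBlock M G) :
    β ∈ principalBlock M 𝐐 := by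
  haveI : Fact (Nat.Prime 2) := ⟨Nat.prime_two⟩
  letI : Fintype 𝐐 := Fintype.ofFinite _
  refine sameBlock_of_regular (p := 2) hM (χ := oneIrr 𝐐) (ψ := β) ?_
  intro x hx
  obtain ⟨y, hy, rfl⟩ := exists_regular_lift hu2 hZ x hx
  have hidx := index_centralizer_regular hu hu2 hZ hy
  have h1 : MemLocalIdeal M (centralChar (fun _ : G => (1 : ℂ)) y - centralChar (χ : G → ℂ) y) := hmem y
  have h3 : (χ : G → ℂ) 1 = (β : 𝐐 → ℂ) 1 := hχ 1
  have h2 : centralChar (fun _ : G => (1 : ℂ)) y - centralChar (χ : G → ℂ) y =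
      centralChar ((oneIrr 𝐐 : IrrCharacter 𝐐) : 𝐐 → ℂ) (y : 𝐐) - centralChar (β : 𝐐 → ℂ) (y : 𝐐) := by
    simp only [centralChar]
    rw [hidx, hχ y, h3]
    rfl
  rw [← h2]
  exact h1

/-- **The principal `2`-block for a quaternion Sylow subgroup of order `8`.** -/
theorem q8_principal_block (hM : IsPModular 2 M) (S : Sylow 2 G) (e : (S : Subgroup G) ≃* QuaternionGroup 2)
    (hO : ∀ N : Subgroup G, N.Normal → Odd (Nat.card N) → N = ⊥) (hG : (S : Subgroup G) ≠ ⊤) :
    Nat.card (principalBlock M G) = 7 := by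
  classical
  haveI : Fact (Nat.Prime 2) := ⟨Nat.prime_two⟩
  haveI := isPrime_of_modular hM
  have hZ2 : Nat.card 𝐙 = 2 := Cfsg.Agent.S0201.result S 0 e hO
  obtain ⟨u, hu, hu2, hZ⟩ := exists_central_involution hZ2
  letI : Fintype 𝐐 := Fintype.ofFinite _
  letI : Fintype 𝐙 := Fintype.ofFinite _
  have hP := quot_klein S e hu hu2 hZ2
  have hone := quot_hone S e hO hG hu hu2 hZ
  obtain ⟨ζ₂, ζ₃, ζ₄, ε, hε, h₂1, h₃1, h23, h24, h34, hblock, hvals, hd2, hd3, hd4, hrel⟩ :=
    klein_principal_block hM _ hP hone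
  let ι : IrrCharacter 𝐐 → IrrCharacter G := fun β => ⟨inflate 𝐙 β, isIrrCharacter_inflate 𝐙 β.2⟩
  have hιval : ∀ (β : IrrCharacter 𝐐) (g : G), (ι β : G → ℂ) g = (β : 𝐐 → ℂ) (g : 𝐐) := fun _ _ => rfl
  have hιinj : Function.Injective ι := by
    intro β β' h
    apply Subtype.ext
    funext x
    obtain ⟨g, rfl⟩ := QuotientGroup.mk_surjective x
    exact congrFun (congrArg Subtype.val h) g
  let one : IrrCharacter 𝐐 := oneIrr 𝐐
  have hone_val : ∀ x, (one : 𝐐 → ℂ) x = 1 := fun _ => rfl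
  have hmem : ∀ β : IrrCharacter 𝐐, β ∈ principalBlock M 𝐐 ↔ (β = one ∨ β = ζ₂ ∨ β = ζ₃ ∨ β = ζ₄) := by
    intro β
    rw [hblock]
    show ((β : 𝐐 → ℂ) = (fun _ => 1) ∨ β = ζ₂ ∨ β = ζ₃ ∨ β = ζ₄) ↔ _
    refine or_congr ?_ Iff.rfl
    exact ⟨fun h => Subtype.ext h, fun h => congrArg Subtype.val h⟩
  -- the involutions of the quotient
  obtain ⟨z₀, hz₀⟩ : ∃ x : 𝐐, orderOf x = 2 := by
    apply exists_prime_orderOf_dvd_card'
    have h1 : Nat.card ((S.mapSurjective (QuotientGroup.mk'_surjective 𝐙) : Sylow 2 𝐐) : Subgroup 𝐐) = 4 :=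
      IsKleinFour.card_four
    have h2 := Subgroup.card_subgroup_dvd_card ((S.mapSurjective (QuotientGroup.mk'_surjective 𝐙) : Sylow 2 𝐐) : Subgroup 𝐐)
    rw [h1] at h2
    exact (by norm_num : (2 : ℕ) ∣ 4).trans h2
  have hvals₀ := hvals z₀ hz₀
  have h₄1 : ζ₄ ≠ one := by
    intro h
    have h1 := hvals₀.2.2
    rw [h, hone_val] at h1
    norm_num at h1
  have h₂1' : ζ₂ ≠ one := fun h => h₂1 (congrArg Subtype.val h)
  have h₃1' : ζ₃ ≠ one := fun h => h₃1 (congrArg Subtype.val h)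
  -- singular elements of the quotient
  have hsing : ∀ g : G, 2 ∣ orderOf g → 2 ∣ orderOf (u * g) → 2 ∣ orderOf (g : 𝐐) := by
    intro g h1 h2
    by_contra h3
    set m := orderOf (g : 𝐐) with hm
    have h4 : (g ^ m : G) ∈ 𝐙 := by
      rw [← QuotientGroup.eq_one_iff, QuotientGroup.mk_pow, hm]
      exact pow_orderOf_eq_one _
    rcases hZ _ h4 with h5 | h5
    · exact h3 (h1.trans (orderOf_dvd_of_pow_eq_one h5))
    · apply h3
      refine h2.trans (orderOf_dvd_of_pow_eq_one ?_)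
      have hc : Commute u g := (Subgroup.mem_center_iff.mp hu g).symm
      rw [hc.mul_pow, h5]
      obtain ⟨c, hc'⟩ : ∃ c, m = 2 * c + 1 := by
        have := Nat.mod_two_eq_zero_or_one m
        rcases this with h | h
        · exact absurd (Nat.dvd_of_mod_eq_zero h) h3
        · exact ⟨m / 2, by omega⟩
      have huu : u * u = 1 := by
        rw [← pow_two, ← hu2]
        exact pow_orderOf_eq_one u
      rw [hc', pow_succ, pow_mul, pow_two, huu, one_pow, one_mul, huu]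
  have hvan : ∀ g : G, 2 ∣ orderOf g → 2 ∣ orderOf (u * g) →
      ((ζ₂ : 𝐐 → ℂ) (g : 𝐐) = 1 ∧ (ζ₃ : 𝐐 → ℂ) (g : 𝐐) = (ε : ℂ) ∧ (ζ₄ : 𝐐 → ℂ) (g : 𝐐) = -1) := by
    intro g h1 h2
    obtain ⟨z, hz, hzv⟩ := klein_apply_two_part hM _ hP (hsing g h1 h2)
    rw [hzv ζ₂ ((hmem ζ₂).mpr (Or.inr (Or.inl rfl))), hzv ζ₃ ((hmem ζ₃).mpr (Or.inr (Or.inr (Or.inl rfl)))),
      hzv ζ₄ ((hmem ζ₄).mpr (Or.inr (Or.inr (Or.inr rfl))))]
    exact hvals z hz
  refine q8_core hM hu hu2 (ι one) (ι ζ₂) (ι ζ₃) (ι ζ₄) ε hε ?_ ?_ ?_ ?_ ?_ ?_ ?_ ?_ ?_ ?_ ?_ ?_ ?_ ?_ ?_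
  · exact fun h => h₂1' (hιinj h).symm
  · exact fun h => h₃1' (hιinj h).symm
  · exact fun h => h₄1 (hιinj h).symm
  · exact fun h => h23 (hιinj h)
  · exact fun h => h24 (hιinj h)
  · exact fun h => h34 (hιinj h)
  · -- the characters of the block with `u` in the kernel
    intro χ
    constructor
    · rintro ⟨hχ, hinv⟩
      have hle : 𝐙 ≤ charKer (χ : G → ℂ) := by
        intro z hz
        rw [mem_charKer (irr_isCharacter χ)]
        rcases hZ z hz with rfl | rfl
        · rfl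
        · have := hinv 1
          rwa [mul_one] at this
      obtain ⟨β, hβ, hχeq⟩ := exists_deflate 𝐙 χ.2 hle
      have hm := mem_principal_of_inflate hM hu hu2 hZ (β := ⟨β, hβ⟩) (χ := χ)
        (fun g => congrFun hχeq g) hχ
      have hχι : χ = ι ⟨β, hβ⟩ := Subtype.ext hχeq
      rcases (hmem _).mp hm with h | h | h | h
      · left
        rw [hχι, h]
      · right; left
        rw [hχι, h]
      · right; right; left
        rw [hχι, h]
      · right; right; right
        rw [hχι, h]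
    · have hinvι : ∀ (β : IrrCharacter 𝐐) (g : G), (ι β : G → ℂ) (u * g) = (ι β : G → ℂ) g := by
        intro β g
        rw [hιval, hιval, QuotientGroup.mk_mul, show (u : 𝐐) = 1 from (QuotientGroup.eq_one_iff u).mpr hu, one_mul]
      rintro (rfl | rfl | rfl | rfl)
      · exact ⟨inflate_mem_principal hM ((hmem _).mpr (Or.inl rfl)) (hιval _), hinvι _⟩
      · exact ⟨inflate_mem_principal hM ((hmem _).mpr (Or.inr (Or.inl rfl))) (hιval _), hinvι _⟩
      · exact ⟨inflate_mem_principal hM ((hmem _).mpr (Or.inr (Or.inr (Or.inl rfl)))) (hιval _), hinvι _⟩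
      · exact ⟨inflate_mem_principal hM ((hmem _).mpr (Or.inr (Or.inr (Or.inr rfl)))) (hιval _), hinvι _⟩
  · -- the relation
    intro y hy
    have h1 : Odd (orderOf (y : 𝐐)) := by
      have h2 : orderOf (y : 𝐐) ∣ orderOf y := by
        apply orderOf_dvd_of_pow_eq_one
        rw [← QuotientGroup.mk_pow, pow_orderOf_eq_one]
        rfl
      have h3 : ¬ 2 ∣ orderOf (y : 𝐐) := fun h => hy (h.trans h2)
      exact Nat.odd_iff.mpr (by omega)
    have h2 := hrel (y : 𝐐) h1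
    simp only [hιval, hone_val]
    exact h2
  · intro g h1 h2
    obtain ⟨-, -, h4⟩ := hvan g h1 h2
    simp only [hιval, hone_val, h4]
    norm_num
  · intro g h1 h2
    obtain ⟨h3, -, h4⟩ := hvan g h1 h2
    simp only [hιval, h3, h4]
    norm_num
  · intro g h1 h2
    obtain ⟨-, h3, h4⟩ := hvan g h1 h2
    simp only [hιval, h3, h4]
    ring
  · -- odd degrees
    show Odd (charDegree (fun g : G => (1 : ℂ)))
    simp [charDegree]
  · show Odd (charDegree (ζ₂ : 𝐐 → ℂ))
    obtain ⟨c, hc⟩ := hd2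
    exact Nat.odd_iff.mpr (by omega)
  · show Odd (charDegree (ζ₃ : 𝐐 → ℂ))
    obtain ⟨c, hc⟩ := hd3
    rcases hε with rfl | rfl <;> exact Nat.odd_iff.mpr (by omega)
  · -- even degrees
    intro χ _ hχ
    rcases irr_central_sign χ hu hu2 with h | h
    · exact absurd h hχ
    · exact even_degree S e hu hu2 χ h

end Quot

end Cfsg.Agent.Lib.Blocks.Q8Block
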