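import Cfsg.Agent.Lib.Blocks.Section
import Cfsg.Agent.Lib.Blocks.NormalCentral
import Cfsg.Agent.Lib.Char.BrauerInd3
import Cfsg.Agent.Lib.Char.Artin
import Cfsg.Agent.Lib.Char.Exceptional
import Cfsg.Agent.Lib.Char.Degree
import Cfsg.Agent.Lib.Blocks.Height

/-!
# The principal `2`-block when the Sylow `2`-subgroup is quaternion of order `8`: the count
-/

set_option autoImplicit false
set_option linter.unusedSectionVars false

namespace Cfsg.Agent.Lib.Blocks.Q8Core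

open Cfsg Cfsg.Agent.Lib.Char
open scoped ComplexConjugate

universe u

section Gen

variable {E : Type u} [Group E] [Fintype E]

theorem isGen_intCast_smul {f : E → ℂ} (hf : IsGeneralizedCharacter E f) (n : ℤ) :
    IsGeneralizedCharacter E ((n : ℂ) • f) := by
  induction n using Int.induction_on with
  | zero => simpa using isGeneralizedCharacter_zero
  | succ i ih =>
    have h : (((i : ℤ) + 1 : ℤ) : ℂ) • f = ((i : ℤ) : ℂ) • f + f := by
      push_cast
      rw [add_smul, one_smul]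
    rw [h]
    exact IsGeneralizedCharacter.add ih hf
  | pred i ih =>
    have h : ((-(i : ℤ) - 1 : ℤ) : ℂ) • f = ((-(i : ℤ) : ℤ) : ℂ) • f + -f := by
      push_cast
      rw [sub_smul, one_smul]
      abel
    rw [h]
    exact IsGeneralizedCharacter.add ih (IsGeneralizedCharacter.neg hf)

/-- A class function with integral multiplicities is a generalized character. -/
theorem isGeneralized_of_int {θ : E → ℂ} (hθ : IsClassFunction E θ)
    (h : ∀ ψ : IrrCharacter E, ∃ n : ℤ, classInner θ (ψ : E → ℂ) = n) : IsGeneralizedCharacter E θ := by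
  classical
  have h1 := classFunction_eq_sum θ hθ
  rw [h1]
  apply IsGeneralizedCharacter.sum'
  intro ψ _
  obtain ⟨n, hn⟩ := h ψ
  rw [hn]
  exact isGen_intCast_smul (IsGeneralizedCharacter.of_character (IsIrrCharacter.isCharacter ψ.2)) n

end Gen

section Sum

variable {G : Type u} [Group G] [Fintype G]

open scoped Classical in
/-- Folding a sum along the central involution. -/
theorem sum_eq_two_mul {u : G} (hu : u ∈ Subgroup.center G) (hu2 : orderOf u = 2) (f : G → ℂ)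
    (hf : ∀ g, f (u * g) = f g) (hf0 : ∀ g, 2 ∣ orderOf g → 2 ∣ orderOf (u * g) → f g = 0) :
    ∑ g, f g = 2 * ∑ g, (if 2 ∣ orderOf g then 0 else f g) := by
  have huu : u * u = 1 := by
    rw [← pow_two, ← hu2]
    exact pow_orderOf_eq_one u
  have hcomm : ∀ g, Commute u g := fun g => (Subgroup.mem_center_iff.mp hu g).symm
  -- `u * g` and `g` are not both regular
  have hreg : ∀ g, ¬ 2 ∣ orderOf g → 2 ∣ orderOf (u * g) := by
    intro g hg
    by_contra h
    have h1 : u = (u * g) * g⁻¹ := by group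
    have h2 : Commute (u * g) g⁻¹ := ((hcomm g).mul_left (Commute.refl g)).inv_right
    have h3 := h2.orderOf_mul_dvd_lcm
    rw [← h1, hu2, orderOf_inv] at h3
    rcases (Nat.Prime.dvd_lcm Nat.prime_two).mp h3 with h4 | h4
    · exact h h4
    · exact hg h4
  have h1 : ∀ g, f g = (if 2 ∣ orderOf g then 0 else f g) + (if 2 ∣ orderOf (u * g) then 0 else f g) := by
    intro g
    by_cases h2 : 2 ∣ orderOf g
    · by_cases h3 : 2 ∣ orderOf (u * g)
      · simp [h2, h3, hf0 g h2 h3]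
      · simp [h2, h3]
    · simp [h2, hreg g h2]
  have h2 : ∑ g, (if 2 ∣ orderOf (u * g) then 0 else f g) = ∑ g, (if 2 ∣ orderOf g then 0 else f g) := by
    rw [← Equiv.sum_comp (Equiv.mulLeft u) (fun g => if 2 ∣ orderOf g then 0 else f g)]
    refine Finset.sum_congr rfl fun g _ => ?_
    simp only [Equiv.coe_mulLeft, hf g]
  calc ∑ g, f g = ∑ g, ((if 2 ∣ orderOf g then 0 else f g) + (if 2 ∣ orderOf (u * g) then 0 else f g)) :=
        Finset.sum_congr rfl fun g _ => h1 g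
    _ = _ := by
      rw [Finset.sum_add_distrib, h2]
      ring

end Sum

section P

variable {G : Type u} [Group G] [Fintype G]

open scoped Classical in
/-- The function `2 Φ` on the `2`-regular elements, zero elsewhere. -/
noncomputable def pFun (Φ : G → ℂ) (g : G) : ℂ := if 2 ∣ orderOf g then 0 else 2 * Φ g

theorem orderOf_conj' (h g : G) : orderOf (h * g * h⁻¹) = orderOf g := by
  rw [← MulAut.conj_apply, MulEquiv.orderOf_eq]

theorem pFun_isClassFunction {Φ : G → ℂ} (hΦ : IsClassFunction G Φ) : IsClassFunction G (pFun Φ) := by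
  intro g h
  simp only [pFun, orderOf_conj', hΦ g h]

variable {u : G} (hu : u ∈ Subgroup.center G) (hu2 : orderOf u = 2)

include hu hu2 in
theorem classInner_pFun_of_ker {Φ χ : G → ℂ} (hΦu : ∀ g, Φ (u * g) = Φ g)
    (hΦ0 : ∀ g, 2 ∣ orderOf g → 2 ∣ orderOf (u * g) → Φ g = 0) (hχu : ∀ g, χ (u * g) = χ g) :
    classInner (pFun Φ) χ = classInner Φ χ := by
  classical
  rw [classInner, classInner, sum_eq_two_mul hu hu2 (fun g => Φ g * conj (χ g))
    (by intro g; simp only [hΦu, hχu]) (by intro g h1 h2; simp [hΦ0 g h1 h2])]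
  congr 1
  rw [Finset.mul_sum]
  refine Finset.sum_congr rfl fun g _ => ?_
  by_cases h : 2 ∣ orderOf g
  · simp [pFun, h]
  · simp only [pFun, h, if_false]
    ring

include hu hu2 in
theorem classInner_pFun_self {Φ : G → ℂ} (hΦu : ∀ g, Φ (u * g) = Φ g)
    (hΦ0 : ∀ g, 2 ∣ orderOf g → 2 ∣ orderOf (u * g) → Φ g = 0) :
    classInner (pFun Φ) (pFun Φ) = 2 * classInner Φ Φ := by
  classical
  rw [classInner, classInner, sum_eq_two_mul hu hu2 (fun g => Φ g * conj (Φ g))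
    (by intro g; simp only [hΦu]) (by intro g h1 h2; simp [hΦ0 g h1 h2])]
  have h1 : ∀ g, pFun Φ g * conj (pFun Φ g) =
      4 * (if 2 ∣ orderOf g then 0 else Φ g * conj (Φ g)) := by
    intro g
    by_cases h : 2 ∣ orderOf g
    · simp [pFun, h]
    · simp only [pFun, h, if_false, map_mul, Complex.conj_ofNat]
      ring
  simp only [h1]
  rw [← Finset.mul_sum]
  ring

include hu hu2 in
/-- The function `pFun Φ` is a generalized character. -/
theorem pFun_isGeneralized {Φ : G → ℂ} (hΦg : IsGeneralizedCharacter G Φ) (hΦu : ∀ g, Φ (u * g) = Φ g)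
    (hΦ0 : ∀ g, 2 ∣ orderOf g → 2 ∣ orderOf (u * g) → Φ g = 0) :
    IsGeneralizedCharacter G (pFun Φ) := by
  classical
  obtain ⟨a, b, ha, hb, hab⟩ := id hΦg
  have hΦc : IsClassFunction G Φ := by
    rw [hab]
    exact IsClassFunction.sub (IsCharacter.isClassFunction ha) (IsCharacter.isClassFunction hb)
  apply isGeneralizedCharacter_of_elementary (pFun_isClassFunction hΦc)
  intro E ℓ hℓ hE
  letI : Fintype E := Fintype.ofFinite _
  apply isGeneralized_of_int
  · intro x y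
    have := pFun_isClassFunction hΦc (x : G) (y : G)
    simpa using this
  intro ψ
  obtain ⟨τ, σ, h1, h2, h3, h4⟩ := Cfsg.Agent.Lib.Blocks.exists_parts_elementary (p := 2) E hℓ hE
  obtain ⟨α, hα⟩ := exists_isPExp G 2
  have hσreg : ∀ e : E, ¬ 2 ∣ orderOf (e : G) → σ e = e := by
    intro e he
    have h5 : (τ e : G) = 1 := by
      rw [← hα.eq_of_isPPart (h4 e)]
      exact hα.pow_of_regular he
    have h6 : τ e = 1 := Subtype.ext h5
    have h7 := h1 e
    rw [h6, one_mul] at h7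
    exact h7
  have hψ' : IsCharacter E ((ψ : E → ℂ) ∘ σ) := IsCharacter.comp (IsIrrCharacter.isCharacter ψ.2) σ
  have hE' : (fun e : E => Φ e) = (a ∘ E.subtype) - (b ∘ E.subtype) := by
    funext e
    simp [hab]
  have hr : ∃ n : ℤ, classInner (fun e : E => Φ e) ((ψ : E → ℂ) ∘ σ) = n := by
    obtain ⟨n₁, hn₁⟩ := IsCharacter.classInner_nat (IsCharacter.comp ha E.subtype) hψ'
    obtain ⟨n₂, hn₂⟩ := IsCharacter.classInner_nat (IsCharacter.comp hb E.subtype) hψ'
    refine ⟨n₁ - n₂, ?_⟩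
    rw [hE', classInner_sub_left, hn₁, hn₂]
    push_cast
    rfl
  obtain ⟨n, hn⟩ := hr
  have hord : ∀ e : E, orderOf (e : G) = orderOf e := fun e => Subgroup.orderOf_coe e
  set S' : ℂ := ∑ e : E, (if 2 ∣ orderOf e then 0 else Φ e * conj ((ψ : E → ℂ) e)) with hS'
  have hP : classInner (fun e : E => pFun Φ e) (ψ : E → ℂ) = (Nat.card E : ℂ)⁻¹ * (2 * S') := by
    rw [classInner, hS']
    refine congrArg (fun t => (Nat.card E : ℂ)⁻¹ * t) ?_
    rw [Finset.mul_sum]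
    refine Finset.sum_congr rfl fun e _ => ?_
    by_cases h : 2 ∣ orderOf e
    · simp [pFun, h, hord]
    · simp only [pFun, h, hord, if_false]
      ring
  have hf_reg : ∀ e : E, (if 2 ∣ orderOf e then 0 else Φ e * conj ((ψ : E → ℂ) (σ e))) =
      (if 2 ∣ orderOf e then 0 else Φ e * conj ((ψ : E → ℂ) e)) := by
    intro e
    by_cases h : 2 ∣ orderOf e
    · simp [h]
    · have : σ e = e := hσreg e (by rwa [hord])
      simp [h, this]
  by_cases huE : u ∈ E
  · -- `u ∈ E`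
    let uu : E := ⟨u, huE⟩
    have huu : uu ∈ Subgroup.center E := by
      rw [Subgroup.mem_center_iff]
      intro x
      apply Subtype.ext
      exact Subgroup.mem_center_iff.mp hu (x : G)
    have huu2 : orderOf uu = 2 := by
      rw [← hord]
      exact hu2
    have hσu : σ uu = 1 := by
      have h5 : (τ uu : G) = u := by
        rw [← hα.eq_of_isPPart (h4 uu)]
        have h6 : IsPPart 2 u u := ⟨1, mul_one _, Commute.one_right _, ⟨1, by simpa using hu2⟩, by simp⟩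
        exact hα.eq_of_isPPart h6
      have h6 : τ uu = uu := Subtype.ext h5
      have h7 := h1 uu
      rw [h6] at h7
      exact mul_left_cancel (h7.trans (mul_one uu).symm)
    refine ⟨n, ?_⟩
    rw [hP, ← hn, classInner, sum_eq_two_mul huu huu2
      (fun e : E => Φ e * conj (((ψ : E → ℂ) ∘ σ) e)) ?_ ?_]
    · simp only [Function.comp_apply]
      simp_rw [hf_reg]
      rfl
    · intro e
      simp only [Function.comp_apply, map_mul, hσu, one_mul]
      congr 1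
      exact hΦu e
    · intro e he1 he2
      have : Φ e = 0 := hΦ0 e (by rwa [hord]) (by
        have := hord (uu * e)
        rw [Subgroup.coe_mul] at this
        rw [this]
        exact he2)
      simp [this]
  · -- `u ∉ E`
    refine ⟨2 * n, ?_⟩
    have hz : ∀ e : E, 2 ∣ orderOf e → Φ e = 0 := by
      intro e he
      refine hΦ0 e (by rwa [hord]) ?_
      by_contra hreg
      apply huE
      have huu : (u : G) * u = 1 := by
        rw [← pow_two, ← hu2]
        exact pow_orderOf_eq_one u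
      have hpart : IsPPart 2 (e : G) u := by
        refine ⟨u * e, ?_, ?_, ⟨1, by simpa using hu2⟩, hreg⟩
        · rw [← mul_assoc, huu, one_mul]
        · exact (Commute.refl u).mul_right (Subgroup.mem_center_iff.mp hu (e : G)).symm
      rw [← hα.eq_of_isPPart hpart]
      exact E.pow_mem e.2 α
    have h5 : classInner (fun e : E => Φ e) ((ψ : E → ℂ) ∘ σ) = (Nat.card E : ℂ)⁻¹ * S' := by
      rw [classInner, hS']
      congr 1
      simp_rw [← hf_reg]
      refine Finset.sum_congr rfl fun e _ => ?_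
      by_cases h : 2 ∣ orderOf e
      · simp [h, hz e h]
      · simp [h]
    rw [hn] at h5
    rw [hP]
    push_cast
    rw [h5]
    ring

end P

section Core

variable {G : Type u} [Group G] [Fintype G] {M : Ideal AlgInt}

open scoped Classical in
theorem sum_reg_eq_zero (hM : IsPModular 2 M) {φ χ : IrrCharacter G}
    (h : ¬ SameBlock M (φ : G → ℂ) (χ : G → ℂ)) :
    ∑ g, (if 2 ∣ orderOf g then 0 else (φ : G → ℂ) g * conj ((χ : G → ℂ) g)) = 0 := by
  have h1 := sum_regular_mul_eq_zero (p := 2) hM h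
  rw [finsum_mem_def, finsum_eq_sum_of_fintype] at h1
  refine Eq.trans ?_ h1
  refine Finset.sum_congr rfl fun g _ => ?_
  by_cases hg : 2 ∣ orderOf g
  · rw [if_pos hg, Set.indicator_of_notMem (by simp only [Set.mem_ofPred_eq, not_not]; exact hg)]
  · rw [if_neg hg, Set.indicator_of_mem (by exact hg)]

/-- The sign of a central involution. -/
theorem irr_central_sign (ψ : IrrCharacter G) {u : G} (hu : u ∈ Subgroup.center G) (hu2 : orderOf u = 2) :
    (∀ g, (ψ : G → ℂ) (u * g) = (ψ : G → ℂ) g) ∨ (∀ g, (ψ : G → ℂ) (u * g) = - (ψ : G → ℂ) g) := by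
  have hz : ∀ w, Commute w u := fun w => Subgroup.mem_center_iff.mp hu w
  have h1 := irr_central_mul ψ hz
  have huu : u * u = 1 := by
    rw [← pow_two, ← hu2]
    exact pow_orderOf_eq_one u
  have h0 : (ψ : G → ℂ) 1 ≠ 0 := irr_apply_one_ne_zero ψ
  set w := (ψ : G → ℂ) u / (ψ : G → ℂ) 1 with hw
  have h2 : (ψ : G → ℂ) u = w * (ψ : G → ℂ) 1 := by
    rw [hw]
    field_simp
  have h3 : w * w = 1 := by
    have h4 := h1 u
    rw [huu, h2] at h4
    apply mul_right_cancel₀ h0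
    rw [one_mul]
    linear_combination -h4
  rcases mul_self_eq_one_iff.mp h3 with h4 | h4
  · left
    intro g
    rw [h1, h4, one_mul]
  · right
    intro g
    rw [h1, h4, neg_one_mul]

theorem two_dvd_orderOf_mul {u : G} (hu : u ∈ Subgroup.center G) (hu2 : orderOf u = 2) {g : G}
    (hg : ¬ 2 ∣ orderOf g) : 2 ∣ orderOf (u * g) := by
  have hcomm : ∀ g, Commute u g := fun g => (Subgroup.mem_center_iff.mp hu g).symm
  by_contra h
  have h1 : u = (u * g) * g⁻¹ := by group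
  have h2 : Commute (u * g) g⁻¹ := ((hcomm g).mul_left (Commute.refl g)).inv_right
  have h3 := h2.orderOf_mul_dvd_lcm
  rw [← h1, hu2, orderOf_inv] at h3
  rcases (Nat.Prime.dvd_lcm Nat.prime_two).mp h3 with h4 | h4
  · exact h h4
  · exact hg h4

/-- The data attached to one projective function. -/
theorem index_data (hM : IsPModular 2 M) {u : G} (hu : u ∈ Subgroup.center G) (hu2 : orderOf u = 2)
    (φ ζ : IrrCharacter G) (a : ℤ) (ha : a ^ 2 = 1) (hne : φ ≠ ζ)
    (hφB : φ ∈ principalBlock M G) (hζB : ζ ∈ principalBlock M G)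
    (hφu : ∀ g, (φ : G → ℂ) (u * g) = (φ : G → ℂ) g) (hζu : ∀ g, (ζ : G → ℂ) (u * g) = (ζ : G → ℂ) g)
    (hv : ∀ g, 2 ∣ orderOf g → 2 ∣ orderOf (u * g) → (φ : G → ℂ) g + (a : ℂ) * (ζ : G → ℂ) g = 0) :
    ∃ n : IrrCharacter G → ℤ,
      (∀ χ : IrrCharacter G, classInner (pFun (fun g => (φ : G → ℂ) g + (a : ℂ) * (ζ : G → ℂ) g)) (χ : G → ℂ) = n χ) ∧
      (∀ χ, χ ∉ principalBlock M G → n χ = 0) ∧
      (∀ χ : IrrCharacter G, (∀ g, (χ : G → ℂ) (u * g) = (χ : G → ℂ) g) →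
        (n χ : ℂ) = classInner (φ : G → ℂ) χ + (a : ℂ) * classInner (ζ : G → ℂ) χ) ∧
      ∑ χ, (n χ) ^ 2 = 4 := by
  classical
  haveI := isPrime_of_modular hM
  set Φ : G → ℂ := fun g => (φ : G → ℂ) g + (a : ℂ) * (ζ : G → ℂ) g with hΦ
  have hΦeq : Φ = (φ : G → ℂ) + (a : ℂ) • (ζ : G → ℂ) := by
    funext g
    simp [hΦ]
  have hΦg : IsGeneralizedCharacter G Φ := by
    rw [hΦeq]
    exact IsGeneralizedCharacter.add (IsGeneralizedCharacter.of_character (IsIrrCharacter.isCharacter φ.2))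
      (isGen_intCast_smul (IsGeneralizedCharacter.of_character (IsIrrCharacter.isCharacter ζ.2)) a)
  have hΦu : ∀ g, Φ (u * g) = Φ g := by
    intro g
    simp only [hΦ, hφu, hζu]
  have hgen := pFun_isGeneralized hu hu2 hΦg hΦu hv
  obtain ⟨n, hn, hs⟩ := IsGeneralizedCharacter.exists_int_coeffs hgen
  refine ⟨n, hn, ?_, ?_, ?_⟩
  · intro χ hχ
    have h1 : ¬ SameBlock M (φ : G → ℂ) (χ : G → ℂ) := fun h => hχ (SameBlock.trans' hφB h)
    have h2 : ¬ SameBlock M (ζ : G → ℂ) (χ : G → ℂ) := fun h => hχ (SameBlock.trans' hζB h)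
    have h3 : classInner (pFun Φ) (χ : G → ℂ) = 0 := by
      rw [classInner]
      have h4 : ∀ g, pFun Φ g * conj ((χ : G → ℂ) g) =
          2 * (if 2 ∣ orderOf g then 0 else (φ : G → ℂ) g * conj ((χ : G → ℂ) g)) +
          2 * (a : ℂ) * (if 2 ∣ orderOf g then 0 else (ζ : G → ℂ) g * conj ((χ : G → ℂ) g)) := by
        intro g
        by_cases h : 2 ∣ orderOf g
        · simp [pFun, h]
        · simp only [pFun, h, if_false, hΦ]
          ring
      simp only [h4]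
      rw [Finset.sum_add_distrib, ← Finset.mul_sum, ← Finset.mul_sum, sum_reg_eq_zero hM h1,
        sum_reg_eq_zero hM h2]
      simp
    have h5 := hn χ
    rw [h3] at h5
    exact_mod_cast h5.symm
  · intro χ hχu
    rw [← hn χ, classInner_pFun_of_ker hu hu2 hΦu hv hχu, hΦeq, classInner_add_left, classInner_smul_left]
  · have hself := classInner_pFun_self hu hu2 hΦu hv
    have hΦΦ : classInner Φ Φ = 2 := by
      have ha' : (a : ℂ) * (a : ℂ) = 1 := by
        have : ((a ^ 2 : ℤ) : ℂ) = 1 := by rw [ha]; simp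
        push_cast at this
        linear_combination this
      rw [hΦeq, classInner_add_left, classInner_smul_left, classInner_add_right, classInner_add_right,
        classInner_smul_right, classInner_smul_right, classInner_irr φ.2 φ.2, classInner_irr φ.2 ζ.2,
        classInner_irr ζ.2 φ.2, classInner_irr ζ.2 ζ.2]
      have hne' : (φ : G → ℂ) ≠ (ζ : G → ℂ) := fun h => hne (Subtype.ext h)
      simp only [if_true, if_neg hne', if_neg hne'.symm, map_intCast]
      linear_combination ha'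
    have hexp : classInner (pFun Φ) (pFun Φ) = ∑ χ, ((n χ) ^ 2 : ℂ) := by
      have h1 : classInner (pFun Φ) (pFun Φ) =
          classInner (pFun Φ) (∑ ψ : IrrCharacter G, (n ψ : ℂ) • (ψ : G → ℂ)) := by
        rw [← hs]
      rw [h1, classInner_sum_right]
      refine Finset.sum_congr rfl fun χ _ => ?_
      rw [classInner_smul_right, hn, map_intCast]
      ring
    rw [hΦΦ] at hself
    rw [hself] at hexp
    have h6 : ((∑ χ, (n χ) ^ 2 : ℤ) : ℂ) = ((4 : ℤ) : ℂ) := by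
      push_cast
      rw [← hexp]
      norm_num
    exact Int.cast_injective h6

/-- **The count.** -/
theorem q8_core (hM : IsPModular 2 M) {u : G} (hu : u ∈ Subgroup.center G) (hu2 : orderOf u = 2)
    (ζ₁ ζ₂ ζ₃ ζ₄ : IrrCharacter G) (ε : ℤ) (hε : ε = 1 ∨ ε = -1)
    (h12 : ζ₁ ≠ ζ₂) (h13 : ζ₁ ≠ ζ₃) (h14 : ζ₁ ≠ ζ₄) (h23 : ζ₂ ≠ ζ₃) (h24 : ζ₂ ≠ ζ₄) (h34 : ζ₃ ≠ ζ₄)
    (hB : ∀ χ : IrrCharacter G, (χ ∈ principalBlock M G ∧ ∀ g, (χ : G → ℂ) (u * g) = (χ : G → ℂ) g) ↔
      (χ = ζ₁ ∨ χ = ζ₂ ∨ χ = ζ₃ ∨ χ = ζ₄))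
    (hrel : ∀ y : G, ¬ 2 ∣ orderOf y →
      (ζ₁ : G → ℂ) y + (ζ₂ : G → ℂ) y + (ε : ℂ) * (ζ₃ : G → ℂ) y - (ζ₄ : G → ℂ) y = 0)
    (hv1 : ∀ g, 2 ∣ orderOf g → 2 ∣ orderOf (u * g) → (ζ₁ : G → ℂ) g + ((1 : ℤ) : ℂ) * (ζ₄ : G → ℂ) g = 0)
    (hv2 : ∀ g, 2 ∣ orderOf g → 2 ∣ orderOf (u * g) → (ζ₂ : G → ℂ) g + ((1 : ℤ) : ℂ) * (ζ₄ : G → ℂ) g = 0)
    (hv3 : ∀ g, 2 ∣ orderOf g → 2 ∣ orderOf (u * g) → (ζ₃ : G → ℂ) g + (ε : ℂ) * (ζ₄ : G → ℂ) g = 0)
    (hd1 : Odd (charDegree (ζ₁ : G → ℂ))) (hd2 : Odd (charDegree (ζ₂ : G → ℂ)))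
    (hd3 : Odd (charDegree (ζ₃ : G → ℂ)))
    (heven : ∀ χ ∈ principalBlock M G, (¬ ∀ g, (χ : G → ℂ) (u * g) = (χ : G → ℂ) g) →
      2 ∣ charDegree (χ : G → ℂ)) :
    Nat.card (principalBlock M G) = 7 := by
  classical
  haveI := isPrime_of_modular hM
  have hPB : IsPBlock M (principalBlock M G) := ⟨oneIrr G, rfl⟩
  obtain ⟨hm1, hi1⟩ := (hB ζ₁).mpr (Or.inl rfl)
  obtain ⟨hm2, hi2⟩ := (hB ζ₂).mpr (Or.inr (Or.inl rfl))
  obtain ⟨hm3, hi3⟩ := (hB ζ₃).mpr (Or.inr (Or.inr (Or.inl rfl)))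
  obtain ⟨hm4, hi4⟩ := (hB ζ₄).mpr (Or.inr (Or.inr (Or.inr rfl)))
  have hε2 : ε ^ 2 = 1 := by
    rcases hε with rfl | rfl <;> norm_num
  obtain ⟨n₁, hn₁, hb₁, hk₁, hs₁⟩ := index_data hM hu hu2 ζ₁ ζ₄ 1 (by norm_num) h14 hm1 hm4 hi1 hi4 hv1
  obtain ⟨n₂, hn₂, hb₂, hk₂, hs₂⟩ := index_data hM hu hu2 ζ₂ ζ₄ 1 (by norm_num) h24 hm2 hm4 hi2 hi4 hv2
  obtain ⟨n₃, hn₃, hb₃, hk₃, hs₃⟩ := index_data hM hu hu2 ζ₃ ζ₄ ε hε2 h34 hm3 hm4 hi3 hi4 hv3
  -- values on the four characters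
  have hin : ∀ x y : IrrCharacter G, classInner (x : G → ℂ) (y : G → ℂ) = if x = y then 1 else 0 := by
    intro x y
    rw [classInner_irr x.2 y.2]
    exact if_congr ⟨fun h => Subtype.ext h, fun h => congrArg _ h⟩ rfl rfl
  have v11 : n₁ ζ₁ = 1 := by
    have := hk₁ ζ₁ hi1
    rw [hin, hin, if_pos rfl, if_neg h14.symm] at this
    apply Int.cast_injective (α := ℂ)
    rw [this]
    simp
  have v12 : n₁ ζ₂ = 0 := by
    have := hk₁ ζ₂ hi2
    rw [hin, hin, if_neg h12, if_neg h24.symm] at this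
    apply Int.cast_injective (α := ℂ)
    rw [this]
    simp
  have v13 : n₁ ζ₃ = 0 := by
    have := hk₁ ζ₃ hi3
    rw [hin, hin, if_neg h13, if_neg h34.symm] at this
    apply Int.cast_injective (α := ℂ)
    rw [this]
    simp
  have v14 : n₁ ζ₄ = 1 := by
    have := hk₁ ζ₄ hi4
    rw [hin, hin, if_neg h14, if_pos rfl] at this
    apply Int.cast_injective (α := ℂ)
    rw [this]
    simp
  have v21 : n₂ ζ₁ = 0 := by
    have := hk₂ ζ₁ hi1
    rw [hin, hin, if_neg h12.symm, if_neg h14.symm] at this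
    apply Int.cast_injective (α := ℂ)
    rw [this]
    simp
  have v22 : n₂ ζ₂ = 1 := by
    have := hk₂ ζ₂ hi2
    rw [hin, hin, if_pos rfl, if_neg h24.symm] at this
    apply Int.cast_injective (α := ℂ)
    rw [this]
    simp
  have v23 : n₂ ζ₃ = 0 := by
    have := hk₂ ζ₃ hi3
    rw [hin, hin, if_neg h23, if_neg h34.symm] at this
    apply Int.cast_injective (α := ℂ)
    rw [this]
    simp
  have v24 : n₂ ζ₄ = 1 := by
    have := hk₂ ζ₄ hi4
    rw [hin, hin, if_neg h24, if_pos rfl] at this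
    apply Int.cast_injective (α := ℂ)
    rw [this]
    simp
  have v31 : n₃ ζ₁ = 0 := by
    have := hk₃ ζ₁ hi1
    rw [hin, hin, if_neg h13.symm, if_neg h14.symm] at this
    apply Int.cast_injective (α := ℂ)
    rw [this]
    simp
  have v32 : n₃ ζ₂ = 0 := by
    have := hk₃ ζ₂ hi2
    rw [hin, hin, if_neg h23.symm, if_neg h24.symm] at this
    apply Int.cast_injective (α := ℂ)
    rw [this]
    simp
  have v33 : n₃ ζ₃ = 1 := by
    have := hk₃ ζ₃ hi3
    rw [hin, hin, if_pos rfl, if_neg h34.symm] at this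
    apply Int.cast_injective (α := ℂ)
    rw [this]
    simp
  have v34 : n₃ ζ₄ = ε := by
    have := hk₃ ζ₄ hi4
    rw [hin, hin, if_neg h34, if_pos rfl] at this
    apply Int.cast_injective (α := ℂ)
    rw [this]
    simp
  -- the finsets
  let S : Finset (IrrCharacter G) := Finset.univ.filter (· ∈ principalBlock M G)
  have hSmem : ∀ χ, χ ∈ S ↔ χ ∈ principalBlock M G := by
    intro χ
    simp [S]
  let T : Finset (IrrCharacter G) := {ζ₁, ζ₂, ζ₃, ζ₄}
  have hTmem : ∀ χ, χ ∈ T ↔ (χ = ζ₁ ∨ χ = ζ₂ ∨ χ = ζ₃ ∨ χ = ζ₄) := by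
    intro χ
    simp [T]
  have hTS : T ⊆ S := by
    intro χ hχ
    exact (hSmem χ).mpr ((hB χ).mpr ((hTmem χ).mp hχ)).1
  have hTsum : ∀ f : IrrCharacter G → ℤ, ∑ χ ∈ T, f χ = f ζ₁ + f ζ₂ + f ζ₃ + f ζ₄ := by
    intro f
    simp only [T]
    rw [Finset.sum_insert (by simp [h12, h13, h14]), Finset.sum_insert (by simp [h23, h24]),
      Finset.sum_insert (by simp [h34]), Finset.sum_singleton]
    ring
  have hTcard : T.card = 4 := by
    simp only [T]
    rw [Finset.card_insert_of_notMem (by simp [h12, h13, h14]), Finset.card_insert_of_notMem (by simp [h23, h24]),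
      Finset.card_insert_of_notMem (by simp [h34]), Finset.card_singleton]
  set F := S \ T with hF
  have hSsum : ∀ n : IrrCharacter G → ℤ, (∀ χ, χ ∉ principalBlock M G → n χ = 0) → ∑ χ, (n χ) ^ 2 = 4 →
      ∑ χ ∈ T, (n χ) ^ 2 = 2 → ∑ χ ∈ F, (n χ) ^ 2 = 2 := by
    intro n hn hn4 hn2
    have h1 : ∑ χ ∈ S, (n χ) ^ 2 = ∑ χ, (n χ) ^ 2 := by
      apply Finset.sum_subset (Finset.subset_univ S)
      intro χ _ hχ
      rw [hn χ (fun h => hχ ((hSmem χ).mpr h))]
      simp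
    have h2 := Finset.sum_sdiff (f := fun χ => (n χ) ^ 2) hTS
    rw [h1, hn4, hn2] at h2
    rw [hF]
    linarith
  have hF₁ : ∑ χ ∈ F, (n₁ χ) ^ 2 = 2 := hSsum n₁ hb₁ hs₁ (by
    rw [hTsum, v11, v12, v13, v14]; norm_num)
  have hF₂ : ∑ χ ∈ F, (n₂ χ) ^ 2 = 2 := hSsum n₂ hb₂ hs₂ (by
    rw [hTsum, v21, v22, v23, v24]; norm_num)
  have hF₃ : ∑ χ ∈ F, (n₃ χ) ^ 2 = 2 := hSsum n₃ hb₃ hs₃ (by
    rw [hTsum, v31, v32, v33, v34, hε2]; norm_num)
  -- the identity for the regular character of the block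
  have hfin : ∀ f : IrrCharacter G → ℂ, ∑ᶠ χ ∈ principalBlock M G, f χ = ∑ χ ∈ S, f χ := by
    intro f
    have h1 : principalBlock M G = ((S : Finset (IrrCharacter G)) : Set (IrrCharacter G)) := by
      ext χ
      simp [S]
    conv_lhs => rw [h1]
    exact finsum_mem_coe_finset _ _
  have hsing : ∀ g : G, 2 ∣ orderOf g → ∑ ζ ∈ S, (ζ : G → ℂ) 1 * (ζ : G → ℂ) g = 0 := by
    intro g hg
    have h1 := weak_block_orthogonality (p := 2) hM hPB (x := 1) (y := g⁻¹)
      (by rw [orderOf_one]; norm_num) (by rwa [orderOf_inv])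
    rw [hfin] at h1
    rw [← h1]
    refine Finset.sum_congr rfl fun ζ _ => ?_
    rw [irr_apply_inv, Complex.conj_conj]
  have hrel1 := hrel 1 (by rw [orderOf_one]; norm_num)
  have hR : ∀ g : G, ∑ ζ ∈ S, (ζ : G → ℂ) 1 * (ζ : G → ℂ) g =
      (ζ₁ : G → ℂ) 1 * pFun (fun g => (ζ₁ : G → ℂ) g + ((1 : ℤ) : ℂ) * (ζ₄ : G → ℂ) g) g +
      (ζ₂ : G → ℂ) 1 * pFun (fun g => (ζ₂ : G → ℂ) g + ((1 : ℤ) : ℂ) * (ζ₄ : G → ℂ) g) g +
      (ζ₃ : G → ℂ) 1 * pFun (fun g => (ζ₃ : G → ℂ) g + (ε : ℂ) * (ζ₄ : G → ℂ) g) g := by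
    intro g
    by_cases hg : 2 ∣ orderOf g
    · rw [hsing g hg]
      simp [pFun, hg]
    · have hug := two_dvd_orderOf_mul hu hu2 hg
      have h1 : ∑ ζ ∈ S, (ζ : G → ℂ) 1 * (ζ : G → ℂ) g =
          ∑ ζ ∈ S, (ζ : G → ℂ) 1 * ((ζ : G → ℂ) g + (ζ : G → ℂ) (u * g)) := by
        simp only [mul_add]
        rw [Finset.sum_add_distrib, hsing _ hug, add_zero]
      have h2 : ∑ ζ ∈ T, (ζ : G → ℂ) 1 * ((ζ : G → ℂ) g + (ζ : G → ℂ) (u * g)) =
          ∑ ζ ∈ S, (ζ : G → ℂ) 1 * ((ζ : G → ℂ) g + (ζ : G → ℂ) (u * g)) := by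
        apply Finset.sum_subset hTS
        intro χ hχS hχT
        rcases irr_central_sign χ hu hu2 with h3 | h3
        · exact absurd ((hTmem χ).mpr ((hB χ).mp ⟨(hSmem χ).mp hχS, h3⟩)) hχT
        · rw [h3]
          ring
      rw [h1, ← h2]
      simp only [T]
      rw [Finset.sum_insert (by simp [h12, h13, h14]), Finset.sum_insert (by simp [h23, h24]),
        Finset.sum_insert (by simp [h34]), Finset.sum_singleton, hi1, hi2, hi3, hi4]
      simp only [pFun, hg, if_false]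
      push_cast
      linear_combination (-2 * (ζ₄ : G → ℂ) g) * hrel1
  -- the degree formula
  have hdeg : ∀ χ ∈ S, (charDegree (χ : G → ℂ) : ℤ) =
      (charDegree (ζ₁ : G → ℂ) : ℤ) * n₁ χ + (charDegree (ζ₂ : G → ℂ) : ℤ) * n₂ χ +
        (charDegree (ζ₃ : G → ℂ) : ℤ) * n₃ χ := by
    intro χ hχ
    have h1 : (fun g => ∑ ζ ∈ S, (ζ : G → ℂ) 1 * (ζ : G → ℂ) g) = ∑ ζ ∈ S, ((ζ : G → ℂ) 1) • (ζ : G → ℂ) := by
      funext g
      simp
    have h2 : classInner (fun g => ∑ ζ ∈ S, (ζ : G → ℂ) 1 * (ζ : G → ℂ) g) (χ : G → ℂ) = (χ : G → ℂ) 1 := by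
      rw [h1, classInner_sum_left]
      simp only [classInner_smul_left, hin]
      rw [Finset.sum_eq_single χ]
      · simp
      · intro b _ hb
        simp [hb]
      · intro h3
        exact absurd hχ h3
    have h3 : (fun g => ∑ ζ ∈ S, (ζ : G → ℂ) 1 * (ζ : G → ℂ) g) =
        ((ζ₁ : G → ℂ) 1) • pFun (fun g => (ζ₁ : G → ℂ) g + ((1 : ℤ) : ℂ) * (ζ₄ : G → ℂ) g) +
        ((ζ₂ : G → ℂ) 1) • pFun (fun g => (ζ₂ : G → ℂ) g + ((1 : ℤ) : ℂ) * (ζ₄ : G → ℂ) g) +
        ((ζ₃ : G → ℂ) 1) • pFun (fun g => (ζ₃ : G → ℂ) g + (ε : ℂ) * (ζ₄ : G → ℂ) g) := by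
      funext g
      rw [hR g]
      rfl
    rw [h3, classInner_add_left, classInner_add_left, classInner_smul_left, classInner_smul_left,
      classInner_smul_left, hn₁, hn₂, hn₃, apply_one_eq_charDegree (IsIrrCharacter.isCharacter χ.2),
      apply_one_eq_charDegree (IsIrrCharacter.isCharacter ζ₁.2),
      apply_one_eq_charDegree (IsIrrCharacter.isCharacter ζ₂.2),
      apply_one_eq_charDegree (IsIrrCharacter.isCharacter ζ₃.2)] at h2
    have h4 : (((charDegree (χ : G → ℂ) : ℤ) : ℤ) : ℂ) = (((charDegree (ζ₁ : G → ℂ) : ℤ) * n₁ χ + (charDegree (ζ₂ : G → ℂ) : ℤ) * n₂ χ +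
        (charDegree (ζ₃ : G → ℂ) : ℤ) * n₃ χ : ℤ) : ℂ) := by
      push_cast
      exact h2.symm
    exact Int.cast_injective h4
  -- each character of `F` contributes two
  have hsq : ∀ (n : IrrCharacter G → ℤ), ∑ χ ∈ F, (n χ) ^ 2 = 2 → ∀ χ ∈ F, n χ = -1 ∨ n χ = 0 ∨ n χ = 1 := by
    intro n hn χ hχ
    have h1 : (n χ) ^ 2 ≤ ∑ χ ∈ F, (n χ) ^ 2 :=
      Finset.single_le_sum (f := fun χ => (n χ) ^ 2) (fun i _ => sq_nonneg _) hχ
    rw [hn] at h1
    have h2 : n χ ≤ 1 := by nlinarith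
    have h3 : -1 ≤ n χ := by nlinarith
    omega
  have hTwo : ∀ χ ∈ F, (n₁ χ) ^ 2 + (n₂ χ) ^ 2 + (n₃ χ) ^ 2 = 2 := by
    intro χ hχ
    obtain ⟨hχS, hχT⟩ := Finset.mem_sdiff.mp hχ
    have hne : ¬ ∀ g, (χ : G → ℂ) (u * g) = (χ : G → ℂ) g := fun h =>
      hχT ((hTmem χ).mpr ((hB χ).mp ⟨(hSmem χ).mp hχS, h⟩))
    obtain ⟨m, hm⟩ := heven χ ((hSmem χ).mp hχS) hne
    have hpos := charDegree_pos χ.2
    have hd := hdeg χ hχS
    obtain ⟨k₁, hk₁'⟩ := hd1
    obtain ⟨k₂, hk₂'⟩ := hd2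
    obtain ⟨k₃, hk₃'⟩ := hd3
    rw [hm, hk₁', hk₂', hk₃'] at hd
    rw [hm] at hpos
    push_cast at hd
    rcases hsq n₁ hF₁ χ hχ with h1 | h1 | h1 <;> rcases hsq n₂ hF₂ χ hχ with h2 | h2 | h2 <;>
      rcases hsq n₃ hF₃ χ hχ with h3 | h3 | h3 <;>
      rw [h1, h2, h3] at hd ⊢ <;> norm_num <;> omega
  have hcardF : F.card = 3 := by
    have h1 : ∑ χ ∈ F, ((n₁ χ) ^ 2 + (n₂ χ) ^ 2 + (n₃ χ) ^ 2) = 6 := by
      rw [Finset.sum_add_distrib, Finset.sum_add_distrib, hF₁, hF₂, hF₃]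
      norm_num
    rw [Finset.sum_congr rfl hTwo, Finset.sum_const, nsmul_eq_mul] at h1
    have h2 : (F.card : ℤ) = 3 := by linarith
    exact_mod_cast h2
  have hcardS : S.card = 7 := by
    have h1 := Finset.card_sdiff_add_card_eq_card hTS
    rw [← hF, hcardF, hTcard] at h1
    omega
  have hset : principalBlock M G = ((S : Finset (IrrCharacter G)) : Set (IrrCharacter G)) := by
    ext χ
    simp [S]
  rw [hset, Nat.card_coe_set_eq, Set.ncard_coe_finset, hcardS]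

end Core

end Cfsg.Agent.Lib.Blocks.Q8Core
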