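import Cfsg.Agent.Lib.Blocks.Induced
import Cfsg.Agent.Lib.Blocks.Section
import Cfsg.Agent.Lib.Char.Degree

/-!
# The `p`-regular Gamma pairing of characters

For class functions `α` with integral values, the central function `spec (regInv p α)`
has local coefficients, hence it is constant modulo the local ideal on blocks.
-/

set_option autoImplicit false
set_option linter.unusedSectionVars false

namespace Cfsg.Agent.Lib.Blocks

open Cfsg Cfsg.Agent.Lib.Char
open scoped ComplexConjugate

universe u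

section Ratio

variable {p : ℕ} [hp : Fact p.Prime] {M : Ideal AlgInt}

theorem natRatio_memLocalRing (hM : IsPModular p M) {a b : ℕ} (ha : a ≠ 0) (hb : b ≠ 0)
    (h : b.factorization p ≤ a.factorization p) : MemLocalRing M ((a : ℂ) / (b : ℂ)) := by
  have := isPrime_of_modular hM
  have hb' : ¬ p ∣ (b / p ^ b.factorization p) := Nat.not_dvd_ordCompl hp.out hb
  have h1 : p ^ b.factorization p ∣ a := (hp.out.pow_dvd_iff_le_factorization ha).mpr h
  have hb2 : b = p ^ b.factorization p * (b / p ^ b.factorization p) :=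
    (Nat.mul_div_cancel' (Nat.ordProj_dvd b p)).symm
  obtain ⟨a', ha'⟩ := h1
  generalize b / p ^ b.factorization p = b' at *
  generalize b.factorization p = k at *
  have hpne : ((p : ℂ) ^ k) ≠ 0 := by
    exact_mod_cast pow_ne_zero _ hp.out.ne_zero
  have hbne : (b' : ℂ) ≠ 0 := by
    intro h0
    have h2 : b' = 0 := by exact_mod_cast h0
    rw [h2] at hb'
    exact hb' (dvd_zero _)
  have hval : (a : ℂ) / (b : ℂ) = (a' : ℂ) * (b' : ℂ)⁻¹ := by
    rw [ha', hb2]
    push_cast
    field_simp
  rw [hval]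
  exact MemLocalRing.mul (MemLocalRing.natCast a') (inv_natCast_memLocalRing hM hb')

theorem natRatio_memLocalIdeal (hM : IsPModular p M) {a b : ℕ} (ha : a ≠ 0) (hb : b ≠ 0)
    (h : b.factorization p < a.factorization p) : MemLocalIdeal M ((a : ℂ) / (b : ℂ)) := by
  have := isPrime_of_modular hM
  have hb' : ¬ p ∣ (b / p ^ b.factorization p) := Nat.not_dvd_ordCompl hp.out hb
  have h1 : p ^ (b.factorization p + 1) ∣ a := (hp.out.pow_dvd_iff_le_factorization ha).mpr h
  have hb2 : b = p ^ b.factorization p * (b / p ^ b.factorization p) :=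
    (Nat.mul_div_cancel' (Nat.ordProj_dvd b p)).symm
  obtain ⟨a', ha'⟩ := h1
  generalize b / p ^ b.factorization p = b' at *
  generalize b.factorization p = k at *
  have hpne : ((p : ℂ) ^ k) ≠ 0 := by
    exact_mod_cast pow_ne_zero _ hp.out.ne_zero
  have hbne : (b' : ℂ) ≠ 0 := by
    intro h0
    have h2 : b' = 0 := by exact_mod_cast h0
    rw [h2] at hb'
    exact hb' (dvd_zero _)
  have hval : (a : ℂ) / (b : ℂ) = (p : ℂ) * ((a' : ℂ) * (b' : ℂ)⁻¹) := by
    rw [ha', hb2]
    push_cast
    field_simp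
    ring
  rw [hval]
  exact MemLocalIdeal.mul_right (p_memLocalIdeal hM)
    (MemLocalRing.mul (MemLocalRing.natCast a') (inv_natCast_memLocalRing hM hb'))

end Ratio

section Gamma

variable {G : Type u} [Group G] [Fintype G] (p : ℕ)

/-- Inversion restricted to `p`-regular elements. -/
noncomputable def regInv (α : G → ℂ) : G → ℂ := fun x => if p ∣ orderOf x then 0 else α x⁻¹

/-- The `p`-regular pairing of a class function with an irreducible character. -/
noncomputable def gam (α : G → ℂ) : IrrCharacter G → ℂ := spec (regInv p α)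

theorem regInv_isClassFunction {α : G → ℂ} (hα : IsClassFunction G α) :
    IsClassFunction G (regInv p α) := by
  intro g h
  have h1 : orderOf (h * g * h⁻¹) = orderOf g := by
    have := (MulAut.conj h).toMonoidHom.comp (MonoidHom.id G)
    simpa using orderOf_injective (MulAut.conj h).toMonoidHom (MulAut.conj h).injective g
  simp only [regInv, h1]
  have h2 : (h * g * h⁻¹)⁻¹ = h * g⁻¹ * h⁻¹ := by group
  rw [h2, hα]

theorem gam_eq (α : G → ℂ) (β : IrrCharacter G) :
    gam p α β = (∑ x, if p ∣ orderOf x then 0 else α x * conj ((β : G → ℂ) x)) / (β : G → ℂ) 1 := by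
  rw [gam, spec]
  congr 1
  rw [← Equiv.sum_comp (Equiv.inv G)]
  refine Finset.sum_congr rfl fun x _ => ?_
  simp only [regInv, Equiv.inv_apply, inv_inv, orderOf_inv, irr_apply_inv]
  split_ifs <;> simp

variable {p} {M : Ideal AlgInt} [hp : Fact p.Prime]

theorem gam_mem_zS [M.IsPrime] {α : G → ℂ} (hα : IsClassFunction G α)
    (hi : ∀ g, IsIntegral ℤ (α g)) : gam p α ∈ zS M G := by
  rw [mem_zS, gam]
  intro g
  rw [coef_spec _ (regInv_isClassFunction p hα)]
  simp only [regInv]
  split_ifs
  · exact memLocalRing_zero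
  · exact memLocalRing_of_isIntegral (hi _)

theorem gam_memLocalRing [M.IsPrime] {α : G → ℂ} (hα : IsClassFunction G α)
    (hi : ∀ g, IsIntegral ℤ (α g)) (β : IrrCharacter G) : MemLocalRing M (gam p α β) :=
  zS_apply_mem (gam_mem_zS hα hi) β

theorem gam_congr [M.IsPrime] {α : G → ℂ} (hα : IsClassFunction G α)
    (hi : ∀ g, IsIntegral ℤ (α g)) {β β' : IrrCharacter G}
    (h : SameBlock M (β : G → ℂ) (β' : G → ℂ)) :
    MemLocalIdeal M (gam p α β - gam p α β') :=
  sameBlock_congr h (gam_mem_zS hα hi)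

theorem gam_eq_zero (hM : IsPModular p M) {α β : IrrCharacter G}
    (h : ¬ SameBlock M (α : G → ℂ) (β : G → ℂ)) : gam p (α : G → ℂ) β = 0 := by
  have h1 := sum_regular_mul_eq_zero (p := p) hM h
  rw [finsum_mem_def, finsum_eq_sum_of_fintype] at h1
  rw [gam_eq, div_eq_zero_iff]
  left
  refine Eq.trans ?_ h1
  refine Finset.sum_congr rfl fun g _ => ?_
  by_cases hg : p ∣ orderOf g
  · rw [if_pos hg, Set.indicator_of_notMem (by simp only [Set.mem_ofPred_eq, not_not]; exact hg)]
  · rw [if_neg hg, Set.indicator_of_mem (by exact hg)]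

theorem gam_symm (α β : IrrCharacter G) :
    (β : G → ℂ) 1 * gam p (α : G → ℂ) β = (α : G → ℂ) 1 * gam p (β : G → ℂ) α := by
  have h1 := irr_apply_one_ne_zero α
  have h2 := irr_apply_one_ne_zero β
  rw [gam_eq, gam_eq, mul_div_cancel₀ _ h2, mul_div_cancel₀ _ h1]
  rw [← Equiv.sum_comp (Equiv.inv G)]
  refine Finset.sum_congr rfl fun x _ => ?_
  simp only [Equiv.inv_apply, orderOf_inv, irr_apply_inv, Complex.conj_conj]
  split_ifs
  · rfl
  · exact mul_comm _ _

theorem spec_congr_fun {a b : G → ℂ} (h : ∀ x, a x = b x) : spec a = spec b := by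
  have : a = b := funext h
  rw [this]

theorem gam_sum_nat (n : IrrCharacter G → ℕ) (χ : IrrCharacter G) :
    gam p (∑ ψ : IrrCharacter G, n ψ • (ψ : G → ℂ)) χ =
      ∑ ψ : IrrCharacter G, (n ψ : ℂ) * gam p (ψ : G → ℂ) χ := by
  have h1 : regInv p (∑ ψ : IrrCharacter G, n ψ • (ψ : G → ℂ)) =
      ∑ ψ : IrrCharacter G, (n ψ : ℂ) • regInv p (ψ : G → ℂ) := by
    funext x
    simp only [regInv, Finset.sum_apply, Pi.smul_apply, nsmul_eq_mul, smul_eq_mul]
    split_ifs
    · simp
    · rfl
  rw [gam, h1, spec_sum]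
  simp only [Finset.sum_apply, spec_smul, Pi.smul_apply, smul_eq_mul]
  rfl

/-- The permutation character of a Sylow subgroup gives the fundamental identity. -/
theorem exists_sum_gam_eq :
    ∃ (n : IrrCharacter G → ℕ) (m : ℕ), ¬ p ∣ m ∧ ∀ χ : IrrCharacter G,
      ∑ ψ : IrrCharacter G, (n ψ : ℂ) * gam p (ψ : G → ℂ) χ = (m : ℂ) := by
  classical
  obtain ⟨S⟩ : Nonempty (Sylow p G) := inferInstance
  letI : Fintype (S : Subgroup G) := Fintype.ofFinite _
  have hπ : IsCharacter G (indFun (S : Subgroup G) (fun _ => (1 : ℂ))) :=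
    isCharacter_indFun _ (IsIrrCharacter.isCharacter isIrrCharacter_one)
  obtain ⟨n, -, hn⟩ := IsCharacter.exists_eq_sum hπ
  refine ⟨n, (S : Subgroup G).index, S.not_dvd_index, fun χ => ?_⟩
  rw [← gam_sum_nat, ← hn, gam, spec]
  have h0 : (χ : G → ℂ) 1 ≠ 0 := irr_apply_one_ne_zero χ
  rw [Finset.sum_eq_single 1]
  · have h1 : ¬ p ∣ orderOf (1 : G) := by
      rw [orderOf_one]
      exact hp.out.one_lt.ne' ∘ Nat.dvd_one.mp
    simp only [regInv, if_neg h1, inv_one, indFun_one, mul_one]
    field_simp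
  · intro x _ hx
    simp only [regInv]
    split_ifs with hreg
    · simp
    · have hz : indFun (S : Subgroup G) (fun _ => (1 : ℂ)) x⁻¹ = 0 := by
        rw [indFun_apply, Finset.sum_eq_zero, mul_zero]
        intro t _
        apply extendByZero_of_notMem
        intro hmem
        have hpg : IsPGroup p (S : Subgroup G) := S.isPGroup'
        obtain ⟨k, hk⟩ := hpg ⟨_, hmem⟩
        have h2 : (t⁻¹ * x⁻¹ * t) ^ p ^ k = 1 := by
          simpa using congrArg Subtype.val hk
        have h3 : x⁻¹ ^ p ^ k = 1 := by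
          have h4 : t⁻¹ * x⁻¹ ^ p ^ k * t = 1 := by
            have h5 : (t⁻¹ * x⁻¹ * t) ^ p ^ k = t⁻¹ * x⁻¹ ^ p ^ k * t := by
              have := conj_pow (a := t⁻¹) (b := x⁻¹) (i := p ^ k)
              simpa using this
            rw [← h5, h2]
          have h6 : x⁻¹ ^ p ^ k = t * 1 * t⁻¹ := by
            rw [← h4]
            group
          simpa using h6
        have h7 : orderOf x⁻¹ ∣ p ^ k := orderOf_dvd_of_pow_eq_one h3
        rw [orderOf_inv] at h7
        obtain ⟨j, -, hj⟩ := (Nat.dvd_prime_pow hp.out).mp h7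
        rcases Nat.eq_zero_or_pos j with rfl | hjp
        · rw [pow_zero, orderOf_eq_one_iff] at hj
          exact hx hj
        · apply hreg
          rw [hj]
          exact dvd_pow_self _ hjp.ne'
      rw [hz, zero_mul]
  · intro h
    exact absurd (Finset.mem_univ _) h

section Local

variable [M.IsPrime]

theorem irr_class_int (ψ : IrrCharacter G) : IsClassFunction G (ψ : G → ℂ) := irr_isClassFunction ψ

/-- Every member of a block pairs nontrivially with some member of that block. -/
theorem exists_gam_not_mem (hM : IsPModular p M) {B : Set (IrrCharacter G)} (hB : IsPBlock M B)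
    {χ : IrrCharacter G} (hχ : χ ∈ B) :
    ∃ ψ ∈ B, ¬ MemLocalIdeal M (gam p (ψ : G → ℂ) χ) := by
  by_contra hcon
  push Not at hcon
  obtain ⟨n, m, hm, hsum⟩ := exists_sum_gam_eq (G := G) (p := p)
  apply natCast_not_memLocalIdeal hM hm
  rw [← hsum χ]
  refine MemLocalIdeal.sum _ fun ψ _ => ?_
  by_cases hψ : ψ ∈ B
  · exact MemLocalIdeal.mul_left (MemLocalRing.natCast _) (hcon ψ hψ)
  · have h1 : ¬ SameBlock M (ψ : G → ℂ) (χ : G → ℂ) := by
      intro h2
      apply hψ
      obtain ⟨θ, rfl⟩ := hB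
      exact SameBlock.trans' hχ (SameBlock.symm' h2)
    rw [gam_eq_zero hM h1, mul_zero]
    exact memLocalIdeal_zero

theorem irr_one_eq_degree (χ : IrrCharacter G) :
    (χ : G → ℂ) 1 = (charDegree (χ : G → ℂ) : ℂ) := apply_one_eq_charDegree (irr_isCharacter χ)

/-- Height zero characters pair nontrivially with themselves. -/
theorem gam_self_not_mem (hM : IsPModular p M) {B : Set (IrrCharacter G)} (hB : IsPBlock M B)
    {χ : IrrCharacter G} (hχ : χ ∈ B) (h0 : blockHeight p B (χ : G → ℂ) = 0) :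
    ¬ MemLocalIdeal M (gam p (χ : G → ℂ) χ) := by
  obtain ⟨ψ, hψ, hne⟩ := exists_gam_not_mem hM hB hχ
  have hle : (charDegree (χ : G → ℂ)).factorization p ≤ (charDegree (ψ : G → ℂ)).factorization p := by
    have h1 : (charDegree (χ : G → ℂ)).factorization p ≤
        sInf ((fun ψ : IrrCharacter G => (charDegree (ψ : G → ℂ)).factorization p) '' B) := by
      rw [blockHeight] at h0
      omega
    exact h1.trans (Nat.sInf_le ⟨ψ, hψ, rfl⟩)
  have hχ1 := irr_apply_one_ne_zero χ
  have hratio : MemLocalRing M ((ψ : G → ℂ) 1 / (χ : G → ℂ) 1) := by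
    rw [irr_one_eq_degree, irr_one_eq_degree]
    exact natRatio_memLocalRing hM (charDegree_pos ψ.2).ne' (charDegree_pos χ.2).ne' hle
  have hsymm := gam_symm (p := p) ψ χ
  have heq : gam p (ψ : G → ℂ) χ = (ψ : G → ℂ) 1 / (χ : G → ℂ) 1 * gam p (χ : G → ℂ) ψ := by
    field_simp
    linear_combination hsymm
  intro hself
  apply hne
  rw [heq]
  refine MemLocalIdeal.mul_left hratio ?_
  have hc := gam_congr (M := M) (p := p) (α := (χ : G → ℂ)) (irr_isClassFunction χ) (irr_isIntegral χ)
    (sameBlock_of_mem hB hψ hχ)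
  have h2 := MemLocalIdeal.add hc hself
  simpa using h2

/-- Characters of positive height pair trivially with themselves. -/
theorem gam_self_mem (hM : IsPModular p M) {B : Set (IrrCharacter G)} (hB : IsPBlock M B)
    {χ : IrrCharacter G} (hχ : χ ∈ B) (h0 : blockHeight p B (χ : G → ℂ) ≠ 0) :
    MemLocalIdeal M (gam p (χ : G → ℂ) χ) := by
  have hne : ((fun ψ : IrrCharacter G => (charDegree (ψ : G → ℂ)).factorization p) '' B).Nonempty :=
    ⟨_, χ, hχ, rfl⟩
  obtain ⟨ψ, hψ, hmin⟩ := Nat.sInf_mem hne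
  have hlt : (charDegree (ψ : G → ℂ)).factorization p < (charDegree (χ : G → ℂ)).factorization p := by
    rw [blockHeight] at h0
    have hmin' : (charDegree (ψ : G → ℂ)).factorization p =
        sInf ((fun ψ : IrrCharacter G => (charDegree (ψ : G → ℂ)).factorization p) '' B) := hmin
    omega
  have hψ1 := irr_apply_one_ne_zero ψ
  have hratio : MemLocalIdeal M ((χ : G → ℂ) 1 / (ψ : G → ℂ) 1) := by
    rw [irr_one_eq_degree, irr_one_eq_degree]
    exact natRatio_memLocalIdeal hM (charDegree_pos χ.2).ne' (charDegree_pos ψ.2).ne' hlt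
  have hsymm := gam_symm (p := p) χ ψ
  have heq : gam p (χ : G → ℂ) ψ = (χ : G → ℂ) 1 / (ψ : G → ℂ) 1 * gam p (ψ : G → ℂ) χ := by
    field_simp
    linear_combination hsymm
  have h1 : MemLocalIdeal M (gam p (χ : G → ℂ) ψ) := by
    rw [heq]
    exact MemLocalIdeal.mul_right hratio
      (gam_memLocalRing (irr_isClassFunction ψ) (irr_isIntegral ψ) χ)
  have hc := gam_congr (M := M) (p := p) (α := (χ : G → ℂ)) (irr_isClassFunction χ) (irr_isIntegral χ)
    (sameBlock_of_mem hB hχ hψ)
  have h2 := MemLocalIdeal.add hc h1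
  simpa using h2

end Local

section Sub

variable {H : Subgroup G} [Fintype H]

theorem regInv_restrict (α : G → ℂ) (h : H) :
    regInv p (fun h : H => α h) h = regInv p α (h : G) := by
  simp only [regInv, Subgroup.orderOf_coe, Subgroup.coe_inv]

theorem class_decomp {a : G → ℂ} (ha : IsClassFunction G a) (x : G) :
    a x = ∑ K : ConjClasses G, a (clsRep K) * cls (clsRep K) x := by
  classical
  rw [Finset.sum_eq_single (ConjClasses.mk x)]
  · have h1 : IsConj (clsRep (ConjClasses.mk x)) x :=
      (mk_eq_iff_isConj_clsRep (ConjClasses.mk x) x).mp rfl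
    simp only [cls, if_pos h1, mul_one]
    exact (IsClassFunction.congr_isConj ha h1).symm
  · intro K _ hK
    have h1 : ¬ IsConj (clsRep K) x := fun h => hK ((mk_eq_iff_isConj_clsRep K x).mpr h).symm
    simp only [cls, if_neg h1, mul_zero]
  · intro h
    exact absurd (Finset.mem_univ _) h

theorem gam_restrict_eq (α : G → ℂ) (hα : IsClassFunction G α) (ξ : IrrCharacter H) :
    gam p (fun h : H => α h) ξ =
      ∑ K : ConjClasses G, regInv p α (clsRep K) * inducedCentralChar H (ξ : H → ℂ) (clsRep K) := by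
  have ha := regInv_isClassFunction p hα
  rw [gam, spec]
  simp only [regInv_restrict]
  have h1 : ∀ h : H, regInv p α (h : G) * (ξ : H → ℂ) h =
      ∑ K : ConjClasses G, regInv p α (clsRep K) * (cls (clsRep K) h * (ξ : H → ℂ) h) := by
    intro h
    rw [class_decomp ha (h : G), Finset.sum_mul]
    exact Finset.sum_congr rfl fun K _ => by ring
  rw [Finset.sum_congr rfl (fun h _ => h1 h), Finset.sum_comm, Finset.sum_div]
  refine Finset.sum_congr rfl fun K _ => ?_
  rw [← Finset.mul_sum, mul_div_assoc, inducedCentralChar_eq_sum]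

/-- Induction of blocks is compatible with the `p`-regular pairing. -/
theorem gam_sub_congr [M.IsPrime] {α : G → ℂ} (hα : IsClassFunction G α)
    (hi : ∀ g, IsIntegral ℤ (α g)) (ξ : IrrCharacter H) (β : IrrCharacter G)
    (hind : ∀ g, MemLocalIdeal M (inducedCentralChar H (ξ : H → ℂ) g - centralChar (β : G → ℂ) g)) :
    MemLocalIdeal M (gam p (fun h : H => α h) ξ - gam p α β) := by
  have ha := regInv_isClassFunction p hα
  rw [gam_restrict_eq α hα ξ, gam, spec_eq_sum_classes _ ha, ← Finset.sum_sub_distrib]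
  refine MemLocalIdeal.sum _ fun K _ => ?_
  rw [← mul_sub]
  refine MemLocalIdeal.mul_left ?_ (hind _)
  simp only [regInv]
  split_ifs
  · exact memLocalRing_zero
  · exact memLocalRing_of_isIntegral (hi _)

/-- Blau's theorem: a height zero character in an induced block has a height zero constituent
with multiplicity prime to `p` in its restriction. -/
theorem exists_height_zero_constituent (hM : IsPModular p M) {b : Set (IrrCharacter H)}
    {B : Set (IrrCharacter G)} (hind : IsInducedBlock M H b B) {χ : IrrCharacter G} (hχ : χ ∈ B)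
    (h0 : blockHeight p B (χ : G → ℂ) = 0) :
    ∃ ξ ∈ b, blockHeight p b (ξ : H → ℂ) = 0 ∧ ∃ n : ℕ,
      classInner (fun h : H => (χ : G → ℂ) h) (ξ : H → ℂ) = (n : ℂ) ∧ ¬ p ∣ n := by
  classical
  have := isPrime_of_modular hM
  obtain ⟨ξ₀, hξ₀⟩ := IsPBlock.nonempty hind.1
  have hkey := gam_sub_congr (p := p) (α := (χ : G → ℂ)) (irr_isClassFunction χ) (irr_isIntegral χ) ξ₀ χ
    (hind.2.2 ξ₀ hξ₀ χ hχ)
  have hself := gam_self_not_mem hM hind.2.1 hχ h0
  have hne : ¬ MemLocalIdeal M (gam p (fun h : H => (χ : G → ℂ) h) ξ₀) := by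
    intro h1
    apply hself
    have h2 := MemLocalIdeal.sub h1 hkey
    simpa using h2
  have hchar : IsCharacter H (fun h : H => (χ : G → ℂ) h) :=
    IsCharacter.comp (irr_isCharacter χ) H.subtype
  obtain ⟨a, ha, hsum⟩ := IsCharacter.exists_eq_sum hchar
  rw [hsum, gam_sum_nat] at hne
  by_contra hcon
  push Not at hcon
  apply hne
  refine MemLocalIdeal.sum _ fun ξ _ => ?_
  by_cases hg : MemLocalIdeal M (gam p (ξ : H → ℂ) ξ₀)
  · exact MemLocalIdeal.mul_left (MemLocalRing.natCast _) hg
  · have hsb : SameBlock M (ξ : H → ℂ) (ξ₀ : H → ℂ) := by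
      by_contra hsb
      apply hg
      rw [gam_eq_zero hM hsb]
      exact memLocalIdeal_zero
    have hξ : ξ ∈ b := by
      obtain ⟨θ, rfl⟩ := hind.1
      exact SameBlock.trans' hξ₀ (SameBlock.symm' hsb)
    have hh : blockHeight p b (ξ : H → ℂ) = 0 := by
      by_contra hh
      apply hg
      have h1 := gam_self_mem hM hind.1 hξ hh
      have h2 := gam_congr (M := M) (p := p) (α := (ξ : H → ℂ)) (irr_isClassFunction ξ) (irr_isIntegral ξ) hsb
      have h3 := MemLocalIdeal.sub h1 h2
      simpa using h3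
    have hd : p ∣ a ξ := hcon ξ hξ hh (a ξ) (ha ξ)
    exact MemLocalIdeal.mul_right ((natCast_memLocalIdeal_iff hM _).mpr hd)
      (gam_memLocalRing (irr_isClassFunction ξ) (irr_isIntegral ξ) ξ₀)

end Sub

end Gamma

end Cfsg.Agent.Lib.Blocks
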