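import Cfsg.Agent.Lib.Blocks.Extended
import Cfsg.Agent.Lib.Blocks.NormalCentral
import Cfsg.Agent.Lib.Char.Ito
import Cfsg.Agent.Lib.Char.IndNormal
import Cfsg.Agent.Lib.Char.Linear

/-!
# Reynolds' theorem: blocks with a normal defect group
-/

set_option autoImplicit false
set_option linter.unusedSectionVars false

namespace Cfsg.Agent.Lib.Blocks

open Cfsg Cfsg.Agent.Lib.Char
open scoped ComplexConjugate

universe u

section Squares

variable {G : Type u} [Group G] [Fintype G] (N : Subgroup G) [hN : N.Normal] [Fintype N]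

/-- The sum of squares of the multiplicities of `θ` in the irreducible characters of `G`. -/
theorem exists_sum_sq_multiplicity (θ : IrrCharacter N) :
    ∃ e : IrrCharacter G → ℕ,
      (∀ χ : IrrCharacter G, classInner (fun n : N => (χ : G → ℂ) n) (θ : N → ℂ) = e χ) ∧
      Nat.card N * ∑ χ, e χ ^ 2 = Nat.card (inertia N (θ : N → ℂ)) := by
  classical
  have hθc := IsIrrCharacter.isCharacter θ.2
  have hΦ := isCharacter_indFun N hθc
  choose m hm using fun ψ : IrrCharacter G => IsCharacter.classInner_irr_eq_nat hΦ ψ.2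
  have hres : ∀ χ : IrrCharacter G, classInner (fun n : N => (χ : G → ℂ) n) (θ : N → ℂ) = m χ := by
    intro χ
    have h1 := classInner_indFun_left N (θ : N → ℂ) (χ : G → ℂ) (IsCharacter.isClassFunction (IsIrrCharacter.isCharacter χ.2))
    rw [hm] at h1
    rw [classInner_conj_symm, ← h1, Complex.conj_natCast]
  refine ⟨m, hres, ?_⟩
  have h2 := card_mul_classInner_indFun N θ.2
  have hcl := isClassFunction_indFun N (θ : N → ℂ)
  rw [classInner_eq_sum_coeffs _ _ hcl hcl] at h2
  simp only [hm, Complex.conj_natCast] at h2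
  have h3 : ((Nat.card N * ∑ χ, m χ ^ 2 : ℕ) : ℂ) = (Nat.card (inertia N (θ : N → ℂ)) : ℕ) := by
    rw [← h2]
    push_cast
    congr 1
    refine Finset.sum_congr rfl fun χ _ => ?_
    ring
  exact_mod_cast h3

/-- If the multiplicities of `θ` are all divisible by the `p`-part of `|T : N|`, then `|T : N|` is
prime to `p`. -/
theorem inertia_val_eq_of_multiplicities {p : ℕ} (hp : p.Prime) (θ : IrrCharacter N)
    (h : ∀ (χ : IrrCharacter G) (e : ℕ), classInner (fun n : N => (χ : G → ℂ) n) (θ : N → ℂ) = e → e ≠ 0 →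
      (Nat.card (inertia N (θ : N → ℂ))).factorization p ≤ (Nat.card N).factorization p + e.factorization p) :
    (Nat.card (inertia N (θ : N → ℂ))).factorization p = (Nat.card N).factorization p := by
  classical
  obtain ⟨e, he, hsum⟩ := exists_sum_sq_multiplicity N θ
  have hTpos : Nat.card (inertia N (θ : N → ℂ)) ≠ 0 := Nat.card_pos.ne'
  have hNpos : Nat.card N ≠ 0 := Nat.card_pos.ne'
  have hS0 : ∑ χ, e χ ^ 2 ≠ 0 := by
    intro h0
    rw [h0, mul_zero] at hsum
    exact hTpos hsum.symm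
  have hval : (Nat.card (inertia N (θ : N → ℂ))).factorization p =
      (Nat.card N).factorization p + (∑ χ, e χ ^ 2).factorization p := by
    rw [← hsum, Nat.factorization_mul hNpos hS0, Finsupp.add_apply]
  set τ := (∑ χ, e χ ^ 2).factorization p with hτ
  have hdvd : p ^ τ ∣ ∑ χ, e χ ^ 2 := Nat.ordProj_dvd _ _
  have hdvd2 : p ^ (τ + τ) ∣ ∑ χ, e χ ^ 2 := by
    apply Finset.dvd_sum
    intro χ _
    by_cases he0 : e χ = 0
    · rw [he0]
      simp
    · have h1 := h χ (e χ) (he χ) he0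
      have h2 : τ ≤ (e χ).factorization p := by omega
      have h3 : p ^ τ ∣ e χ := (hp.pow_dvd_iff_le_factorization he0).mpr h2
      rw [pow_add, sq]
      exact Nat.mul_dvd_mul h3 h3
  have h4 : τ + τ ≤ τ := (hp.pow_dvd_iff_le_factorization hS0).mp hdvd2
  omega

end Squares

section Main

variable {G : Type u} [Group G] [Fintype G] {M : Ideal AlgInt} {p : ℕ} [hp : Fact p.Prime]
variable {P : Subgroup G} [hPn : P.Normal]

local notation "𝐋" => P ⊔ Subgroup.centralizer (P : Set G)

/-- The normal subgroup `P C(P)`. -/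
instance normal_sup_centralizer : (𝐋).Normal := by
  haveI : (Subgroup.centralizer (P : Set G)).Normal := Subgroup.normal_centralizer
  infer_instance

theorem degree_val_of_kernel' (hM : IsPModular p M) {B : Set (IrrCharacter G)} (hD : IsDefectGroup p M B P)
    {θ : IrrCharacter G} (hθ : θ ∈ B) (hker : P ≤ charKer (θ : G → ℂ)) :
    (charDegree (θ : G → ℂ)).factorization p + (Nat.card P).factorization p =
      (Nat.card G).factorization p := by
  classical
  letI : Fintype P := Fintype.ofFinite _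
  have h1 := degree_val_of_kernel hM hD hθ hker
  have h2 := factorization_index_add_card (p := p) P
  omega

/-- The characters of `N ⊵ P` above a character with `P` in its kernel have `P` in their kernel. -/
theorem le_charKer_of_constituent {N : Subgroup G} [N.Normal] [Fintype N] (hPN : P ≤ N)
    {χ : IrrCharacter G} {θ : IrrCharacter N}
    (hker : P.subgroupOf N ≤ charKer (θ : N → ℂ))
    (h : classInner (fun n : N => (χ : G → ℂ) n) (θ : N → ℂ) ≠ 0) :
    P ≤ charKer (χ : G → ℂ) := by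
  classical
  intro x hx
  rw [mem_charKer (irr_isCharacter χ)]
  have h1 := clifford_sum N χ.2 θ.2 h ⟨x, hPN hx⟩
  have h2 := clifford_sum N χ.2 θ.2 h 1
  have h3 : ∀ g : G, Cfsg.Agent.Lib.Char.conjFun N g (θ : N → ℂ) ⟨x, hPN hx⟩ =
      Cfsg.Agent.Lib.Char.conjFun N g (θ : N → ℂ) 1 := by
    intro g
    simp only [conjFun_apply]
    have hmem : g⁻¹ * x * g ∈ N := by
      simpa using (inferInstance : N.Normal).conj_mem x (hPN hx) g⁻¹
    have h4 : (⟨g⁻¹ * x * g, hmem⟩ : N) ∈ P.subgroupOf N := by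
      apply Subgroup.mem_subgroupOf.mpr
      simpa using hPn.conj_mem x hx g⁻¹
    have h5 := (mem_charKer (irr_isCharacter θ)).mp (hker h4)
    rw [h5]
    exact congrArg _ (Subtype.ext (by simp))
  simp only [h3] at h1
  have h6 : (Nat.card (inertia N (θ : N → ℂ)) : ℂ) ≠ 0 := by exact_mod_cast Nat.card_pos.ne'
  have h7 := h1.trans h2.symm
  exact mul_left_cancel₀ h6 h7

/-- The conjugates of a character with `P` in the kernel have `P` in their kernel. -/
theorem le_charKer_conjIrr {N : Subgroup G} [N.Normal] [Fintype N] (hPN : P ≤ N)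
    {θ : IrrCharacter N} (hker : P.subgroupOf N ≤ charKer (θ : N → ℂ)) (g : G) :
    P.subgroupOf N ≤ charKer ((conjIrr N g θ : IrrCharacter N) : N → ℂ) := by
  intro x hx
  rw [mem_charKer (irr_isCharacter _)]
  simp only [conjIrr_coe, conjFun_apply]
  have hmem : g⁻¹ * (x : G) * g ∈ N := by
    simpa using (inferInstance : N.Normal).conj_mem (x : G) x.2 g⁻¹
  have h4 : (⟨g⁻¹ * x * g, hmem⟩ : N) ∈ P.subgroupOf N := by
    apply Subgroup.mem_subgroupOf.mpr
    simpa using hPn.conj_mem x (Subgroup.mem_subgroupOf.mp hx) g⁻¹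
  have h5 := (mem_charKer (irr_isCharacter θ)).mp (hker h4)
  rw [h5]
  exact congrArg _ (Subtype.ext (by simp))

/-- Abelian normal defect groups give height zero. -/
theorem reynolds_forward (hM : IsPModular p M) {B : Set (IrrCharacter G)} (hB : IsPBlock M B)
    (hD : IsDefectGroup p M B P) (hab : ∀ a ∈ P, ∀ c ∈ P, a * c = c * a) :
    ∀ χ ∈ B, blockHeight p B (χ : G → ℂ) = 0 := by
  classical
  intro χ hχ
  rw [blockHeight]
  have hne : ((fun ψ : IrrCharacter G => (charDegree (ψ : G → ℂ)).factorization p) '' B).Nonempty :=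
    ⟨_, χ, hχ, rfl⟩
  obtain ⟨ψ, hψ, hψe⟩ := Nat.sInf_mem hne
  rw [← hψe]
  show (charDegree (χ : G → ℂ)).factorization p - (charDegree (ψ : G → ℂ)).factorization p = 0
  have h1 := val_degree_ge hM hD hψ
  have h2 : charDegree (χ : G → ℂ) ∣ P.index := charDegree_dvd_index_of_abelian_normal χ.2 P hab
  have h3 := (Nat.factorization_le_iff_dvd (charDegree_pos χ.2).ne' Subgroup.index_ne_zero_of_finite).mpr h2 p
  have h4 := factorization_index_add_card (p := p) P
  omega

/-- Height zero gives abelian normal defect groups. -/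
theorem reynolds_backward (hM : IsPModular p M) {B : Set (IrrCharacter G)} (hB : IsPBlock M B)
    (hD : IsDefectGroup p M B P) (hh : ∀ χ ∈ B, blockHeight p B (χ : G → ℂ) = 0) :
    ∀ a ∈ P, ∀ c ∈ P, a * c = c * a := by
  classical
  have := isPrime_of_modular hM
  have hpp : p.Prime := hp.out
  have hP := IsDefectGroup.isPGroup hD
  letI : Fintype P := Fintype.ofFinite _
  letI : Fintype (𝐋 : Subgroup G) := Fintype.ofFinite _
  -- degrees in `B`
  obtain ⟨y, hy, hS⟩ := isDefectGroup_iff.mp hD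
  obtain ⟨θ₀, hθ₀, hθ₀ker⟩ := exists_kernel_char_of_normal hM hB hP hy.2.1 hS.le
  have hval : ∀ χ ∈ B, (charDegree (χ : G → ℂ)).factorization p + (Nat.card P).factorization p =
      (Nat.card G).factorization p := by
    intro χ hχ
    have h1 := val_degree_ge hM hD hχ
    have h2 := degree_val_of_kernel' hM hD hθ₀ hθ₀ker
    have h3 := hh χ hχ
    rw [blockHeight] at h3
    have h4 : sInf ((fun ψ : IrrCharacter G => (charDegree (ψ : G → ℂ)).factorization p) '' B) ≤
        (charDegree (θ₀ : G → ℂ)).factorization p := Nat.sInf_le ⟨θ₀, hθ₀, rfl⟩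
    omega
  -- the block of `L`
  obtain ⟨b, hbD, hind⟩ := extended_first_main_i hM hB hD
  have hPL : P ≤ 𝐋 := le_sup_left
  have hCL : Subgroup.centralizer (P : Set G) ≤ 𝐋 := le_sup_right
  have hP' : IsPGroup p (P.subgroupOf (𝐋)) := isPGroup_subgroupOf hP _
  haveI hPn' : (P.subgroupOf (𝐋)).Normal := Subgroup.normal_subgroupOf
  have hG' : P.subgroupOf (𝐋) ⊔ Subgroup.centralizer ((P.subgroupOf (𝐋) : Subgroup (𝐋 : Subgroup G)) : Set (𝐋 : Subgroup G)) = ⊤ := by
    rw [eq_top_iff]
    rintro ⟨l, hl⟩ -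
    obtain ⟨d, hd, c, hc, rfl⟩ := Subgroup.mem_sup_of_normal_left.mp hl
    have h1 : (⟨d, hPL hd⟩ : (𝐋 : Subgroup G)) ∈ P.subgroupOf (𝐋) := Subgroup.mem_subgroupOf.mpr hd
    have h2 : (⟨c, hCL hc⟩ : (𝐋 : Subgroup G)) ∈ Subgroup.centralizer ((P.subgroupOf (𝐋) : Subgroup (𝐋 : Subgroup G)) : Set (𝐋 : Subgroup G)) :=
      (mem_centralizer_subgroupOf P hPL _).mpr hc
    exact Subgroup.mul_mem_sup h1 h2
  letI : Fintype (P.subgroupOf (𝐋)) := Fintype.ofFinite _
  obtain ⟨θ, Ψ, hθ, hθker, hΨ1, -, hbeq, huniq⟩ := normal_central_block_struct hM hP' hG' hind.1 hbD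
  have hcardP' : Nat.card (P.subgroupOf (𝐋)) = Nat.card P := card_subgroupOf_eq P hPL
  have hθval : (charDegree (θ : (𝐋 : Subgroup G) → ℂ)).factorization p + (Nat.card P).factorization p =
      (Nat.card (𝐋 : Subgroup G)).factorization p := by
    rw [← hcardP']
    exact degree_val_of_kernel' hM hbD hθ hθker
  -- `p` does not divide `|T_θ : L|`
  have hT : (Nat.card (inertia (𝐋) (θ : (𝐋 : Subgroup G) → ℂ))).factorization p =
      (Nat.card (𝐋 : Subgroup G)).factorization p := by
    apply inertia_val_eq_of_multiplicities (𝐋) hpp θ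
    intro χ e he he0
    have hcon : classInner (fun n : (𝐋 : Subgroup G) => (χ : G → ℂ) n) (θ : (𝐋 : Subgroup G) → ℂ) ≠ 0 := by
      rw [he]
      exact_mod_cast he0
    have hind' : IsInducedBlock M (𝐋) b (blockOf M (χ : G → ℂ)) :=
      isInducedBlock_of_covering (𝐋) hM hP hCL hind.1 (isPBlock_blockOf χ) ⟨χ, self_mem_blockOf χ, θ, hθ, hcon⟩
    have hχB : χ ∈ B := by
      rw [IsInducedBlock.unique (𝐋) hind hind']
      exact self_mem_blockOf χ
    have hker := le_charKer_of_constituent hPL hθker hcon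
    have h1 := degree_val_of_kernel' hM hD hχB hker
    have h2 := clifford_degree_aux (𝐋) χ.2 θ.2 hcon
    rw [show classInner (Cfsg.Agent.Lib.Char.resFun (𝐋) (χ : G → ℂ)) (θ : (𝐋 : Subgroup G) → ℂ) = e from he,
      apply_one_eq_charDegree (irr_isCharacter χ), apply_one_eq_charDegree (irr_isCharacter θ)] at h2
    have h3 : Nat.card (inertia (𝐋) (θ : (𝐋 : Subgroup G) → ℂ)) * charDegree (χ : G → ℂ) =
        e * (Nat.card G * charDegree (θ : (𝐋 : Subgroup G) → ℂ)) := by
      exact_mod_cast h2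
    have h4 := congrArg (fun n => n.factorization p) h3
    beta_reduce at h4
    rw [Nat.factorization_mul Nat.card_pos.ne' (charDegree_pos χ.2).ne',
      Nat.factorization_mul he0 (Nat.mul_ne_zero Nat.card_pos.ne' (charDegree_pos θ.2).ne'),
      Nat.factorization_mul Nat.card_pos.ne' (charDegree_pos θ.2).ne'] at h4
    simp only [Finsupp.add_apply] at h4
    omega
  -- all irreducible characters of `P` are linear
  have hdeg : ∀ lam : IrrCharacter (P.subgroupOf (𝐋)), (lam : P.subgroupOf (𝐋) → ℂ) 1 = 1 := by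
    intro lam
    have hψ : Ψ lam ∈ b := by
      rw [hbeq]
      exact ⟨lam, rfl⟩
    obtain ⟨χ, hχ, hcon⟩ := IsInducedBlock.exists_constituent (𝐋) hM hind hψ
    have hTle : inertia (𝐋) (Ψ lam : (𝐋 : Subgroup G) → ℂ) ≤ inertia (𝐋) (θ : (𝐋 : Subgroup G) → ℂ) := by
      intro g hg
      have h1 := sameBlock_of_mem hind.1 hψ hθ
      have h2 := sameBlock_conjIrr (𝐋) g h1
      have h3 : conjIrr (𝐋) g (Ψ lam) = Ψ lam := Subtype.ext hg
      rw [h3] at h2
      have h4 : conjIrr (𝐋) g θ ∈ b := by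
        rw [blockOf_eq_of_mem hind.1 hψ]
        exact h2
      have h5 := huniq _ h4 (fun x hx =>
        (mem_charKer (irr_isCharacter _)).mp (le_charKer_conjIrr hPL hθker g hx))
      exact congrArg Subtype.val h5
    have hTdvd : Nat.card (inertia (𝐋) (Ψ lam : (𝐋 : Subgroup G) → ℂ)) ∣
        Nat.card (inertia (𝐋) (θ : (𝐋 : Subgroup G) → ℂ)) := Subgroup.card_dvd_of_le hTle
    have hTval := (Nat.factorization_le_iff_dvd Nat.card_pos.ne' Nat.card_pos.ne').mpr hTdvd p
    have hχval := hval χ hχ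
    have h2 := clifford_degree_aux (𝐋) χ.2 (Ψ lam).2 hcon
    obtain ⟨e, he⟩ := IsCharacter.classInner_irr_eq_nat (isCharacter_resFun (𝐋) (irr_isCharacter χ)) (Ψ lam).2
    have he0 : e ≠ 0 := by
      rintro rfl
      apply hcon
      simpa using he
    have hlamc := irr_isCharacter lam
    rw [show classInner (Cfsg.Agent.Lib.Char.resFun (𝐋) (χ : G → ℂ)) (Ψ lam : (𝐋 : Subgroup G) → ℂ) = e from he,
      apply_one_eq_charDegree (irr_isCharacter χ), hΨ1, apply_one_eq_charDegree (irr_isCharacter θ),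
      apply_one_eq_charDegree hlamc] at h2
    have h3 : Nat.card (inertia (𝐋) (Ψ lam : (𝐋 : Subgroup G) → ℂ)) * charDegree (χ : G → ℂ) =
        e * (Nat.card G * (charDegree (lam : P.subgroupOf (𝐋) → ℂ) * charDegree (θ : (𝐋 : Subgroup G) → ℂ))) := by
      exact_mod_cast h2
    have h4 := congrArg (fun n => n.factorization p) h3
    beta_reduce at h4
    have hl0 := (charDegree_pos lam.2).ne'
    have hθ0 := (charDegree_pos θ.2).ne'
    rw [Nat.factorization_mul Nat.card_pos.ne' (charDegree_pos χ.2).ne',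
      Nat.factorization_mul he0 (Nat.mul_ne_zero Nat.card_pos.ne' (Nat.mul_ne_zero hl0 hθ0)),
      Nat.factorization_mul Nat.card_pos.ne' (Nat.mul_ne_zero hl0 hθ0),
      Nat.factorization_mul hl0 hθ0] at h4
    simp only [Finsupp.add_apply] at h4
    have hlam0 : (charDegree (lam : P.subgroupOf (𝐋) → ℂ)).factorization p = 0 := by omega
    rw [apply_one_eq_charDegree hlamc]
    have h5 : charDegree (lam : P.subgroupOf (𝐋) → ℂ) ∣ Nat.card (P.subgroupOf (𝐋)) := charDegree_dvd_card lam.2
    obtain ⟨m, hm⟩ := IsPGroup.iff_card.mp hP'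
    rw [hm] at h5
    obtain ⟨k, -, hk⟩ := (Nat.dvd_prime_pow hpp).mp h5
    rw [hk, hpp.factorization_pow] at hlam0
    have hk0 : k = 0 := by simpa using hlam0
    rw [hk, hk0]
    simp
  have hcomm := (comm_iff_irr_degree_one (G := P.subgroupOf (𝐋))).mpr hdeg
  intro a ha c hc
  have h1 := hcomm ⟨⟨a, hPL ha⟩, Subgroup.mem_subgroupOf.mpr ha⟩ ⟨⟨c, hPL hc⟩, Subgroup.mem_subgroupOf.mpr hc⟩
  exact congrArg (fun z : P.subgroupOf (𝐋) => ((z : (𝐋 : Subgroup G)) : G)) h1

end Main

end Cfsg.Agent.Lib.Blocks
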