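import Cfsg.Agent.Lib.Blocks.CoverApps
import Cfsg.Agent.Lib.Char.Burnside

/-!
# Characters in the principal block of a simple group
-/

set_option autoImplicit false
set_option linter.unusedSectionVars false

namespace Cfsg.Agent.Lib.Blocks

open Cfsg Cfsg.Agent.Lib.Char
open scoped ComplexConjugate

universe u

variable {G : Type u} [Group G] [Fintype G] {p : ℕ} [hp : Fact p.Prime] {M : Ideal AlgInt}

/-- A nonprincipal irreducible character of a simple group is faithful. -/
theorem charKer_eq_bot_of_simple [IsSimpleGroup G] {χ : IrrCharacter G}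
    (hχ1 : (χ : G → ℂ) ≠ fun _ => 1) : charKer (χ : G → ℂ) = ⊥ := by
  classical
  let one : IrrCharacter G := ⟨fun _ => 1, isIrrCharacter_one⟩
  have hkerN := charKer_normal (IsIrrCharacter.isCharacter χ.2)
  rcases hkerN.eq_bot_or_eq_top with h | h
  · exact h
  · exfalso
    apply hχ1
    have hconst : ∀ x, (χ : G → ℂ) x = (χ : G → ℂ) 1 := fun x =>
      (mem_charKer (IsIrrCharacter.isCharacter χ.2)).mp (by rw [h]; trivial)
    by_contra hne
    have h0 := classInner_irr_of_ne χ.2 one.2 hne
    simp only [classInner, one, map_one, mul_one, hconst] at h0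
    rw [Finset.sum_const] at h0
    have hG : ((Nat.card G : ℕ) : ℂ) ≠ 0 := by exact_mod_cast Nat.card_pos.ne'
    have hcard : (Finset.univ : Finset G).card ≠ 0 := by
      rw [Finset.card_univ]; exact Fintype.card_ne_zero
    have h5 := (mul_eq_zero.mp h0).resolve_left (inv_ne_zero hG)
    rw [nsmul_eq_mul] at h5
    have h6 : ((Finset.univ : Finset G).card : ℂ) ≠ 0 := by exact_mod_cast hcard
    exact IsIrrCharacter.apply_one_ne_zero χ.2 ((mul_eq_zero.mp h5).resolve_left h6)

/-- In a nonabelian simple group a nonprincipal character has norm below the degree off `1`. -/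
theorem eq_one_of_norm_eq_degree [IsSimpleGroup G] (hna : ∃ a b : G, a * b ≠ b * a) {χ : IrrCharacter G}
    (hχ1 : (χ : G → ℂ) ≠ fun _ => 1) {g : G} (h : ‖(χ : G → ℂ) g‖ = (charDegree (χ : G → ℂ) : ℝ)) : g = 1 := by
  classical
  have hcenter : ∀ z : G, (∀ x : G, x * z = z * x) → z = 1 := by
    intro z hz
    have hN : (Subgroup.center G).Normal := inferInstance
    rcases hN.eq_bot_or_eq_top with h | h
    · have hzc : z ∈ Subgroup.center G := Subgroup.mem_center_iff.mpr hz
      rw [h] at hzc
      simpa using hzc
    · exfalso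
      obtain ⟨a, b, hab⟩ := hna
      apply hab
      have ha : a ∈ Subgroup.center G := by rw [h]; trivial
      exact (Subgroup.mem_center_iff.mp ha b).symm
  obtain ⟨n, ρ, hirr, hρ⟩ := χ.2
  have hd : ((χ : G → ℂ) 1) = (charDegree (χ : G → ℂ) : ℂ) := apply_one_eq_charDegree (IsIrrCharacter.isCharacter χ.2)
  have hfin : Module.finrank ℂ (Fin n → ℂ) = charDegree (χ : G → ℂ) := by
    have h2 : ρ.character 1 = (Module.finrank ℂ (Fin n → ℂ) : ℂ) := Representation.char_one ρ
    rw [hρ, hd] at h2
    exact_mod_cast h2.symm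
  have h1' : ‖ρ.character g‖ = (Module.finrank ℂ (Fin n → ℂ) : ℝ) := by rw [hρ, hfin]; exact h
  obtain ⟨ω, hω⟩ := (norm_character_eq_finrank_iff ρ g).mp h1'
  have hker := charKer_eq_bot_of_simple hχ1
  apply hcenter
  intro x
  have hcomm' : ρ (x * g) = ρ (g * x) := by
    rw [map_mul, map_mul, hω]
    ext v
    simp
  have hcm : x * g * (g * x)⁻¹ ∈ charKer (χ : G → ℂ) := by
    rw [mem_charKer (IsIrrCharacter.isCharacter χ.2), ← hρ, Representation.char_one]
    apply (character_eq_finrank_iff ρ _).mpr
    rw [map_mul, hcomm', ← map_mul, mul_inv_cancel, map_one]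
    rfl
  rw [hker] at hcm
  have hcm' : x * g * (g * x)⁻¹ = 1 := by simpa using hcm
  exact mul_inv_eq_one.mp hcm'

/-- The central character of the principal character is the class size. -/
theorem centralChar_one_fun (g : G) :
    centralChar (fun _ : G => (1 : ℂ)) g = ((Subgroup.centralizer ({g} : Set G)).index : ℂ) := by
  simp [centralChar]

/-- The principal block of a simple nonabelian group contains no other character of `p`-power
degree. -/
theorem eq_one_of_principal_of_prime_power [IsSimpleGroup G] (hM : IsPModular p M) (hna : ∃ a b : G, a * b ≠ b * a)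
    {χ : IrrCharacter G} (hχ : χ ∈ principalBlock M G) {k : ℕ} (hdeg : (χ : G → ℂ) 1 = (p : ℂ) ^ k) :
    (χ : G → ℂ) = fun _ => 1 := by
  classical
  have := isPrime_of_modular hM
  have hpp : p.Prime := hp.out
  by_contra hne
  by_cases hdvd : p ∣ Nat.card G
  · obtain ⟨P⟩ : Nonempty (Sylow p G) := inferInstance
    haveI : Fact p.Prime := hp
    have hPn : Nontrivial (P : Subgroup G) := by
      have hcard : Nat.card (P : Subgroup G) = p ^ (Nat.card G).factorization p := P.card_eq_multiplicity
      apply Finite.one_lt_card_iff_nontrivial.mp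
      rw [hcard]
      apply Nat.one_lt_pow
      · have := (hpp.dvd_iff_one_le_factorization Nat.card_pos.ne').mp hdvd
        omega
      · exact hpp.one_lt
    haveI := P.isPGroup'.center_nontrivial
    obtain ⟨z, hz⟩ := exists_ne (1 : Subgroup.center (P : Subgroup G))
    set x : G := ((z : (P : Subgroup G)) : G) with hx
    have hx1 : x ≠ 1 := by
      intro h
      apply hz
      apply Subtype.ext
      apply Subtype.ext
      exact h
    have hPC : (P : Subgroup G) ≤ Subgroup.centralizer ({x} : Set G) := by
      intro u hu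
      rw [Subgroup.mem_centralizer_singleton_iff]
      have := Subgroup.mem_center_iff.mp z.2 ⟨u, hu⟩
      have h1 := congrArg Subtype.val this
      exact h1
    have hidx : ¬ p ∣ (Subgroup.centralizer ({x} : Set G)).index := fun h =>
      P.not_dvd_index (h.trans (Subgroup.index_dvd_of_le hPC))
    have hd : (χ : G → ℂ) 1 = ((p ^ k : ℕ) : ℂ) := by rw [hdeg]; push_cast; rfl
    have hcop : Nat.Coprime (p ^ k) (Subgroup.centralizer ({x} : Set G)).index :=
      Nat.Coprime.pow_left _ ((Nat.Prime.coprime_iff_not_dvd hpp).mpr hidx)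
    rcases apply_eq_zero_or_norm_eq_of_coprime χ.2 hd x hcop with h0 | hn
    · have h1 : SameBlock M (fun _ : G => (1 : ℂ)) (χ : G → ℂ) := hχ
      have h2 := h1 x
      rw [centralChar_one_fun, centralChar, h0] at h2
      simp only [mul_zero, zero_div, sub_zero] at h2
      exact hidx ((natCast_memLocalIdeal_iff hM _).mp h2)
    · apply hx1
      apply eq_one_of_norm_eq_degree hna hne
      rw [hn]
      have h3 := apply_one_eq_charDegree (IsIrrCharacter.isCharacter χ.2)
      rw [hd] at h3
      have h4 : p ^ k = charDegree (χ : G → ℂ) := by exact_mod_cast h3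
      rw [h4]
  · have h1 : blockOf M (fun _ : G => (1 : ℂ)) = blockOf M ((oneIrr G : IrrCharacter G) : G → ℂ) := rfl
    have h2 := blockOf_singleton_of_coprime hM hdvd (oneIrr G)
    have h3 : χ ∈ blockOf M ((oneIrr G : IrrCharacter G) : G → ℂ) := hχ
    rw [h2] at h3
    have h4 : χ = oneIrr G := h3
    apply hne
    rw [h4]
    rfl

end Cfsg.Agent.Lib.Blocks
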