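import Cfsg.Agent.Lib.H8Group.KnorrApps
import Cfsg.Agent.Lib.Blocks.CoverAll

/-!
# A block of a normal subgroup has a height zero character fixed by a Sylow subgroup of the stabilizer
-/

set_option autoImplicit false
set_option linter.unusedSectionVars false

namespace Cfsg.Agent.Lib.Blocks

open Cfsg Cfsg.Agent.Lib.Char Cfsg.Agent.Lib.H8Group
open scoped ComplexConjugate

universe u

section

variable {G : Type u} [Group G] [Fintype G] {p : ℕ} [hp : Fact p.Prime] {M : Ideal AlgInt}

theorem blockHeight_irrComp_symm {K : Type u} [Group K] [Fintype K] (e : K ≃* G) (B : Set (IrrCharacter G))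
    (ξ : IrrCharacter K) :
    blockHeight p B ((H8Group.irrComp e.symm ξ : IrrCharacter G) : G → ℂ) = blockHeight p (blockPull e B) (ξ : K → ℂ) := by
  rw [blockHeight, blockHeight, charDegree_irrComp]
  congr 2
  ext k
  constructor
  · rintro ⟨χ, hχ, rfl⟩
    refine ⟨H8Group.irrComp e χ, (mem_blockPull e).mpr hχ, ?_⟩
    simp only [charDegree_irrComp]
  · rintro ⟨ξ', hξ', rfl⟩
    refine ⟨H8Group.irrComp e.symm ξ', hξ', ?_⟩
    simp only [charDegree_irrComp]

/-- An invariant block of a normal subgroup of `p`-power index contains an invariant character of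
height zero. -/
theorem exists_invariant_height_zero (hM : IsPModular p M) (N : Subgroup G) [hN : N.Normal] [Fintype N]
    {k : ℕ} (hk : N.index = p ^ k) {c : Set (IrrCharacter N)} (hc : IsPBlock M c)
    (hinv : ∀ (g : G) θ, θ ∈ c → conjIrr N g θ ∈ c) :
    ∃ θ ∈ c, blockHeight p c (θ : N → ℂ) = 0 ∧ ∀ g : G, conjIrr N g θ = θ := by
  classical
  have := isPrime_of_modular hM
  have hpp : p.Prime := hp.out
  obtain ⟨F, ⟨hF, hFc⟩, hFu⟩ := existsUnique_covering N hM hk hc
  obtain ⟨E, hE⟩ := IsPBlock.exists_isDefectGroup hM hF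
  have hmax : ∀ F' : Set (IrrCharacter G), IsPBlock M F' →
      (∃ χ ∈ F', ∃ θ ∈ c, classInner (fun n : N => (χ : G → ℂ) n) (θ : N → ℂ) ≠ 0) →
      blockDefect p F' ≤ blockDefect p F := by
    intro F' h1 h2
    rw [hFu F' ⟨h1, h2⟩]
  obtain ⟨-, -, hdef⟩ := fong N hM hc hinv hF hFc hmax hE
  obtain ⟨χ, hχ, hχ0⟩ := exists_height_zero (p := p) (IsPBlock.nonempty hF)
  obtain ⟨θ, hθ⟩ := exists_constituent N χ
  obtain ⟨χ₀, hχ₀, θ₀, hθ₀, h₀⟩ := hFc
  obtain ⟨g, hg⟩ := covering_constituents N hF hc hχ₀ hχ hθ₀ h₀ hθ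
  have hθc : θ ∈ c := by
    have h1 := hinv g⁻¹ _ hg
    rwa [← conjIrr_mul, inv_mul_cancel, conjIrr_one] at h1
  set sF := sInf ((fun χ : IrrCharacter G => (charDegree (χ : G → ℂ)).factorization p) '' F) with hsF
  set sc := sInf ((fun χ : IrrCharacter N => (charDegree (χ : N → ℂ)).factorization p) '' c) with hsc
  have hχle : (charDegree (χ : G → ℂ)).factorization p ≤ sF := by
    have h1 : (charDegree (χ : G → ℂ)).factorization p - sF = 0 := hχ0
    omega
  have hFle : sF ≤ (charDegree (χ : G → ℂ)).factorization p := Nat.sInf_le ⟨χ, hχ, rfl⟩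
  have hcle : sc ≤ (charDegree (θ : N → ℂ)).factorization p := Nat.sInf_le ⟨θ, hθc, rfl⟩
  have hχG : (charDegree (χ : G → ℂ)).factorization p ≤ (Nat.card G).factorization p :=
    (Nat.factorization_le_iff_dvd (charDegree_pos χ.2).ne' Nat.card_pos.ne').mpr
      (charDegree_dvd_card χ.2) p
  have hθN : (charDegree (θ : N → ℂ)).factorization p ≤ (Nat.card N).factorization p :=
    (Nat.factorization_le_iff_dvd (charDegree_pos θ.2).ne' Nat.card_pos.ne').mpr
      (charDegree_dvd_card θ.2) p
  have hcard : (Nat.card G).factorization p = k + (Nat.card N).factorization p := by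
    have h1 := Subgroup.index_mul_card N
    rw [← h1, hk, Nat.factorization_mul (pow_ne_zero _ hpp.ne_zero) Nat.card_pos.ne',
      Finsupp.add_apply, Nat.factorization_pow, Finsupp.smul_apply, hpp.factorization_self]
    simp
  have hdef' : (Nat.card G).factorization p - sF =
      (Nat.card N).factorization p - sc + N.index.factorization p := hdef
  have hidxν : N.index.factorization p = k := by
    rw [hk, Nat.factorization_pow, Finsupp.smul_apply, hpp.factorization_self]
    simp
  rw [hidxν] at hdef'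
  have hss : sF = sc := by omega
  -- Clifford
  have hχc := IsIrrCharacter.isCharacter χ.2
  have hθc' := IsIrrCharacter.isCharacter θ.2
  obtain ⟨e, he⟩ := IsCharacter.classInner_irr_eq_nat (isCharacter_resFun N hχc) θ.2
  have hθ' : classInner (Cfsg.Agent.Lib.Char.resFun N (χ : G → ℂ)) (θ : N → ℂ) ≠ 0 := hθ
  have hdeg := clifford_degree_nat N χ.2 θ.2 hθ' (apply_one_eq_charDegree hχc) (apply_one_eq_charDegree hθc') he
  have he0 : e ≠ 0 := by
    intro h0
    apply hθ'
    rw [he, h0]
    simp
  have hI : (inertia N (θ : N → ℂ)).index ∣ p ^ k := by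
    rw [← hk]
    exact Subgroup.index_dvd_of_le (le_inertia N (irr_isClassFunction θ))
  obtain ⟨j, -, hj⟩ := (Nat.dvd_prime_pow hpp).mp hI
  have hθ0 := (charDegree_pos θ.2).ne'
  have hval : (charDegree (χ : G → ℂ)).factorization p = e.factorization p + j +
      (charDegree (θ : N → ℂ)).factorization p := by
    rw [hdeg, hj, Nat.factorization_mul (mul_ne_zero he0 (pow_ne_zero _ hpp.ne_zero)) hθ0,
      Nat.factorization_mul he0 (pow_ne_zero _ hpp.ne_zero), Finsupp.add_apply, Finsupp.add_apply,
      Nat.factorization_pow, Finsupp.smul_apply, hpp.factorization_self]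
    simp
  have hj0 : j = 0 := by omega
  refine ⟨θ, hθc, ?_, ?_⟩
  · show (charDegree (θ : N → ℂ)).factorization p - sc = 0
    omega
  · intro x
    rw [hj0, pow_zero] at hj
    have htop := Subgroup.index_eq_one.mp hj
    have hx : x ∈ inertia N (θ : N → ℂ) := by
      rw [htop]
      exact Subgroup.mem_top _
    exact Subtype.ext ((mem_inertia N).mp hx)

/-- A block of a normal subgroup contains a character of height zero, fixed by a subgroup of index
prime to `p` of the stabilizer of the block. -/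
theorem exists_height_zero_stabilizer (hM : IsPModular p M) (H : Subgroup G) [hH : H.Normal] [Fintype H]
    {b : Set (IrrCharacter H)} (hb : IsPBlock M b) {T : Subgroup G}
    (hT : ∀ g, g ∈ T ↔ ∀ θ ∈ b, conjIrr H g θ ∈ b) :
    ∃ θ ∈ b, blockHeight p b (θ : H → ℂ) = 0 ∧ ∃ L : Subgroup G, L ≤ T ∧ ¬ p ∣ L.relIndex T ∧
      ∀ g ∈ L, conjIrr H g θ = θ := by
  classical
  have := isPrime_of_modular hM
  have hpp : p.Prime := hp.out
  have hHT : H ≤ T := by
    intro n hn
    rw [hT]
    intro θ hθ
    have h1 : conjIrr H n θ = θ := by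
      apply Subtype.ext
      exact (mem_inertia H).mp (le_inertia H (irr_isClassFunction θ) hn)
    rw [h1]
    exact hθ
  obtain ⟨P, hP⟩ := exists_isSylowIn (p := p) T
  have hPT := hP.le
  set L : Subgroup G := P ⊔ H with hL
  have hHL : H ≤ L := le_sup_right
  have hLT : L ≤ T := sup_le hPT hHT
  have hPL : P ≤ L := le_sup_left
  letI : Fintype L := Fintype.ofFinite _
  letI : Fintype (H.subgroupOf L) := Fintype.ofFinite _
  haveI : (H.subgroupOf L).Normal := Subgroup.normal_subgroupOf
  -- the index of `H` in `L`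
  have hidx : ∃ k : ℕ, (H.subgroupOf L).index = p ^ k := by
    have h1 : H.relIndex L = H.relIndex P := Subgroup.relIndex_sup_right P H
    have h2 : H.relIndex P ∣ Nat.card P := Subgroup.index_dvd_card _
    rw [hP.card_eq_pow] at h2
    obtain ⟨k, -, hk⟩ := (Nat.dvd_prime_pow hpp).mp h2
    exact ⟨k, by rw [← hk, ← h1]; rfl⟩
  obtain ⟨k, hk⟩ := hidx
  have hLidx : ¬ p ∣ L.relIndex T := by
    intro hd
    have h1 : P.relIndex L * L.relIndex T = P.relIndex T := Subgroup.relIndex_mul_relIndex P L T hPL hLT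
    have h2 : p ∣ P.relIndex T := h1 ▸ Dvd.dvd.mul_left hd _
    have h3 : P.relIndex T * Nat.card P = Nat.card T := by
      have h4 := Subgroup.index_mul_card (P.subgroupOf T)
      rwa [card_subgroupOf_eq _ hPT] at h4
    rw [hP.card_eq_pow] at h3
    have h5 : p ^ ((Nat.card T).factorization p + 1) ∣ Nat.card T := by
      conv_rhs => rw [← h3]
      rw [pow_succ, mul_comm]
      exact mul_dvd_mul_right h2 _
    exact Nat.pow_succ_factorization_not_dvd Nat.card_pos.ne' hpp h5
  set e : H.subgroupOf L ≃* H := Subgroup.subgroupOfEquivOfLe hHL with he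
  have hc := isPBlock_blockPull e hb
  have hinv : ∀ (l : L) (θ : IrrCharacter (H.subgroupOf L)), θ ∈ blockPull e b →
      conjIrr (H.subgroupOf L) l θ ∈ blockPull e b := fun l θ hθ =>
    blockPull_invariant' H hHL l (fun θ hθ => (hT (l : G)).mp (hLT l.2) θ hθ) θ hθ
  obtain ⟨θ', hθ', h0, hfix⟩ := exists_invariant_height_zero hM (H.subgroupOf L) hk hc hinv
  refine ⟨H8Group.irrComp e.symm θ', hθ', ?_, L, hLT, hLidx, ?_⟩
  · rw [blockHeight_irrComp_symm]
    exact h0
  · intro g hg
    have h2 : H8Group.irrComp e.symm (conjIrr (H.subgroupOf L) (⟨g, hg⟩ : L) θ') =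
        conjIrr H g (H8Group.irrComp e.symm θ') := by
      apply Subtype.ext
      funext n
      simp only [H8Group.irrComp_coe, conjIrr_coe, Function.comp_apply, Cfsg.Agent.Lib.Char.conjFun_apply]
      congr 1
    rw [← h2, hfix]

end

end Cfsg.Agent.Lib.Blocks
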