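import Cfsg.Agent.Lib.Char.MaxPair
import Cfsg.Agent.Lib.Char.Triple
import Cfsg.Agent.Lib.Blocks.FongGeneral
import Cfsg.Agent.Lib.Char.ASylow

/-!
# Characters of defect zero modulo a normal `p`-subgroup: weights.
-/

set_option autoImplicit false
set_option linter.unusedSectionVars false
set_option linter.style.haveILetI false

namespace Cfsg.Agent.Lib.Blocks

open Cfsg Cfsg.Agent.Lib.Char Cfsg.Agent.Lib.H8Group
open scoped ComplexConjugate

universe u

section Const

variable {X : Type u} [Group X] [Fintype X]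

/-- A constituent of `χ|N` is trivial where `χ` is. -/
theorem apply_eq_of_constituent (N : Subgroup X) [Fintype N] {χ : X → ℂ} (hχ : IsCharacter X χ)
    (η : IrrCharacter N) (hcon : classInner (fun n : N => χ n) (η : N → ℂ) ≠ 0) (q : N)
    (hq : χ q = χ 1) : (η : N → ℂ) q = (η : N → ℂ) 1 := by
  classical
  have hres : IsCharacter N (fun n : N => χ n) := isCharacter_resFun N hχ
  obtain ⟨m, hm, hsum⟩ := IsCharacter.exists_eq_sum hres
  have hval : ∀ x : N, χ x = ∑ ψ : IrrCharacter N, (m ψ : ℂ) * (ψ : N → ℂ) x := by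
    intro x
    have := congrFun hsum x
    simpa [Finset.sum_apply, nsmul_eq_mul] using this
  have h1 := hval q
  have h2 := hval 1
  have h3 : χ ((1 : N) : X) = χ 1 := by simp
  have h4 : ∑ ψ : IrrCharacter N, (m ψ : ℂ) * ((ψ : N → ℂ) 1 - (ψ : N → ℂ) q) = 0 := by
    simp only [mul_sub, Finset.sum_sub_distrib]
    rw [← h1, ← h2, h3, hq, sub_self]
  have hdeg : ∀ ψ : IrrCharacter N, (ψ : N → ℂ) 1 = (charDegree (ψ : N → ℂ) : ℂ) := fun ψ =>
    apply_one_eq_charDegree (irr_isCharacter ψ)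
  have hle : ∀ ψ : IrrCharacter N, ‖(ψ : N → ℂ) q‖ ≤ (charDegree (ψ : N → ℂ) : ℝ) := by
    intro ψ
    have := IsCharacter.norm_le (irr_isCharacter ψ) q
    rwa [hdeg ψ, Complex.norm_natCast] at this
  have h5 : ∑ ψ : IrrCharacter N, (m ψ : ℝ) * ((charDegree (ψ : N → ℂ) : ℝ) - ((ψ : N → ℂ) q).re) = 0 := by
    have := congrArg Complex.re h4
    simpa [hdeg, Complex.sub_re] using this
  have hnn : ∀ ψ ∈ Finset.univ, 0 ≤ (m ψ : ℝ) * ((charDegree (ψ : N → ℂ) : ℝ) - ((ψ : N → ℂ) q).re) := by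
    intro ψ _
    apply mul_nonneg (Nat.cast_nonneg _)
    have := (Complex.re_le_norm ((ψ : N → ℂ) q)).trans (hle ψ)
    linarith
  have h6 := (Finset.sum_eq_zero_iff_of_nonneg hnn).mp h5 η (Finset.mem_univ _)
  have hmη : (m η : ℝ) ≠ 0 := by
    intro h
    apply hcon
    rw [hm η]
    have : m η = 0 := by exact_mod_cast h
    simp [this]
  have h7 : ((η : N → ℂ) q).re = (charDegree (η : N → ℂ) : ℝ) := by
    have := (mul_eq_zero.mp h6).resolve_left hmη
    linarith
  have h8 := hle η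
  rw [hdeg η]
  apply Complex.ext
  · simpa using h7
  · have h9 : ‖(η : N → ℂ) q‖ ^ 2 = ((η : N → ℂ) q).re ^ 2 + ((η : N → ℂ) q).im ^ 2 := by
      rw [← Complex.normSq_eq_norm_sq, Complex.normSq_apply]; ring
    have h10 : (0:ℝ) ≤ (charDegree (η : N → ℂ) : ℝ) := Nat.cast_nonneg _
    have h11 : ((η : N → ℂ) q).im ^ 2 ≤ 0 := by
      have : ‖(η : N → ℂ) q‖ ^ 2 ≤ (charDegree (η : N → ℂ) : ℝ) ^ 2 :=
        pow_le_pow_left₀ (norm_nonneg _) h8 2
      rw [h9, h7] at this
      linarith
    have h12 : ((η : N → ℂ) q).im = 0 := by nlinarith [sq_nonneg ((η : N → ℂ) q).im]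
    simpa using h12

end Const

section Main

variable {X : Type u} [Group X] [Fintype X] {p : ℕ} [hp : Fact p.Prime] {M : Ideal AlgInt}

/-- A character of defect zero modulo `W`: no larger normal `p`-subgroup. -/
theorem normal_pgroup_le_of_defect_zero (hM : IsPModular p M) (W : Subgroup X) [hW : W.Normal]
    (χ : IrrCharacter X) (htriv : ∀ w ∈ W, (χ : X → ℂ) w = (χ : X → ℂ) 1)
    (hdeg : (charDegree (χ : X → ℂ)).factorization p + (Nat.card W).factorization p = (Nat.card X).factorization p)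
    {R : Subgroup X} (hRn : R.Normal) (hRp : IsPGroup p R) : R ≤ W := by
  classical
  have hpp : p.Prime := hp.out
  have := isPrime_of_modular hM
  have hle : W ≤ charKer (χ : X → ℂ) := fun w hw =>
    (mem_charKer (irr_isCharacter χ)).mpr (htriv w hw)
  obtain ⟨β, hβ, hχβ⟩ := exists_deflate W χ.2 hle
  letI : Fintype (X ⧸ W) := Fintype.ofFinite _
  let β' : IrrCharacter (X ⧸ W) := ⟨β, hβ⟩
  have hdegβ : charDegree (β' : X ⧸ W → ℂ) = charDegree (χ : X → ℂ) := by
    have h1 : (χ : X → ℂ) 1 = β 1 := by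
      rw [hχβ]; simp [inflate]
    have h2 := apply_one_eq_charDegree (irr_isCharacter χ)
    have h3 := apply_one_eq_charDegree (irr_isCharacter β')
    have h4 : ((charDegree (χ : X → ℂ) : ℕ) : ℂ) = (charDegree (β' : X ⧸ W → ℂ) : ℕ) := by
      rw [← h2, ← h3, h1]
    exact_mod_cast h4.symm
  have hcard : Nat.card X = Nat.card (X ⧸ W) * Nat.card W := Subgroup.card_eq_card_quotient_mul_card_subgroup W
  have hval : (Nat.card X).factorization p = (Nat.card (X ⧸ W)).factorization p + (Nat.card W).factorization p := by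
    rw [hcard, Nat.factorization_mul Nat.card_pos.ne' Nat.card_pos.ne']; rfl
  have hνβ : (charDegree (β' : X ⧸ W → ℂ)).factorization p = (Nat.card (X ⧸ W)).factorization p := by
    rw [hdegβ]; omega
  have hdvd := charDegree_dvd_card β'.2
  have hnd : ¬ p ∣ Nat.card (X ⧸ W) / charDegree (β' : X ⧸ W → ℂ) := by
    intro h
    have h1 := Nat.factorization_div hdvd
    have h2 : (Nat.card (X ⧸ W) / charDegree (β' : X ⧸ W → ℂ)).factorization p = 0 := by
      rw [h1]; simp [hνβ]
    have h3 : Nat.card (X ⧸ W) / charDegree (β' : X ⧸ W → ℂ) ≠ 0 :=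
      (Nat.div_pos (Nat.le_of_dvd Nat.card_pos hdvd) (charDegree_pos β'.2)).ne'
    have := hpp.factorization_pos_of_dvd h3 h
    omega
  have hsing := (not_dvd_iff_blockOf_singleton hM β').mp hnd
  have hB : IsPBlock M (blockOf M (β' : X ⧸ W → ℂ)) := isPBlock_blockOf β'
  obtain ⟨D, hD⟩ := IsPBlock.exists_isDefectGroup hM hB
  have hcardD := card_defectGroup hM hB hD
  have hdef : blockDefect p (blockOf M (β' : X ⧸ W → ℂ)) = 0 := by
    rw [blockDefect, hsing]
    simp [hνβ]
  rw [hdef, pow_zero] at hcardD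
  have hD1 : D = ⊥ := Subgroup.eq_bot_of_card_eq D hcardD
  have hRmap : R.map (QuotientGroup.mk' W) ≤ D := by
    refine le_trans ?_ (IsDefectGroup.pCore_le hM hB hD)
    apply Cfsg.Agent.Lib.Basic.le_pCore
    · exact hRn.map _ (QuotientGroup.mk'_surjective W)
    · exact hRp.map _
  rw [hD1] at hRmap
  intro r hr
  have h1 : (QuotientGroup.mk' W) r ∈ (⊥ : Subgroup (X ⧸ W)) := hRmap ⟨r, hr, rfl⟩
  rw [Subgroup.mem_bot] at h1
  exact (QuotientGroup.eq_one_iff r).mp h1

/-- Constituents on a normal subgroup of a character of defect zero modulo `W`. -/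
theorem exists_defect_zero_constituent (W C₀ : Subgroup X) [hW : W.Normal] [hC₀ : C₀.Normal] [Fintype C₀]
    (χ : IrrCharacter X) (htriv : ∀ w ∈ W, (χ : X → ℂ) w = (χ : X → ℂ) 1)
    (hdeg : (charDegree (χ : X → ℂ)).factorization p + (Nat.card W).factorization p = (Nat.card X).factorization p) :
    ∃ ρ : IrrCharacter C₀, classInner (fun n : C₀ => (χ : X → ℂ) n) (ρ : C₀ → ℂ) ≠ 0 ∧
      (∀ z : C₀, (z : X) ∈ W → (ρ : C₀ → ℂ) z = (ρ : C₀ → ℂ) 1) ∧
      (charDegree (ρ : C₀ → ℂ)).factorization p + (Nat.card (W.subgroupOf C₀)).factorization p = (Nat.card C₀).factorization p := by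
  classical
  have hpp : p.Prime := hp.out
  have hle : W ≤ charKer (χ : X → ℂ) := fun w hw =>
    (mem_charKer (irr_isCharacter χ)).mpr (htriv w hw)
  obtain ⟨β, hβ, hχβ⟩ := exists_deflate W χ.2 hle
  letI : Fintype (X ⧸ W) := Fintype.ofFinite _
  let β' : IrrCharacter (X ⧸ W) := ⟨β, hβ⟩
  have hdegβ : charDegree (β' : X ⧸ W → ℂ) = charDegree (χ : X → ℂ) := by
    have h1 : (χ : X → ℂ) 1 = β 1 := by
      rw [hχβ]; simp [inflate]
    have h2 := apply_one_eq_charDegree (irr_isCharacter χ)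
    have h3 := apply_one_eq_charDegree (irr_isCharacter β')
    have h4 : ((charDegree (χ : X → ℂ) : ℕ) : ℂ) = (charDegree (β' : X ⧸ W → ℂ) : ℕ) := by
      rw [← h2, ← h3, h1]
    exact_mod_cast h4.symm
  have hcard : Nat.card X = Nat.card (X ⧸ W) * Nat.card W := Subgroup.card_eq_card_quotient_mul_card_subgroup W
  have hval : (Nat.card X).factorization p = (Nat.card (X ⧸ W)).factorization p + (Nat.card W).factorization p := by
    rw [hcard, Nat.factorization_mul Nat.card_pos.ne' Nat.card_pos.ne']; rfl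
  have hνβ : (charDegree (β' : X ⧸ W → ℂ)).factorization p = (Nat.card (X ⧸ W)).factorization p := by
    rw [hdegβ]; omega
  let Cb : Subgroup (X ⧸ W) := C₀.map (QuotientGroup.mk' W)
  haveI hCb : Cb.Normal := Subgroup.Normal.map hC₀ _ (QuotientGroup.mk'_surjective W)
  letI : Fintype Cb := Fintype.ofFinite _
  obtain ⟨ρb, hρb⟩ := exists_constituent Cb β'
  let π : C₀ →* Cb := ((QuotientGroup.mk' W).comp C₀.subtype).codRestrict Cb (fun c => ⟨c, c.2, rfl⟩)
  have hπ : Function.Surjective π := by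
    rintro ⟨y, c, hc, rfl⟩
    exact ⟨⟨c, hc⟩, rfl⟩
  have hρ := isIrrCharacter_comp_surj π hπ ρb.2
  have hπval : ∀ n : C₀, ((π n : Cb) : X ⧸ W) = ((n : X) : X ⧸ W) := fun n => rfl
  have hker : π.ker = W.subgroupOf C₀ := by
    ext n
    rw [MonoidHom.mem_ker, Subgroup.mem_subgroupOf]
    constructor
    · intro h
      have h1 : ((π n : Cb) : X ⧸ W) = 1 := by rw [h]; rfl
      rw [hπval] at h1
      exact (QuotientGroup.eq_one_iff _).mp h1
    · intro h
      apply Subtype.ext
      show ((π n : Cb) : X ⧸ W) = 1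
      rw [hπval]
      exact (QuotientGroup.eq_one_iff _).mpr h
  refine ⟨⟨_, hρ⟩, ?_, ?_, ?_⟩
  · have h1 : (fun n : C₀ => (χ : X → ℂ) n) = (fun y : Cb => (β' : X ⧸ W → ℂ) y) ∘ π := by
      funext n
      rw [hχβ]
      rfl
    show classInner (fun n : C₀ => (χ : X → ℂ) n) ((ρb : Cb → ℂ) ∘ π) ≠ 0
    rw [h1, classInner_comp_surj π hπ]
    exact hρb
  · intro z hz
    show (ρb : Cb → ℂ) (π z) = (ρb : Cb → ℂ) (π 1)
    have : π z = 1 := by
      have : z ∈ π.ker := by rw [hker]; exact Subgroup.mem_subgroupOf.mpr hz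
      exact this
    rw [this, map_one]
  · have hd1 : charDegree (((⟨_, hρ⟩ : IrrCharacter C₀)) : C₀ → ℂ) = charDegree (ρb : Cb → ℂ) := by
      have h2 := apply_one_eq_charDegree (irr_isCharacter (⟨_, hρ⟩ : IrrCharacter C₀))
      have h3 := apply_one_eq_charDegree (irr_isCharacter ρb)
      have h4 : ((charDegree ((⟨_, hρ⟩ : IrrCharacter C₀) : C₀ → ℂ) : ℕ) : ℂ) = (charDegree (ρb : Cb → ℂ) : ℕ) := by
        rw [← h2, ← h3]
        show (ρb : Cb → ℂ) (π 1) = _
        rw [map_one]
      exact_mod_cast h4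
    rw [hd1]
    have hc0 : Nat.card C₀ = Nat.card π.ker * Nat.card Cb := by
      have := card_eq_ker_mul_of_surj π hπ
      exact_mod_cast this
    have hr := Triple.degree_ratio Cb β'.2 ρb.2 hρb (apply_one_eq_charDegree (irr_isCharacter β'))
      (apply_one_eq_charDegree (irr_isCharacter ρb))
    have hcarddiv : Nat.card (X ⧸ W) = Nat.card Cb * Cb.index := (Subgroup.card_mul_index Cb).symm
    have hd2 : charDegree (ρb : Cb → ℂ) ∣ Nat.card Cb := charDegree_dvd_card ρb.2
    have hc1 : charDegree (β' : X ⧸ W → ℂ) ≠ 0 := (charDegree_pos β'.2).ne'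
    have hd0 : charDegree (ρb : Cb → ℂ) ≠ 0 := (charDegree_pos ρb.2).ne'
    have h5 : (charDegree (ρb : Cb → ℂ)).factorization p ≤ (Nat.card Cb).factorization p :=
      (Nat.factorization_le_iff_dvd hd0 Nat.card_pos.ne').mpr hd2 p
    have hidx0 : Cb.index ≠ 0 := by
      intro h
      rw [h, mul_zero] at hcarddiv
      exact Nat.card_pos.ne' hcarddiv
    have h6 : (charDegree (β' : X ⧸ W → ℂ) / charDegree (ρb : Cb → ℂ)).factorization p ≤ Cb.index.factorization p :=
      (Nat.factorization_le_iff_dvd (Nat.div_pos (Nat.le_of_dvd (Nat.pos_of_ne_zero hc1) hr.1) (Nat.pos_of_ne_zero hd0)).ne' hidx0).mpr hr.2 p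
    rw [Nat.factorization_div hr.1] at h6
    have h7 : (Nat.card (X ⧸ W)).factorization p = (Nat.card Cb).factorization p + Cb.index.factorization p := by
      rw [hcarddiv, Nat.factorization_mul Nat.card_pos.ne' hidx0]; rfl
    have h8 : (charDegree (β' : X ⧸ W → ℂ)).factorization p - (charDegree (ρb : Cb → ℂ)).factorization p ≤ Cb.index.factorization p := by
      simpa using h6
    have h9 : (Nat.card C₀).factorization p = (Nat.card π.ker).factorization p + (Nat.card Cb).factorization p := by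
      rw [hc0, Nat.factorization_mul Nat.card_pos.ne' Nat.card_pos.ne']; rfl
    rw [← hker]
    omega

end Main

section Assembly

variable {G : Type u} [Group G] [Fintype G] {p : ℕ} [hp : Fact p.Prime] {M : Ideal AlgInt}

/-- A constituent of the restriction of a member of a block whose idempotent lives on `C`
lies in the block of `C`. -/
theorem mem_block_of_constituent {C T : Subgroup G} [Fintype C] [Fintype T] (hCT : C ≤ T)
    {F' : Set (IrrCharacter T)} (hF' : IsPBlock M F') {e : Set (IrrCharacter C)} (he : IsPBlock M e)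
    (hF'e : ∀ t : T, blockCoeff F' t = subgroupBlockCoeff C e (t : G))
    {χ : IrrCharacter T} (hχ : χ ∈ F') (θ : IrrCharacter C)
    (hcon : classInner (fun c : C => (χ : T → ℂ) ⟨c, hCT c.2⟩) (θ : C → ℂ) ≠ 0) : θ ∈ e := by
  classical
  have hs : spec (blockCoeff F') χ = 1 := by
    rw [spec_blockCoeff]
    exact indic_apply_of_mem hχ
  have hχ1 : (χ : T → ℂ) 1 ≠ 0 := irr_apply_one_ne_zero χ
  have h1 : ∑ t : T, blockCoeff F' t * (χ : T → ℂ) t = (χ : T → ℂ) 1 := by
    unfold spec at hs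
    rwa [div_eq_one_iff_eq hχ1] at hs
  -- the sum over `T` is a sum over `C`
  have h2 : ∑ t : T, blockCoeff F' t * (χ : T → ℂ) t =
      ∑ c : C, blockCoeff e c * (χ : T → ℂ) ⟨c, hCT c.2⟩ := by
    let φ : C ↪ T := ⟨fun c => ⟨c, hCT c.2⟩, fun a b h => Subtype.ext (by simpa using congrArg Subtype.val h)⟩
    have h3 : ∑ c : C, blockCoeff e c * (χ : T → ℂ) ⟨c, hCT c.2⟩ =
        ∑ t ∈ Finset.univ.map φ, blockCoeff F' t * (χ : T → ℂ) t := by
      rw [Finset.sum_map]
      refine Finset.sum_congr rfl fun c _ => ?_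
      have h4 : blockCoeff F' (φ c) = blockCoeff e c := by
        rw [hF'e]
        show subgroupBlockCoeff C e (c : G) = _
        simp only [subgroupBlockCoeff, dif_pos c.2]
      rw [h4]
      rfl
    rw [h3]
    symm
    apply Finset.sum_subset (Finset.subset_univ _)
    intro t _ ht
    have h5 : (t : G) ∉ C := by
      intro h
      apply ht
      rw [Finset.mem_map]
      exact ⟨⟨t, h⟩, Finset.mem_univ _, Subtype.ext rfl⟩
    rw [hF'e]
    simp only [subgroupBlockCoeff, dif_neg h5, zero_mul]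
  have hres : IsCharacter C (fun c : C => (χ : T → ℂ) ⟨c, hCT c.2⟩) :=
    IsCharacter.comp (irr_isCharacter χ) (Subgroup.inclusion hCT)
  obtain ⟨m, hm, hsum⟩ := IsCharacter.exists_eq_sum hres
  have hval : ∀ x : C, (χ : T → ℂ) ⟨x, hCT x.2⟩ = ∑ ψ : IrrCharacter C, (m ψ : ℂ) * (ψ : C → ℂ) x := by
    intro x
    have := congrFun hsum x
    simpa [Finset.sum_apply, nsmul_eq_mul] using this
  have hspec : ∀ ψ : IrrCharacter C, ∑ c : C, blockCoeff e c * (ψ : C → ℂ) c =
      indic e ψ * (ψ : C → ℂ) 1 := by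
    intro ψ
    rw [← spec_blockCoeff]
    unfold spec
    have := irr_apply_one_ne_zero ψ
    field_simp
  have h6 : (χ : T → ℂ) 1 = ∑ ψ : IrrCharacter C, (m ψ : ℂ) * (indic e ψ * (ψ : C → ℂ) 1) := by
    rw [← h1, h2]
    simp only [hval, Finset.mul_sum]
    rw [Finset.sum_comm]
    refine Finset.sum_congr rfl fun ψ _ => ?_
    rw [← hspec ψ, Finset.mul_sum]
    refine Finset.sum_congr rfl fun c _ => ?_
    ring
  have h7 : (χ : T → ℂ) 1 = ∑ ψ : IrrCharacter C, (m ψ : ℂ) * (ψ : C → ℂ) 1 := by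
    exact hval 1
  by_contra hθ
  have h8 : ∑ ψ : IrrCharacter C, (m ψ : ℂ) * (((1 : ℂ) - indic e ψ) * (ψ : C → ℂ) 1) = 0 := by
    have : ∀ ψ : IrrCharacter C, (m ψ : ℂ) * (((1 : ℂ) - indic e ψ) * (ψ : C → ℂ) 1) =
        (m ψ : ℂ) * (ψ : C → ℂ) 1 - (m ψ : ℂ) * (indic e ψ * (ψ : C → ℂ) 1) := fun ψ => by ring
    simp only [this, Finset.sum_sub_distrib]
    rw [← h7, ← h6, sub_self]
  have h9 : ∀ ψ : IrrCharacter C, (m ψ : ℂ) * (((1 : ℂ) - indic e ψ) * (ψ : C → ℂ) 1) =
      ((if ψ ∈ e then 0 else m ψ * charDegree (ψ : C → ℂ) : ℕ) : ℂ) := by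
    intro ψ
    by_cases hψ : ψ ∈ e
    · simp [hψ]
    · simp [hψ, apply_one_eq_charDegree (irr_isCharacter ψ)]
  simp only [h9] at h8
  have h10 : (∑ ψ : IrrCharacter C, (if ψ ∈ e then 0 else m ψ * charDegree (ψ : C → ℂ) : ℕ)) = 0 := by
    exact_mod_cast h8
  have h11 := (Finset.sum_eq_zero_iff.mp h10) θ (Finset.mem_univ _)
  rw [if_neg hθ] at h11
  rcases Nat.mul_eq_zero.mp h11 with h12 | h12
  · apply hcon
    rw [hm θ, h12]
    simp
  · exact (charDegree_pos θ.2).ne' h12

/-- The main result. -/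
theorem weight_main (hM : IsPModular p M) {B : Set (IrrCharacter G)} {Q : Subgroup G}
    {e : Set (IrrCharacter (Subgroup.centralizer (Q : Set G)))} (hQe : IsBrauerPairOf p M B Q e)
    {T : Subgroup G}
    (hT : ∀ y : G, y ∈ T ↔ y ∈ Subgroup.normalizer (Q : Set G) ∧ StabilizesBlock (Subgroup.centralizer (Q : Set G)) e y)
    {F' : Set (IrrCharacter T)} (hF' : IsPBlock M F')
    (hF'e : ∀ t : T, blockCoeff F' t = subgroupBlockCoeff (Subgroup.centralizer (Q : Set G)) e (t : G))
    {χ : IrrCharacter T} (hχ : χ ∈ F')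
    (hχQ : ∀ q : G, q ∈ Q → ∀ t : T, ∀ t' : T, (t' : G) = q * (t : G) → (χ : T → ℂ) t' = (χ : T → ℂ) t)
    (hdeg : (charDegree (χ : T → ℂ)).factorization p + (Nat.card Q).factorization p = (Nat.card T).factorization p) :
    IsDefectGroup p M e ((Q ⊓ Subgroup.centralizer (Q : Set G)).subgroupOf (Subgroup.centralizer (Q : Set G))) ∧
      ∀ R : Subgroup G, R ≤ T → IsPGroup p R → (∀ t ∈ T, t ∈ Subgroup.normalizer (R : Set G)) → R ≤ Q := by
  classical
  have := isPrime_of_modular hM
  have hpp : p.Prime := hp.out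
  letI : Fintype (Subgroup.centralizer (Q : Set G)) := Fintype.ofFinite _
  have he : IsPBlock M e := hQe.1.2
  have hQp : IsPGroup p Q := hQe.1.1
  have hQT : Q ≤ T := fun q hq => (hT q).mpr
    ⟨(Subgroup.le_normalizer hq : q ∈ Subgroup.normalizer (Q : Set G)),
      stabilizesBlock_of_mem_sup (Subgroup.mem_sup_left hq) e⟩
  have hCT : Subgroup.centralizer (Q : Set G) ≤ T := fun c hc => (hT c).mpr
    ⟨sup_centralizer_le_normalizer Q (Subgroup.mem_sup_right hc),
      stabilizesBlock_of_mem_sup (Subgroup.mem_sup_right hc) e⟩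
  haveI hQn : (Q.subgroupOf T).Normal := by
    refine ⟨fun q hq t => ?_⟩
    rw [Subgroup.mem_subgroupOf] at hq ⊢
    have := ((hT t).mp t.2).1
    exact (Subgroup.mem_normalizer_iff.mp this q).mp hq
  haveI hCn : ((Subgroup.centralizer (Q : Set G)).subgroupOf T).Normal := by
    refine ⟨fun q hq t => ?_⟩
    rw [Subgroup.mem_subgroupOf] at hq ⊢
    have := normalizer_le_normalizer_centralizer ((hT t).mp t.2).1
    exact (Subgroup.mem_normalizer_iff.mp this q).mp hq
  have htriv : ∀ w ∈ Q.subgroupOf T, (χ : T → ℂ) w = (χ : T → ℂ) 1 := by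
    intro w hw
    exact hχQ w (Subgroup.mem_subgroupOf.mp hw) 1 w (by simp)
  have hcQ : Nat.card (Q.subgroupOf T) = Nat.card Q :=
    Nat.card_congr (Subgroup.subgroupOfEquivOfLe hQT).toEquiv
  have hdeg' : (charDegree (χ : T → ℂ)).factorization p + (Nat.card (Q.subgroupOf T)).factorization p = (Nat.card T).factorization p := by
    rw [hcQ]; exact hdeg
  constructor
  · letI : Fintype ((Subgroup.centralizer (Q : Set G)).subgroupOf T) := Fintype.ofFinite _
    obtain ⟨ρ, hρc, hρt, hρv⟩ := exists_defect_zero_constituent (p := p) (Q.subgroupOf T)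
      ((Subgroup.centralizer (Q : Set G)).subgroupOf T) χ htriv hdeg'
    let E : (Subgroup.centralizer (Q : Set G)).subgroupOf T ≃* Subgroup.centralizer (Q : Set G) :=
      Subgroup.subgroupOfEquivOfLe hCT
    have hθ' := isIrrCharacter_comp_surj E.symm.toMonoidHom E.symm.surjective ρ.2
    let θ : IrrCharacter (Subgroup.centralizer (Q : Set G)) := ⟨_, hθ'⟩
    have hθe : θ ∈ e := by
      apply mem_block_of_constituent hCT hF' he hF'e hχ
      have h1 : (fun c : Subgroup.centralizer (Q : Set G) => (χ : T → ℂ) ⟨c, hCT c.2⟩) =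
          (fun n : (Subgroup.centralizer (Q : Set G)).subgroupOf T => (χ : T → ℂ) n) ∘ E.symm.toMonoidHom := by
        funext c
        show (χ : T → ℂ) ⟨c, hCT c.2⟩ = (χ : T → ℂ) (E.symm c : T)
        congr 1
      show classInner _ ((ρ : _ → ℂ) ∘ E.symm.toMonoidHom) ≠ 0
      rw [h1, classInner_comp_surj E.symm.toMonoidHom E.symm.surjective]
      exact hρc
    have hθ1 : (θ : Subgroup.centralizer (Q : Set G) → ℂ) 1 = (ρ : (Subgroup.centralizer (Q : Set G)).subgroupOf T → ℂ) 1 := by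
      show (ρ : (Subgroup.centralizer (Q : Set G)).subgroupOf T → ℂ) (E.symm 1) = _
      rw [map_one]
    have hdegθ : charDegree (θ : Subgroup.centralizer (Q : Set G) → ℂ) = charDegree (ρ : (Subgroup.centralizer (Q : Set G)).subgroupOf T → ℂ) := by
      have h2 := apply_one_eq_charDegree (irr_isCharacter θ)
      have h3 := apply_one_eq_charDegree (irr_isCharacter ρ)
      rw [hθ1, h3] at h2
      exact_mod_cast h2.symm
    have hcardC : Nat.card ((Subgroup.centralizer (Q : Set G)).subgroupOf T) = Nat.card (Subgroup.centralizer (Q : Set G)) :=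
      Nat.card_congr E.toEquiv
    have hcardW : Nat.card ((Q.subgroupOf T).subgroupOf ((Subgroup.centralizer (Q : Set G)).subgroupOf T)) =
        Nat.card (Q.subgroupOf (Subgroup.centralizer (Q : Set G))) := by
      apply Nat.card_congr
      refine Equiv.subtypeEquiv E.toEquiv (fun x => ?_)
      simp only [Subgroup.mem_subgroupOf]
      rfl
    have hv : (charDegree (θ : Subgroup.centralizer (Q : Set G) → ℂ)).factorization p +
        (Nat.card (Q.subgroupOf (Subgroup.centralizer (Q : Set G)))).factorization p =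
        (Nat.card (Subgroup.centralizer (Q : Set G))).factorization p := by
      rw [hdegθ, ← hcardW, ← hcardC]
      exact hρv
    have hθt : ∀ z ∈ Q.subgroupOf (Subgroup.centralizer (Q : Set G)),
        (θ : Subgroup.centralizer (Q : Set G) → ℂ) z = (θ : Subgroup.centralizer (Q : Set G) → ℂ) 1 := by
      intro z hz
      rw [hθ1]
      exact hρt _ (Subgroup.mem_subgroupOf.mpr (by
        have : (((E.symm z : _) : T) : G) = (E (E.symm z) : G) := rfl
        show (((E.symm z : _) : T) : G) ∈ Q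
        rw [this, E.apply_symm_apply]
        exact Subgroup.mem_subgroupOf.mp hz))
    have hZp : IsPGroup p (Q.subgroupOf (Subgroup.centralizer (Q : Set G))) := isPGroup_subgroupOf hQp _
    obtain ⟨g₀, hg₀, hg₀s⟩ := Char.MP.exists_central_of_defect_zero hM hZp
      (fun z hz w => Char.MP.central_subgroupOf hz) θ hθt hv
    obtain ⟨D, hD⟩ := IsPBlock.exists_isDefectGroup hM he
    haveI hZn : (Q.subgroupOf (Subgroup.centralizer (Q : Set G))).Normal := ⟨fun z hz w => by
      have := (Char.MP.central_subgroupOf (Q := Q) (w := w) hz).eq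
      rw [this]
      simpa using hz⟩
    have hDZ : D ≤ Q.subgroupOf (Subgroup.centralizer (Q : Set G)) := by
      obtain ⟨u, hu⟩ := IsDefectGroup.conj_le_of_central hM he hD hθe hg₀
      have hup : IsPGroup p (conjS u D) := isPGroup_conjS (IsDefectGroup.isPGroup hD)
      have h1 : conjS u D ≤ Q.subgroupOf (Subgroup.centralizer (Q : Set G)) := by
        intro s hs
        obtain ⟨k, hk⟩ := IsPGroup.iff_orderOf.mp hup ⟨s, hs⟩
        refine hg₀s s (commute_of_mem_centralizer_singleton (hu hs)) ⟨k, ?_⟩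
        rwa [Subgroup.orderOf_mk] at hk
      have h2 := conjS_le_iff.mp h1
      rwa [conjS_of_normal] at h2
    have hZD : Q.subgroupOf (Subgroup.centralizer (Q : Set G)) ≤ D :=
      le_trans (Cfsg.Agent.Lib.Basic.le_pCore hZn hZp) (IsDefectGroup.pCore_le hM he hD)
    have hDeq : D = (Q ⊓ Subgroup.centralizer (Q : Set G)).subgroupOf (Subgroup.centralizer (Q : Set G)) := by
      rw [Subgroup.inf_subgroupOf_right]
      exact le_antisymm hDZ hZD
    rw [← hDeq]
    exact hD
  · intro R hRT hRp hRn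
    intro r hr
    have hRn' : (R.subgroupOf T).Normal := by
      refine ⟨fun q hq t => ?_⟩
      rw [Subgroup.mem_subgroupOf] at hq ⊢
      exact (Subgroup.mem_normalizer_iff.mp (hRn t t.2) q).mp hq
    have := normal_pgroup_le_of_defect_zero hM (Q.subgroupOf T) χ htriv hdeg' hRn'
      (isPGroup_subgroupOf hRp T) (x := ⟨r, hRT hr⟩) (Subgroup.mem_subgroupOf.mpr hr)
    exact Subgroup.mem_subgroupOf.mp this

end Assembly

end Cfsg.Agent.Lib.Blocks
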